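import Cfsg.Agent.GeomClasses.Basic
import Cfsg.Agent.GeomClasses.DecompTools

/-! # The members of the geometric classes do not contain the special linear group -/

set_option autoImplicit false

namespace Cfsg.Agent.GeomClasses.MaxList

open Matrix Cfsg.Geo
open scoped MatrixGroups Kronecker

variable {F : Type*} [Field F] {n : ℕ}

/-- A maximal subgroup below a proper member is the trace of that member. -/
theorem eq_of_le {G : Type*} [Group G] {S H M : Subgroup G} (hH : IsMaximalIn S H) (hle : H ≤ M)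
    (hSM : ¬ S ≤ M) : H = M ⊓ S := by
  rcases hH.2 (M ⊓ S) (le_inf hle hH.1.le) inf_le_right with h | h
  · exact h.symm
  · exact absurd (h ▸ inf_le_left) hSM

theorem subspace_proper {W : Submodule F (Fin n → F)} (h0 : W ≠ ⊥) (h1 : W ≠ ⊤) :
    ¬ specialLinear (Fin n) F ≤ subspaceStabilizer W := by
  intro hle
  obtain ⟨x, hx, hx0⟩ := W.exists_mem_ne_zero_of_ne_bot h0
  obtain ⟨y, hy⟩ := SetLike.exists_not_mem_of_ne_top W h1 rfl
  have hxy : x ∉ Submodule.span F {y} := by
    intro h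
    obtain ⟨c, rfl⟩ := Submodule.mem_span_singleton.mp h
    have hc : c ≠ 0 := fun hc => hx0 (by rw [hc, zero_smul])
    exact hy (by simpa [smul_smul, inv_mul_cancel₀ hc] using W.smul_mem c⁻¹ hx)
  obtain ⟨w, hw, hwx⟩ := exists_dot hxy
  have hwy : w ⬝ᵥ y = 0 := hw y (Submodule.mem_span_singleton_self y)
  have h := mem_subspaceStabilizer_iff.mp (hle (tv_mem_specialLinear y w hwy)) x hx
  rw [tv_mulVec, hwx, one_smul] at h
  exact hy ((W.add_mem_iff_right hx).mp h)

theorem decomp_proper {t m : ℕ} {D : Fin t → Submodule F (Fin n → F)} (hD : IsMDecomposition m D) :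
    ¬ specialLinear (Fin n) F ≤ decompositionStabilizer D := by
  intro hle
  have ht := hD.two_le
  set a₀ : Fin t := ⟨0, by omega⟩
  set a₁ : Fin t := ⟨1, by omega⟩
  have hne : ∀ i, D i ≠ ⊥ := fun i h => by
    have := hD.finrank_eq i
    rw [h, finrank_bot] at this
    have := hD.pos
    omega
  have h01 : a₀ ≠ a₁ := by simp [a₀, a₁, Fin.ext_iff]
  obtain ⟨x, hx, hx0⟩ := (D a₀).exists_mem_ne_zero_of_ne_bot (hne _)
  obtain ⟨y, hy, hy0⟩ := (D a₁).exists_mem_ne_zero_of_ne_bot (hne _)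
  have hdis : ∀ {i j : Fin t}, i ≠ j → ∀ z, z ∈ D i → z ∈ D j → z = 0 := fun hij z hi hj =>
    Submodule.disjoint_def.mp (hD.indep.pairwiseDisjoint hij) z hi hj
  have hxy : x ∉ Submodule.span F {y} := fun h =>
    hx0 (hdis h01 x hx ((Submodule.span_singleton_le_iff_mem _ _).mpr hy h))
  obtain ⟨w, hw, hwx⟩ := exists_dot hxy
  have hwy : w ⬝ᵥ y = 0 := hw y (Submodule.mem_span_singleton_self y)
  obtain ⟨σ, hσ⟩ := hle (tv_mem_specialLinear y w hwy)
  have hmem : x + y ∈ D (σ a₀) := by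
    have h := Submodule.mem_map_of_mem (f := Matrix.toLin' (tv y w hwy : Matrix (Fin n) (Fin n) F)) hx
    rwa [hσ, Matrix.toLin'_apply, tv_mulVec, hwx, one_smul] at h
  by_cases h0 : σ a₀ = a₀
  · rw [h0] at hmem
    exact hy0 (hdis h01 y ((D a₀).add_mem_iff_right hx |>.mp hmem) hy)
  by_cases h1 : σ a₀ = a₁
  · rw [h1] at hmem
    exact hx0 (hdis h01 x hx ((D a₁).add_mem_iff_left hy |>.mp hmem))
  have hle' : D (σ a₀) ⊔ D a₁ ≤ ⨆ j, ⨆ (_ : j ≠ a₀), D j :=
    sup_le (le_iSup₂_of_le (σ a₀) h0 le_rfl) (le_iSup₂_of_le a₁ h01.symm le_rfl)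
  refine hx0 (Submodule.disjoint_def.mp (hD.indep a₀) x hx (hle' ?_))
  simpa using sub_mem (Submodule.mem_sup_left (T := D a₁) hmem) (Submodule.mem_sup_right (S := D (σ a₀)) hy)

theorem field_proper (hn : 3 ≤ n) {r : ℕ} (hr : 2 ≤ r) {K : Subalgebra F (Matrix (Fin n) (Fin n) F)}
    (hK : IsFieldSubalgebra r K) : ¬ specialLinear (Fin n) F ≤ subalgebraNormalizer K := by
  intro hle
  haveI : Nonempty (Fin n) := ⟨⟨0, by omega⟩⟩
  suffices ∀ k ∈ K, k ∈ (⊥ : Subalgebra F (Matrix (Fin n) (Fin n) F)) by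
    have hb : K = ⊥ := le_bot_iff.mp this
    have := hK.finrank_eq
    rw [hb, Subalgebra.finrank_bot] at this
    omega
  intro k hk
  have hcomm : ∀ v w : Fin n → F, ∀ h : w ⬝ᵥ v = 0,
      (tv v w h : Matrix (Fin n) (Fin n) F) * k = k * (tv v w h : Matrix (Fin n) (Fin n) F) := by
    intro v w h
    set t := tv v w h with ht
    have hmem := (hle (tv_mem_specialLinear v w h) k).mp hk
    set d := (t : Matrix (Fin n) (Fin n) F) * k * ((t⁻¹ : GL (Fin n) F) : Matrix (Fin n) (Fin n) F) - k with hd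
    let φ : (Fin n → F) →ₗ[F] (F × F) :=
      { toFun := fun x => (w ⬝ᵥ x, w ⬝ᵥ (k *ᵥ x))
        map_add' := fun x y => by simp [dotProduct_add, Matrix.mulVec_add]
        map_smul' := fun c x => by simp [dotProduct_smul, Matrix.mulVec_smul] }
    have hker : 0 < Module.finrank F (LinearMap.ker φ) := by
      have h1 := LinearMap.finrank_range_add_finrank_ker φ
      have h2 := Submodule.finrank_le (LinearMap.range φ)
      rw [Module.finrank_prod, Module.finrank_self] at h2
      rw [Module.finrank_fin_fun] at h1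
      omega
    obtain ⟨⟨x, hx⟩, hx0⟩ := Module.finrank_pos_iff_exists_ne_zero.mp hker
    have hx1 : w ⬝ᵥ x = 0 := congrArg Prod.fst (LinearMap.mem_ker.mp hx)
    have hx2 : w ⬝ᵥ (k *ᵥ x) = 0 := congrArg Prod.snd (LinearMap.mem_ker.mp hx)
    have htx : (t : Matrix (Fin n) (Fin n) F) *ᵥ x = x := by rw [ht, tv_mulVec, hx1, zero_smul, add_zero]
    have htix : ((t⁻¹ : GL (Fin n) F) : Matrix (Fin n) (Fin n) F) *ᵥ x = x := by
      conv_lhs => rw [← htx, Matrix.mulVec_mulVec, Units.inv_mul, Matrix.one_mulVec]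
    have hdx : d *ᵥ x = 0 := by
      rw [hd, Matrix.sub_mulVec, ← Matrix.mulVec_mulVec, htix, ← Matrix.mulVec_mulVec, ht, tv_mulVec, hx2,
        zero_smul, add_zero, sub_self]
    by_cases hd0 : d = 0
    · have h3 := congrArg (· * (t : Matrix (Fin n) (Fin n) F)) (sub_eq_zero.mp hd0)
      simp only [Units.inv_mul_cancel_right] at h3
      exact h3
    · obtain ⟨y, hy, hdy⟩ := hK.inv d (sub_mem hmem hk) hd0
      refine absurd (Subtype.ext ?_ : (⟨x, hx⟩ : LinearMap.ker φ) = 0) hx0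
      have h4 := hK.comm d (sub_mem hmem hk) y hy
      rw [hdy] at h4
      show x = 0
      rw [← Matrix.one_mulVec x, h4, ← Matrix.mulVec_mulVec, hdx, Matrix.mulVec_zero]
  obtain ⟨c, hc⟩ : k ∈ Set.range (Matrix.scalar (Fin n)) := by
    refine Matrix.mem_range_scalar_iff_commute_single.mpr fun i j hij => ?_
    have hd : (Pi.single j (1 : F) : Fin n → F) ⬝ᵥ Pi.single i 1 = 0 := by
      rw [single_dotProduct, Pi.single_eq_of_ne hij.symm, mul_zero]
    have h := hcomm _ _ hd
    rw [tv_val, Matrix.add_mul, Matrix.mul_add, one_mul, mul_one, add_left_cancel_iff,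
      ← Matrix.single_eq_single_vecMulVec_single] at h
    exact h
  exact Algebra.mem_bot.mpr ⟨c, by rw [← hc, Matrix.algebraMap_eq_diagonal]; rfl⟩

theorem conj_mem_specialLinear {g : GL (Fin n) F} (P : GL (Fin n) F) (h : g ∈ specialLinear (Fin n) F) :
    P * g * P⁻¹ ∈ specialLinear (Fin n) F :=
  (MonoidHom.normal_ker _).conj_mem g h P

/-- The elementary matrices transported along a bijection of index sets lie in the special linear group. -/
theorem exists_tv_of_le {κ : Type} [Fintype κ] [DecidableEq κ] (e : Fin n ≃ κ) (P : GL (Fin n) F)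
    {T : Subgroup (GL κ F)}
    (hle : specialLinear (Fin n) F ≤ (T.map (glReindex e.symm).toMonoidHom).map (MulAut.conj P).toMonoidHom)
    (i j : κ) (hij : i ≠ j) : ∃ g ∈ T, (g : Matrix κ κ F) = 1 + Matrix.single i j 1 := by
  have hd : (Pi.single j (1 : F) : κ → F) ⬝ᵥ Pi.single i 1 = 0 := by
    rw [single_dotProduct, Pi.single_eq_of_ne hij.symm, mul_zero]
  have hmem : glReindex e.symm (tv (Pi.single i (1 : F)) (Pi.single j 1) hd) ∈ specialLinear (Fin n) F := by
    rw [mem_specialLinear_iff]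
    show (Matrix.reindexAlgEquiv F F e.symm _).det = 1
    rw [Matrix.det_reindexAlgEquiv]
    exact mem_specialLinear_iff.mp (tv_mem_specialLinear _ _ hd)
  obtain ⟨_, ⟨g, hg, rfl⟩, hg'⟩ := hle (conj_mem_specialLinear P hmem)
  refine ⟨g, hg, ?_⟩
  have h2 := (glReindex (F := F) e.symm).injective ((MulAut.conj P).injective hg')
  rw [h2, tv_val, ← Matrix.single_eq_single_vecMulVec_single]

theorem tensor_proper {n₁ n₂ : ℕ} (h1 : 2 ≤ n₁) (h2 : 2 ≤ n₂) (e : Fin n ≃ Fin n₁ × Fin n₂) (P : GL (Fin n) F) :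
    ¬ specialLinear (Fin n) F ≤ tensorProductSubgroup n₁ n₂ e P := by
  intro hle
  let a₀ : Fin n₁ := ⟨0, by omega⟩
  let a₁ : Fin n₁ := ⟨1, by omega⟩
  let b₀ : Fin n₂ := ⟨0, by omega⟩
  let b₁ : Fin n₂ := ⟨1, by omega⟩
  have ha : a₀ ≠ a₁ := by simp [a₀, a₁, Fin.ext_iff]
  have hb : b₀ ≠ b₁ := by simp [b₀, b₁, Fin.ext_iff]
  obtain ⟨g, ⟨a, b, hab⟩, hg⟩ := exists_tv_of_le e P hle (a₀, b₀) (a₁, b₁) (fun h => ha (congrArg Prod.fst h))
  rw [hab] at hg
  have e00 := congrFun (congrFun hg (a₀, b₀)) (a₀, b₀)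
  have e11 := congrFun (congrFun hg (a₀, b₀)) (a₁, b₁)
  have e01 := congrFun (congrFun hg (a₀, b₀)) (a₀, b₁)
  simp [Matrix.kroneckerMap_apply, Matrix.one_apply, Matrix.single_apply, ha, ha.symm, hb, hb.symm] at e00 e11 e01
  rcases e01 with h | h
  · rw [h, zero_mul] at e00; exact zero_ne_one e00
  · rw [h, mul_zero] at e11; exact zero_ne_one e11

theorem wreath_mem {m t : ℕ} {g : GL (Fin t → Fin m) F} [Fintype F] (hg : g ∈ tensorWreathStandard m t F) :
    ∃ (σ : Equiv.Perm (Fin t)) (gs : Fin t → GL (Fin m) F), ∀ x y,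
      (g : Matrix (Fin t → Fin m) (Fin t → Fin m) F) x y = ∏ i, (gs i : Matrix (Fin m) (Fin m) F) (x i) (y (σ i)) := by
  classical
  rw [tensorWreathStandard, ← Subgroup.mem_toSubmonoid, Subgroup.closure_toSubmonoid_of_finite] at hg
  induction hg using Submonoid.closure_induction with
  | mem g hg =>
    rcases hg with ⟨gs, hgs⟩ | ⟨σ, hσ⟩
    · exact ⟨1, gs, hgs⟩
    · refine ⟨σ.symm, fun _ => 1, fun x y => ?_⟩
      rw [hσ]
      simp only [Units.val_one, Matrix.one_apply]
      rw [Finset.prod_boole]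
      congr 1
      refine propext ⟨fun h i _ => ?_, fun h => funext fun i => ?_⟩
      · rw [h, Function.comp_apply, Equiv.apply_symm_apply]
      · rw [Function.comp_apply, h (σ i) (Finset.mem_univ _), Equiv.symm_apply_apply]
  | one =>
    refine ⟨1, fun _ => 1, fun x y => ?_⟩
    simp only [Units.val_one, Matrix.one_apply, Equiv.Perm.one_apply]
    by_cases h : x = y
    · subst h; simp
    · obtain ⟨i, hi⟩ := Function.ne_iff.mp h
      rw [if_neg h, Finset.prod_eq_zero (Finset.mem_univ i) (if_neg hi)]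
  | mul g h _ _ hg hh =>
    obtain ⟨σ, gs, hg⟩ := hg
    obtain ⟨τ, hs, hh⟩ := hh
    refine ⟨σ.trans τ, fun i => gs i * hs (σ i), fun x z => ?_⟩
    simp only [Units.val_mul, Matrix.mul_apply, hg, hh, Equiv.trans_apply]
    rw [Fintype.prod_sum]
    refine Fintype.sum_equiv (Equiv.arrowCongr σ.symm (Equiv.refl (Fin m))) _ _ fun y => ?_
    rw [← Equiv.prod_comp σ (fun i => hs i (y i) (z (τ i))), ← Finset.prod_mul_distrib]
    rfl

theorem wreath_proper [Fintype F] {m : ℕ} (hm : 3 ≤ m) (e : Fin n ≃ (Fin 2 → Fin m)) (P : GL (Fin n) F) :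
    ¬ specialLinear (Fin n) F ≤ tensorWreathSubgroup m 2 e P := by
  intro hle
  let a : Fin m := ⟨0, by omega⟩
  let b : Fin m := ⟨1, by omega⟩
  have hab : a ≠ b := by simp [a, b, Fin.ext_iff]
  have hne : (![a, a] : Fin 2 → Fin m) ≠ ![b, b] := fun h => hab (by simpa using congrFun h 0)
  obtain ⟨g, hg, hgv⟩ := exists_tv_of_le e P hle ![a, a] ![b, b] hne
  obtain ⟨σ, gs, hgs⟩ := wreath_mem hg
  have e00 := hgs ![a, a] ![a, a]
  have e11 := hgs ![a, a] ![b, b]
  have e01 := hgs ![a, a] ![a, b]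
  rw [hgv] at e00 e11 e01
  have hσ : σ = 1 ∨ σ = Equiv.swap 0 1 := (by decide : ∀ τ : Equiv.Perm (Fin 2), τ = 1 ∨ τ = Equiv.swap 0 1) σ
  rcases hσ with rfl | rfl <;>
    simp [Fin.prod_univ_two, Matrix.one_apply, Matrix.single_apply, funext_iff, Fin.forall_fin_two, hab, hab.symm] at e00 e11 e01
  all_goals
    rcases e01 with h | h
    · simp [h] at e00 e11
    · simp [h] at e00 e11

theorem subfield_proper [Fintype F] (hn : 2 ≤ n) {F₀ : Subfield F} {r : ℕ} (hr : r.Prime)
    (hcard : Fintype.card F = Nat.card F₀ ^ r) (P : GL (Fin n) F) :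
    ¬ specialLinear (Fin n) F ≤ subfieldSubgroup F₀ P := by
  intro hle
  let i : Fin n := ⟨0, by omega⟩
  let j : Fin n := ⟨1, by omega⟩
  have hij : i ≠ j := by simp [i, j, Fin.ext_iff]
  suffices F₀ = ⊤ by
    subst this
    rw [Nat.card_congr Subfield.topEquiv.toEquiv, Nat.card_eq_fintype_card] at hcard
    exact absurd hcard (Nat.ne_of_lt (by
      calc Fintype.card F = Fintype.card F ^ 1 := (pow_one _).symm
        _ < Fintype.card F ^ r := Nat.pow_lt_pow_right Fintype.one_lt_card hr.one_lt))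
  refine eq_top_iff.mpr fun lam _ => ?_
  have hd : (Pi.single j lam : Fin n → F) ⬝ᵥ Pi.single i 1 = 0 := by
    rw [single_dotProduct, Pi.single_eq_of_ne hij.symm, mul_zero]
  obtain ⟨y, hy, hy'⟩ := hle (conj_mem_specialLinear P (tv_mem_specialLinear _ _ hd))
  rw [(MulAut.conj P).injective hy'] at hy
  rw [Subgroup.mul_normal] at hy
  obtain ⟨_, ⟨y₀, rfl⟩, z, hz, he⟩ := hy
  obtain ⟨c, hc⟩ := (mem_scalars_iff z).mp hz
  have hmat := congrArg Units.val he
  rw [Units.val_mul, hc, Matrix.mul_smul, mul_one, tv_val] at hmat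
  have eii := congrFun (congrFun hmat i) i
  have eij := congrFun (congrFun hmat i) j
  simp [Matrix.vecMulVec_apply, hij, hij.symm] at eii eij
  have hc0 : (c : F) ∈ F₀ := by
    have h' : (c : F) = ((y₀ : Matrix (Fin n) (Fin n) F₀) i i : F)⁻¹ := eq_inv_of_mul_eq_one_left eii
    rw [h']
    exact inv_mem (SetLike.coe_mem _)
  rw [← eij]
  exact mul_mem hc0 (SetLike.coe_mem _)

theorem form_proper (hn : 3 ≤ n) {f : (Fin n → F) → (Fin n → F) → F} (hadd : ∀ x y v, f (x + y) v = f x v + f y v)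
    (hsmul : ∀ (c : F) (x v : Fin n → F), f (c • x) v = c * f x v) (hnd : IsNondegenerateForm f) :
    ¬ specialLinear (Fin n) F ≤ similarityGroup f := by
  intro hle
  haveI : Nonempty (Fin n) := ⟨⟨0, by omega⟩⟩
  obtain ⟨v, hv0⟩ := exists_ne (0 : Fin n → F)
  obtain ⟨u', hu'⟩ := (hnd v hv0).2
  let φ : (Fin n → F) →ₗ[F] F :=
    { toFun := fun x => f x u', map_add' := fun x y => hadd x y u', map_smul' := fun c x => hsmul c x u' }
  obtain ⟨u, hu, hus⟩ : ∃ u, φ u = 0 ∧ u ∉ Submodule.span F {v, u'} := by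
    classical
    by_contra hcon
    push_neg at hcon
    have hle' : LinearMap.ker φ ≤ Submodule.span F {v, u'} := fun x hx => hcon x hx
    have hlt : LinearMap.ker φ < Submodule.span F {v, u'} := lt_of_le_of_ne hle' fun heq => hu' (by
      have : v ∈ LinearMap.ker φ := heq ▸ Submodule.subset_span (Set.mem_insert _ _)
      exact this)
    have h1 := Submodule.finrank_lt_finrank_of_lt hlt
    have h2 := LinearMap.finrank_range_add_finrank_ker φ
    have h3 := Submodule.finrank_le (LinearMap.range φ)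
    have h4 := finrank_span_le_card (R := F) ({v, u'} : Set (Fin n → F))
    have h5 : ({v, u'} : Set (Fin n → F)).toFinset.card ≤ 2 := by
      simp only [Set.toFinset_insert, Set.toFinset_singleton]
      exact Finset.card_le_two
    rw [Module.finrank_self] at h3
    rw [Module.finrank_fin_fun] at h2
    omega
  obtain ⟨w, hw, hwu⟩ := exists_dot hus
  have hwv : w ⬝ᵥ v = 0 := hw v (Submodule.subset_span (Set.mem_insert _ _))
  have hwu' : w ⬝ᵥ u' = 0 := hw u' (Submodule.subset_span (Set.mem_insert_of_mem _ rfl))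
  obtain ⟨c, hc⟩ := hle (tv_mem_specialLinear v w hwv)
  have h := hc u u'
  rw [tv_mulVec, tv_mulVec, hwu, hwu', one_smul, zero_smul, add_zero, hadd, show f u u' = 0 from hu, mul_zero,
    zero_add] at h
  exact hu' h

theorem quad_le_polar (Q : (Fin n → F) → F) : quadSimilarityGroup Q ≤ similarityGroup (QuadraticMap.polar Q) := by
  rintro g ⟨c, hc⟩
  refine ⟨c, fun u v => ?_⟩
  simp only [QuadraticMap.polar, ← Matrix.mulVec_add, hc]
  ring

theorem quad_proper (hn : 3 ≤ n) {Q : (Fin n → F) → F} (hQ : IsNondegenerateQuadraticForm Q) :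
    ¬ specialLinear (Fin n) F ≤ quadSimilarityGroup Q := fun hle =>
  form_proper hn hQ.polar_bilinear.add_left hQ.polar_bilinear.smul_left hQ.nondegenerate
    (hle.trans (quad_le_polar Q))

end Cfsg.Agent.GeomClasses.MaxList
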