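import Cfsg.Agent.GeomClasses.MaxList.SL
import Cfsg.Agent.GeomClasses.BlockCoords

/-! # Exceptional small fields -/

set_option autoImplicit false

namespace Cfsg.Agent.GeomClasses.MaxList

open Matrix Cfsg.Geo
open scoped MatrixGroups Kronecker

variable {F : Type*} [Field F] [Fintype F] {n : ℕ}

local notation "SLn" => specialLinear (Fin n) F

theorem minimal_odd {r p e : ℕ} (hr : r.Prime) (hrp : r ≠ p) (hm : IsMinimalFieldFor r p e F) (hpos : 0 < e) :
    e ∣ r - 1 ∧ p ^ e % r = 1 ∧ (1 < e → p % r ≠ 1) := by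
  obtain ⟨hp, -, -, hd, hmin⟩ := hm
  haveI := Fact.mk hr
  have hp0 : (p : ZMod r) ≠ 0 := fun h => by
    rcases (Nat.dvd_prime hp).mp ((ZMod.natCast_eq_zero_iff p r).mp h) with h1 | h1
    · exact hr.ne_one h1
    · exact hrp h1
  have key : ∀ d, r ∣ p ^ d - 1 ↔ (p : ZMod r) ^ d = 1 := fun d => by
    rw [← ZMod.natCast_eq_zero_iff, Nat.cast_sub (Nat.one_le_pow _ _ hp.pos), Nat.cast_pow, Nat.cast_one, sub_eq_zero]
  have h1 : (p : ZMod r) ^ Nat.gcd e (r - 1) = 1 :=
    pow_gcd_eq_one.mpr ⟨(key e).mp hd, ZMod.pow_card_sub_one_eq_one hp0⟩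
  have hgpos : 0 < Nat.gcd e (r - 1) := Nat.gcd_pos_of_pos_left _ hpos
  refine ⟨?_, ?_, fun he h => ?_⟩
  · by_contra hne
    refine hmin _ hgpos (lt_of_le_of_ne (Nat.le_of_dvd hpos (Nat.gcd_dvd_left _ _)) fun h => hne ?_) ((key _).mpr h1)
    exact h ▸ Nat.gcd_dvd_right e (r - 1)
  · have h2 := (key e).mp hd
    rw [← Nat.cast_pow, ← Nat.cast_one, ZMod.natCast_eq_natCast_iff', Nat.one_mod_eq_one.mpr hr.ne_one] at h2
    exact h2
  · refine hmin 1 one_pos he ((key 1).mpr ?_)
    rw [pow_one, ← ZMod.natCast_mod p r, h, Nat.cast_one]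

theorem minimal_e_pos {z p e : ℕ} (hm : IsMinimalFieldFor z p e F) : 0 < e := by
  by_contra h
  have h2 := Fintype.one_lt_card (α := F)
  rw [hm.2.2.1, show e = 0 by omega, pow_zero] at h2
  omega

theorem symp_field_small {r : ℕ} {R : Subgroup (GL (Fin n) F)} (hn : 3 ≤ n)
    (h : IsLinearSymplecticTypeData r R) (hr : r = 3 ∨ r = 5) :
    ∃ p : ℕ, p.Prime ∧ Fintype.card F = p ∧ p % r = 1 := by
  obtain ⟨p, e, hrp, hm, ho, -⟩ := data_minimal hn h
  have hz : r * Nat.gcd 2 r = r := by rcases hr with rfl | rfl <;> rfl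
  rw [hz] at hm
  have hpos := minimal_e_pos hm
  obtain ⟨hd, hmod, -⟩ := minimal_odd h.symplecticType.prime hrp hm hpos
  have he1 : e = 1 := by
    have hodd : Odd r := by rcases hr with rfl | rfl <;> decide
    have heo : Odd e := ho hodd
    rw [Nat.odd_iff] at heo
    rcases hr with rfl | rfl <;>
      (have := Nat.le_of_dvd (by norm_num) hd; interval_cases e <;> omega)
  subst he1
  rw [pow_one] at hmod
  exact ⟨p, hm.1, by rw [hm.2.2.1, pow_one], hmod⟩

theorem symp_field_seven {R : Subgroup (GL (Fin n) F)} (hn : 3 ≤ n) (h : IsLinearSymplecticTypeData 7 R) :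
    ∃ p : ℕ, p.Prime ∧ CharP F p ∧
      ((Fintype.card F = p ∧ p % 7 = 1) ∨ (Fintype.card F = p ^ 3 ∧ (p % 7 = 2 ∨ p % 7 = 4))) := by
  obtain ⟨p, e, hrp, hm, ho, -⟩ := data_minimal hn h
  rw [show 7 * Nat.gcd 2 7 = 7 from rfl] at hm
  obtain ⟨hd, hmod, hne⟩ := minimal_odd h.symplecticType.prime hrp hm (minimal_e_pos hm)
  have heo := Nat.odd_iff.mp (ho (by decide))
  have hle := Nat.le_of_dvd (by norm_num) hd
  refine ⟨p, hm.1, hm.2.1, ?_⟩
  rcases (show e = 1 ∨ e = 3 by interval_cases e <;> first | omega | (exfalso; revert hd; decide)) with rfl | rfl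
  · exact Or.inl ⟨by rw [hm.2.2.1, pow_one], by rwa [pow_one] at hmod⟩
  · refine Or.inr ⟨hm.2.2.1, ?_⟩
    have := hne (by norm_num)
    rw [Nat.pow_mod] at hmod
    have := Nat.mod_lt p (show 7 > 0 by norm_num)
    interval_cases hh : p % 7 <;> simp_all

theorem symp_field_eleven {R : Subgroup (GL (Fin n) F)} (hn : 3 ≤ n) (h : IsLinearSymplecticTypeData 11 R) :
    ∃ p : ℕ, p.Prime ∧ CharP F p ∧ ((Fintype.card F = p ∧ p % 11 = 1) ∨
      (Fintype.card F = p ^ 5 ∧ (p % 11 = 3 ∨ p % 11 = 4 ∨ p % 11 = 5 ∨ p % 11 = 9))) := by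
  obtain ⟨p, e, hrp, hm, ho, -⟩ := data_minimal hn h
  rw [show 11 * Nat.gcd 2 11 = 11 from rfl] at hm
  obtain ⟨hd, hmod, hne⟩ := minimal_odd h.symplecticType.prime hrp hm (minimal_e_pos hm)
  have heo := Nat.odd_iff.mp (ho (by decide))
  have hle := Nat.le_of_dvd (by norm_num) hd
  refine ⟨p, hm.1, hm.2.1, ?_⟩
  rcases (show e = 1 ∨ e = 5 by interval_cases e <;> first | omega | (exfalso; revert hd; decide)) with rfl | rfl
  · exact Or.inl ⟨by rw [hm.2.2.1, pow_one], by rwa [pow_one] at hmod⟩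
  · refine Or.inr ⟨hm.2.2.1, ?_⟩
    have := hne (by norm_num)
    rw [Nat.pow_mod] at hmod
    have := Nat.mod_lt p (show 11 > 0 by norm_num)
    interval_cases hh : p % 11 <;> simp_all

theorem symp_field_two {R : Subgroup (GL (Fin n) F)} (hn : 3 ≤ n) (h : IsLinearSymplecticTypeData 2 R) :
    ∃ p : ℕ, p.Prime ∧ Fintype.card F = p ∧ p % 4 = 1 := by
  obtain ⟨p, e, -, hm, -, he⟩ := data_minimal hn h
  have he1 := he rfl
  subst he1
  rw [show 2 * Nat.gcd 2 2 = 4 from rfl] at hm
  obtain ⟨hp, -, hc, hd, -⟩ := hm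
  rw [pow_one] at hc hd
  have := hp.two_le
  exact ⟨p, hp, hc, by omega⟩

/-- Coordinates with respect to a basis adapted to a decomposition. -/
theorem exists_adapted {t m : ℕ} {D : Fin t → Submodule F (Fin n → F)} (hD : IsMDecomposition m D) :
    ∃ b : Module.Basis (Fin t × Fin m) F (Fin n → F),
      ∀ a x, x ∈ D a ↔ ∀ i j, i ≠ a → b.repr x (i, j) = 0 := by
  classical
  let b₀ : ∀ i, Module.Basis (Fin m) F (D i) := fun i => Module.finBasisOfFinrankEq F (D i) (hD.finrank_eq i)
  obtain ⟨e, -, he⟩ := exists_blockCoords hD b₀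
  exact ⟨Module.Basis.ofEquivFun e, fun a x => by simpa using he a x⟩

/-- The action of an element of a decomposition stabiliser on adapted coordinates. -/
theorem coords_mul {t m : ℕ} {D : Fin t → Submodule F (Fin n → F)} (b : Module.Basis (Fin t × Fin m) F (Fin n → F))
    (hb : ∀ a x, x ∈ D a ↔ ∀ i j, i ≠ a → b.repr x (i, j) = 0) {g : GL (Fin n) F}
    (hg : g ∈ decompositionStabilizer D) :
    ∃ (σ : Equiv.Perm (Fin t)) (A : Fin t → Matrix (Fin m) (Fin m) F), (∀ a, (A a).det ≠ 0) ∧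
      ∀ u a j, b.repr ((g : Matrix (Fin n) (Fin n) F) *ᵥ u) (σ a, j) = ∑ k, A a j k * b.repr u (a, k) := by
  classical
  obtain ⟨σ, hσ⟩ := hg
  let A : Fin t → Matrix (Fin m) (Fin m) F :=
    fun a => Matrix.of fun j k => b.repr ((g : Matrix (Fin n) (Fin n) F) *ᵥ b (a, k)) (σ a, j)
  have hmem : ∀ a k, b (a, k) ∈ D a := fun a k => (hb a _).mpr fun i j hi => by
    rw [b.repr_self, Finsupp.single_apply, if_neg]
    exact fun h => hi (congrArg Prod.fst h).symm
  have himg : ∀ a k, (g : Matrix (Fin n) (Fin n) F) *ᵥ b (a, k) ∈ D (σ a) := fun a k => by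
    rw [← hσ a]; exact ⟨_, hmem a k, Matrix.toLin'_apply _ _⟩
  have key : ∀ u a j, b.repr ((g : Matrix (Fin n) (Fin n) F) *ᵥ u) (σ a, j) = ∑ k, A a j k * b.repr u (a, k) := by
    intro u a j
    conv_lhs => rw [← b.sum_repr u]
    rw [Matrix.mulVec_sum, map_sum, Finsupp.finset_sum_apply, Fintype.sum_prod_type,
      Finset.sum_eq_single a]
    · refine Finset.sum_congr rfl fun k _ => ?_
      rw [Matrix.mulVec_smul, map_smul, Finsupp.smul_apply, smul_eq_mul, mul_comm]
      rfl
    · intro c _ hc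
      refine Finset.sum_eq_zero fun k _ => ?_
      rw [Matrix.mulVec_smul, map_smul, Finsupp.smul_apply,
        (hb (σ c) _).mp (himg c k) (σ a) j fun h => hc (σ.injective h).symm, smul_zero]
    · simp
  refine ⟨σ, A, fun a hdet => ?_, key⟩
  obtain ⟨v, hv, hAv⟩ := Matrix.exists_mulVec_eq_zero_iff.mpr hdet
  set x := ∑ k, v k • b (a, k) with hx
  have hrepr : ∀ c k, b.repr x (c, k) = if c = a then v k else 0 := by
    intro c k
    rw [hx, map_sum, Finsupp.finset_sum_apply]
    split_ifs with h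
    · subst h
      simp [b.repr_self, Finsupp.single_apply]
    · refine Finset.sum_eq_zero fun l _ => ?_
      simp [b.repr_self, Finsupp.single_apply, Ne.symm h]
  have hgx : (g : Matrix (Fin n) (Fin n) F) *ᵥ x = 0 := by
    refine b.repr.injective (Finsupp.ext fun ⟨c, j⟩ => ?_)
    obtain ⟨c, rfl⟩ := σ.surjective c
    rw [key, map_zero, Finsupp.zero_apply]
    by_cases h : c = a
    · subst h
      simp only [hrepr, if_true]
      exact congrFun hAv j
    · simp [hrepr, h]
  have hx0 : x = 0 := by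
    have := congrArg (((g⁻¹ : GL (Fin n) F) : Matrix (Fin n) (Fin n) F) *ᵥ ·) hgx
    simpa [Matrix.mulVec_mulVec] using this
  exact hv (funext fun k => by simpa [hx0] using (hrepr a k).symm)

theorem card_two_elems (h : Fintype.card F = 2) (x : F) : x = 0 ∨ x = 1 := by
  classical
  by_contra hx
  push_neg at hx
  have := Finset.card_le_univ ({0, 1, x} : Finset F)
  rw [Finset.card_eq_three.mpr ⟨0, 1, x, zero_ne_one, hx.1.symm, hx.2.symm, rfl⟩, h] at this
  omega

/-- Monomial groups over very small fields lie in other members. -/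
theorem monomial_small (hn : 3 ≤ n) (hq : Fintype.card F ≤ 4) {H : Subgroup (GL (Fin n) F)}
    (hH : IsMaximalIn SLn H) {t : ℕ} {D : Fin t → Submodule F (Fin n → F)} (hD : IsMDecomposition 1 D)
    (hle : H ≤ decompositionStabilizer D) :
    (∃ W : Submodule F (Fin n → F), W ≠ ⊥ ∧ W ≠ ⊤ ∧ H = subspaceStabilizer W ⊓ SLn) ∨
    (∃ (σ : F ≃+* F) (f : (Fin n → F) → (Fin n → F) → F), IsUnitaryForm σ f ∧ H = similarityGroup f ⊓ SLn) ∨
    (Odd (Fintype.card F) ∧ ∃ Q : (Fin n → F) → F, IsNondegenerateQuadraticForm Q ∧ H = quadSimilarityGroup Q ⊓ SLn) := by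
  classical
  obtain ⟨b, hb⟩ := exists_adapted hD
  have hgen : ∀ g ∈ H, ∃ (σ : Equiv.Perm (Fin t)) (c : Fin t → F), (∀ a, c a ≠ 0) ∧
      ∀ u a, b.repr ((g : Matrix (Fin n) (Fin n) F) *ᵥ u) (σ a, 0) = c a * b.repr u (a, 0) := by
    intro g hg
    obtain ⟨σ, A, hA, h⟩ := coords_mul b hb (hle hg)
    exact ⟨σ, fun a => A a 0 0, fun a h0 => hA a (by rw [Matrix.det_fin_one]; exact h0), fun u a => by simpa using h u a 0⟩
  have h2 := Fintype.one_lt_card (α := F)
  have hsep : ∀ w, (∀ a, b.repr w (a, 0) = 0) → w = 0 := fun w h => b.repr.injective (Finsupp.ext fun ⟨a, j⟩ => by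
    rw [Subsingleton.elim j 0, h, map_zero, Finsupp.zero_apply])
  rcases (show Fintype.card F = 2 ∨ Fintype.card F = 3 ∨ Fintype.card F = 4 by omega) with h | h | h
  · -- two elements
    left
    set v := ∑ a, b (a, 0) with hv
    have hv1 : ∀ a, b.repr v (a, 0) = 1 := fun a => by
      rw [hv, map_sum, Finsupp.finset_sum_apply, Finset.sum_eq_single a] <;> simp +contextual [b.repr_self, Finsupp.single_apply]
    have hv0 : v ≠ 0 := fun h0 => by
      have := hv1 ⟨0, by have := hD.two_le; omega⟩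
      rw [h0, map_zero, Finsupp.zero_apply] at this
      exact zero_ne_one this
    set W : Submodule F (Fin n → F) := Submodule.span F {v}
    have hfr : Module.finrank F W = 1 := finrank_span_singleton hv0
    have h0 : W ≠ ⊥ := fun e => by rw [e, finrank_bot] at hfr; omega
    have h1 : W ≠ ⊤ := fun e => by rw [e, finrank_top, Module.finrank_fin_fun] at hfr; omega
    refine ⟨W, h0, h1, eq_of_le hH (fun g hg => ?_) (subspace_proper h0 h1)⟩
    rw [mem_subspaceStabilizer_iff]
    intro x hx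
    obtain ⟨l, rfl⟩ := Submodule.mem_span_singleton.mp hx
    obtain ⟨σ, c, hc, hgu⟩ := hgen g hg
    have : (g : Matrix (Fin n) (Fin n) F) *ᵥ v = v := sub_eq_zero.mp <| hsep _ fun a => by
      obtain ⟨a, rfl⟩ := σ.surjective a
      rw [map_sub, Finsupp.sub_apply, hgu, hv1, hv1, (card_two_elems h (c a)).resolve_left (hc a)]
      simp
    rw [Matrix.mulVec_smul, this]
    exact W.smul_mem _ (Submodule.mem_span_singleton_self v)
  · -- three elements
    right; right
    have hodd : Odd (Fintype.card F) := by rw [h]; decide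
    have h2F : (2 : F) ≠ 0 := fun e => by
      have h3 : ((3 : ℕ) : F) = 0 := by rw [← h]; exact FiniteField.cast_card_eq_zero F
      rw [Nat.cast_ofNat, show (3 : F) = 2 + 1 by norm_num, e, zero_add] at h3
      exact one_ne_zero h3
    let Q : (Fin n → F) → F := fun u => ∑ a, (b.repr u (a, 0)) ^ 2
    have hpol : ∀ u w, QuadraticMap.polar Q u w = ∑ a, 2 * b.repr u (a, 0) * b.repr w (a, 0) := fun u w => by
      simp only [QuadraticMap.polar, Q, map_add, Finsupp.add_apply, ← Finset.sum_sub_distrib]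
      exact Finset.sum_congr rfl fun a _ => by ring
    have hQ : IsNondegenerateQuadraticForm Q := by
      refine ⟨fun c u => ?_, ⟨fun x y w => ?_, fun c x w => ?_, fun w x y => ?_, fun c w x => ?_⟩, fun w hw => ?_⟩
      · simp only [Q, Finset.mul_sum, map_smul, Finsupp.smul_apply, smul_eq_mul, mul_pow]
      · simp only [hpol, map_add, Finsupp.add_apply, ← Finset.sum_add_distrib]
        exact Finset.sum_congr rfl fun a _ => by ring
      · simp only [hpol, Finset.mul_sum, map_smul, Finsupp.smul_apply, smul_eq_mul]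
        exact Finset.sum_congr rfl fun a _ => by ring
      · simp only [hpol, map_add, Finsupp.add_apply, ← Finset.sum_add_distrib]
        exact Finset.sum_congr rfl fun a _ => by ring
      · simp only [hpol, Finset.mul_sum, map_smul, Finsupp.smul_apply, smul_eq_mul]
        exact Finset.sum_congr rfl fun a _ => by ring
      · obtain ⟨a, ha⟩ := not_forall.mp fun hall => hw (hsep w hall)
        refine ⟨⟨b (a, 0), ?_⟩, ⟨b (a, 0), ?_⟩⟩ <;>
          simp [hpol, b.repr_self, Finsupp.single_apply, ha, h2F]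
    refine ⟨hodd, Q, hQ, eq_of_le hH (fun g hg => ?_) (quad_proper hn hQ)⟩
    obtain ⟨σ, c, hc, hgu⟩ := hgen g hg
    refine ⟨1, fun u => ?_⟩
    rw [Units.val_one, one_mul]
    show ∑ a, _ = ∑ a, _
    rw [← Equiv.sum_comp σ]
    refine Finset.sum_congr rfl fun a _ => ?_
    rw [hgu, mul_pow]
    have := FiniteField.pow_card_sub_one_eq_one (c a) (hc a)
    rw [h] at this
    rw [show (3 - 1 : ℕ) = 2 from rfl] at this
    rw [this, one_mul]
  · -- four elements
    right; left
    haveI : CharP F 2 := by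
      obtain ⟨p, hp⟩ := CharP.exists F
      haveI := hp
      obtain ⟨e, hpp, hcard⟩ := FiniteField.card F p
      have : p ∣ 4 := h ▸ hcard ▸ dvd_pow_self p e.pos.ne'
      have := Nat.le_of_dvd (by norm_num) this
      interval_cases p <;> first | exact hp | omega | exact absurd hpp Nat.not_prime_zero | exact absurd hpp Nat.not_prime_one | exact absurd hpp (by norm_num)
    let σ₀ : F ≃+* F := iterateFrobeniusEquiv F 2 1
    have hσ : ∀ a, σ₀ a = a ^ 2 := fun a => by
      rw [show σ₀ a = iterateFrobeniusEquiv F 2 1 a from rfl, iterateFrobeniusEquiv_def]; rfl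
    have hinv : ∀ a, σ₀ (σ₀ a) = a := fun a => by
      rw [hσ, hσ, ← pow_mul, show 2 * 2 = Fintype.card F by rw [h]]; exact FiniteField.pow_card a
    let f : (Fin n → F) → (Fin n → F) → F := fun u w => ∑ a, b.repr u (a, 0) * σ₀ (b.repr w (a, 0))
    have hne : σ₀ ≠ RingEquiv.refl F := fun e => by
      have hall : ∀ a : F, a ^ 2 = a := fun a => by rw [← hσ, e]; rfl
      have : (Finset.univ : Finset F) ⊆ {0, 1} := fun a _ => by
        rcases mul_eq_zero.mp (show a * (a - 1) = 0 by rw [mul_sub, mul_one, ← pow_two, hall, sub_self]) with h' | h'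
        · simp [h']
        · simp [sub_eq_zero.mp h']
      have := Finset.card_le_card this
      rw [Finset.card_univ, h] at this
      exact absurd (this.trans Finset.card_le_two) (by norm_num)
    have hf : IsUnitaryForm σ₀ f := by
      refine ⟨hne, hinv, fun x y w => ?_, fun c x w => ?_, fun u w => ?_, fun w hw => ?_⟩
      · simp only [f, map_add, Finsupp.add_apply, ← Finset.sum_add_distrib]
        exact Finset.sum_congr rfl fun a _ => by ring
      · simp only [f, Finset.mul_sum, map_smul, Finsupp.smul_apply, smul_eq_mul]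
        exact Finset.sum_congr rfl fun a _ => by ring
      · simp only [f, map_sum, map_mul, hinv]
        exact Finset.sum_congr rfl fun a _ => mul_comm _ _
      · obtain ⟨a, ha⟩ := not_forall.mp fun hall => hw (hsep w hall)
        refine ⟨⟨b (a, 0), ?_⟩, ⟨b (a, 0), ?_⟩⟩ <;>
          simp [f, b.repr_self, Finsupp.single_apply, ha, apply_ite σ₀]
    refine ⟨σ₀, f, hf, eq_of_le hH (fun g hg => ?_) (form_proper hn hf.add_left hf.smul_left hf.nondegenerate)⟩
    obtain ⟨σ, c, hc, hgu⟩ := hgen g hg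
    refine ⟨1, fun u w => ?_⟩
    rw [Units.val_one, one_mul]
    show ∑ a, _ = ∑ a, _
    rw [← Equiv.sum_comp σ]
    refine Finset.sum_congr rfl fun a _ => ?_
    rw [hgu, hgu, map_mul, hσ (c a)]
    have := FiniteField.pow_card_sub_one_eq_one (c a) (hc a)
    rw [h] at this
    calc _ = c a ^ (4 - 1) * (b.repr u (a, 0) * σ₀ (b.repr w (a, 0))) := by ring
      _ = _ := by rw [this, one_mul]

/-- Decompositions into planes over the field with two elements fix a symplectic form. -/
theorem planes_two (hn : 3 ≤ n) (hq : Fintype.card F = 2) {H : Subgroup (GL (Fin n) F)}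
    (hH : IsMaximalIn SLn H) {t : ℕ} {D : Fin t → Submodule F (Fin n → F)} (hD : IsMDecomposition 2 D)
    (hle : H ≤ decompositionStabilizer D) :
    ∃ f : (Fin n → F) → (Fin n → F) → F, IsSymplecticForm f ∧ H = similarityGroup f ⊓ SLn := by
  classical
  obtain ⟨b, hb⟩ := exists_adapted hD
  let f : (Fin n → F) → (Fin n → F) → F := fun u w =>
    ∑ a, (b.repr u (a, 0) * b.repr w (a, 1) - b.repr u (a, 1) * b.repr w (a, 0))
  have hf : IsSymplecticForm f := by
    refine ⟨⟨fun x y w => ?_, fun c x w => ?_, fun w x y => ?_, fun c w x => ?_⟩, fun u w => ?_, fun u => ?_, fun w hw => ?_⟩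
    · simp only [f, map_add, Finsupp.add_apply, ← Finset.sum_add_distrib]
      exact Finset.sum_congr rfl fun a _ => by ring
    · simp only [f, Finset.mul_sum, map_smul, Finsupp.smul_apply, smul_eq_mul]
      exact Finset.sum_congr rfl fun a _ => by ring
    · simp only [f, map_add, Finsupp.add_apply, ← Finset.sum_add_distrib]
      exact Finset.sum_congr rfl fun a _ => by ring
    · simp only [f, Finset.mul_sum, map_smul, Finsupp.smul_apply, smul_eq_mul]
      exact Finset.sum_congr rfl fun a _ => by ring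
    · simp only [f, ← Finset.sum_neg_distrib]
      exact Finset.sum_congr rfl fun a _ => by ring
    · simp only [f]
      exact Finset.sum_eq_zero fun a _ => by ring
    · obtain ⟨⟨a, j⟩, ha⟩ := not_forall.mp fun hall : ∀ x, b.repr w x = 0 => hw (b.repr.injective (Finsupp.ext fun x => by simpa using hall x))
      fin_cases j
      · refine ⟨⟨b (a, 1), ?_⟩, ⟨b (a, 1), ?_⟩⟩ <;>
          simp [f, b.repr_self, Finsupp.single_apply] <;> simpa using ha
      · refine ⟨⟨b (a, 0), ?_⟩, ⟨b (a, 0), ?_⟩⟩ <;>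
          simp [f, b.repr_self, Finsupp.single_apply] <;> simpa using ha
  refine ⟨f, hf, eq_of_le hH (fun g hg => ?_) (form_proper hn hf.bilinear.add_left hf.bilinear.smul_left hf.nondegenerate)⟩
  obtain ⟨σ, A, hA, hgu⟩ := coords_mul b hb (hle hg)
  refine ⟨1, fun u w => ?_⟩
  rw [Units.val_one, one_mul]
  show ∑ a, _ = ∑ a, _
  rw [← Equiv.sum_comp σ]
  refine Finset.sum_congr rfl fun a _ => ?_
  simp only [hgu, Fin.sum_univ_two]
  have h1 : (A a).det = 1 := (card_two_elems hq _).resolve_left (hA a)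
  rw [Matrix.det_fin_two] at h1
  linear_combination (b.repr u (a, 0) * b.repr w (a, 1) - b.repr u (a, 1) * b.repr w (a, 0)) * h1

/-- The field with four elements inside the matrices of degree two over the field with two elements. -/
theorem tensor_two (hn : 3 ≤ n) (hq : Fintype.card F = 2) {H : Subgroup (GL (Fin n) F)}
    (hH : IsMaximalIn SLn H) {n₂ : ℕ} (h2 : 0 < n₂) (e : Fin n ≃ Fin 2 × Fin n₂) (P : GL (Fin n) F)
    (hle : H ≤ tensorProductSubgroup 2 n₂ e P) :
    ∃ K : Subalgebra F (Matrix (Fin n) (Fin n) F), IsFieldSubalgebra 2 K ∧ H = subalgebraNormalizer K ⊓ SLn := by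
  classical
  haveI : Nonempty (Fin n₂) := ⟨⟨0, h2⟩⟩
  set w : Matrix (Fin 2) (Fin 2) F := !![0, 1; 1, 1] with hw
  have h11 : (1 : F) + 1 = 0 := by
    rcases card_two_elems hq (1 + 1) with h | h
    · exact h
    · exact absurd (add_eq_left.mp h) one_ne_zero
  have hw2 : w * w = 1 + w := by
    ext i j; fin_cases i <;> fin_cases j <;> simp [hw, h11]
  let L : Subalgebra F (Matrix (Fin 2) (Fin 2) F) :=
    { carrier := {A | ∃ x y : F, A = x • 1 + y • w}
      mul_mem' := by
        rintro _ _ ⟨x, y, rfl⟩ ⟨x', y', rfl⟩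
        refine ⟨x * x' + y * y', x * y' + y * x' + y * y', ?_⟩
        rw [add_mul, mul_add, mul_add, Matrix.smul_mul, Matrix.smul_mul, Matrix.smul_mul, Matrix.smul_mul,
          Matrix.mul_smul, Matrix.mul_smul, Matrix.mul_smul, Matrix.mul_smul, hw2, one_mul, one_mul, mul_one]
        module
      add_mem' := by
        rintro _ _ ⟨x, y, rfl⟩ ⟨x', y', rfl⟩
        exact ⟨x + x', y + y', by module⟩
      algebraMap_mem' := fun c => ⟨c, 0, by rw [Algebra.algebraMap_eq_smul_one]; simp⟩ }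
  have hLmem : ∀ A, A ∈ L ↔ ∃ x y : F, A = x • 1 + y • w := fun A => Iff.rfl
  let ψ : Matrix (Fin 2) (Fin 2) F →ₐ[F] Matrix (Fin n) (Fin n) F :=
    { toFun := fun A => (P : Matrix (Fin n) (Fin n) F) * Matrix.reindexAlgEquiv F F e.symm (A ⊗ₖ (1 : Matrix (Fin n₂) (Fin n₂) F)) * ((P⁻¹ : GL (Fin n) F) : Matrix (Fin n) (Fin n) F)
      map_one' := by rw [Matrix.one_kronecker_one, map_one, mul_one, Units.mul_inv]
      map_mul' := fun A B => by
        rw [show (A * B) ⊗ₖ (1 : Matrix (Fin n₂) (Fin n₂) F) = (A ⊗ₖ (1 : Matrix (Fin n₂) (Fin n₂) F)) * (B ⊗ₖ (1 : Matrix (Fin n₂) (Fin n₂) F)) by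
          rw [← Matrix.mul_kronecker_mul, one_mul], map_mul]
        simp only [mul_assoc, Units.inv_mul_cancel_left]
      map_zero' := by rw [Matrix.zero_kronecker, map_zero, mul_zero, zero_mul]
      map_add' := fun A B => by rw [Matrix.add_kronecker, map_add, mul_add, add_mul]
      commutes' := fun c => by
        rw [Algebra.algebraMap_eq_smul_one, Matrix.smul_kronecker, Matrix.one_kronecker_one, map_smul, map_one,
          Matrix.mul_smul, mul_one, Matrix.smul_mul, Units.mul_inv, Algebra.algebraMap_eq_smul_one] }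
  haveI : Nonempty (Fin n) := ⟨⟨0, by omega⟩⟩
  have hinj : Function.Injective ψ := RingHom.injective ψ.toRingHom
  let K := L.map ψ
  have hK : IsFieldSubalgebra 2 K := by
    refine ⟨?_, ?_, ?_⟩
    · rintro _ ⟨A, hA, rfl⟩ _ ⟨B, hB, rfl⟩
      show ψ A * ψ B = ψ B * ψ A
      obtain ⟨x, y, rfl⟩ := hA
      obtain ⟨x', y', rfl⟩ := hB
      rw [← map_mul, ← map_mul]
      congr 1
      rw [add_mul, mul_add, mul_add, add_mul, mul_add, mul_add]
      simp only [Matrix.smul_mul, Matrix.mul_smul, one_mul, mul_one, smul_smul]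
      module
    · rintro _ ⟨A, hA, rfl⟩ hA0
      obtain ⟨x, y, rfl⟩ := hA
      rcases card_two_elems hq x with rfl | rfl <;> rcases card_two_elems hq y with rfl | rfl
      · exact absurd (by simp) hA0
      · refine ⟨ψ (1 + w), ⟨1 + w, ⟨1, 1, by simp⟩, rfl⟩, ?_⟩
        show ψ _ * ψ _ = 1
        rw [← map_mul, ← map_one ψ]
        congr 1
        rw [zero_smul, zero_add, one_smul, mul_add, mul_one, hw2, add_comm 1 w, ← add_assoc, ← two_smul F w,
          show (2 : F) = 0 by rw [← one_add_one_eq_two, h11], zero_smul, zero_add]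
      · exact ⟨1, one_mem _, by simp⟩
      · refine ⟨ψ w, ⟨w, ⟨0, 1, by simp⟩, rfl⟩, ?_⟩
        show ψ _ * ψ _ = 1
        rw [← map_mul, ← map_one ψ]
        congr 1
        rw [one_smul, one_smul, add_mul, one_mul, hw2, add_comm 1 w, ← add_assoc, ← two_smul F w,
          show (2 : F) = 0 by rw [← one_add_one_eq_two, h11], zero_smul, zero_add]
    · rw [← (L.equivMapOfInjective ψ hinj).toLinearEquiv.finrank_eq]
      let θ : (Fin 2 → F) →ₗ[F] L :=
        { toFun := fun z => ⟨z 0 • 1 + z 1 • w, ⟨_, _, rfl⟩⟩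
          map_add' := fun z z' => Subtype.ext (by
            show (z 0 + z' 0) • (1 : Matrix (Fin 2) (Fin 2) F) + (z 1 + z' 1) • w = (z 0 • 1 + z 1 • w) + (z' 0 • 1 + z' 1 • w)
            module)
          map_smul' := fun c z => Subtype.ext (by
            show (c * z 0) • (1 : Matrix (Fin 2) (Fin 2) F) + (c * z 1) • w = c • (z 0 • 1 + z 1 • w)
            module) }
      rw [← LinearEquiv.finrank_eq (LinearEquiv.ofBijective θ ⟨fun z z' h => ?_, fun A => ?_⟩), Module.finrank_fin_fun]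
      · have h' := congrArg Subtype.val h
        have a := congrFun (congrFun h' 0) 0
        have c := congrFun (congrFun h' 0) 1
        simp [θ, hw] at a c
        funext i; fin_cases i
        · exact a
        · exact c
      · obtain ⟨x, y, hxy⟩ := (hLmem _).mp A.2
        exact ⟨![x, y], Subtype.ext (by simp [θ, hxy])⟩
  refine ⟨K, hK, eq_of_le hH ?_ (field_proper hn le_rfl hK)⟩
  have key : ∀ g ∈ tensorProductSubgroup 2 n₂ e P, ∀ k ∈ K,
      (g : Matrix (Fin n) (Fin n) F) * k * ((g⁻¹ : GL (Fin n) F) : Matrix (Fin n) (Fin n) F) ∈ K := by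
    rintro _ ⟨_, ⟨y, ⟨a, c, hy⟩, rfl⟩, rfl⟩ _ ⟨A, hA, rfl⟩
    have hconj : ((a : Matrix (Fin 2) (Fin 2) F) * w * ((a⁻¹ : GL (Fin 2) F) : Matrix (Fin 2) (Fin 2) F)) ∈ L := by
      have hdet : (a : Matrix (Fin 2) (Fin 2) F).det = 1 := (card_two_elems hq _).resolve_left
        ((Matrix.isUnit_iff_isUnit_det _).mp a.isUnit).ne_zero
      rw [Matrix.det_fin_two] at hdet
      have hsw : ∃ x y : F, (a : Matrix (Fin 2) (Fin 2) F) * w = (x • 1 + y • w) * (a : Matrix (Fin 2) (Fin 2) F) := by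
        rcases card_two_elems hq ((a : Matrix (Fin 2) (Fin 2) F) 0 0) with e00 | e00 <;>
        rcases card_two_elems hq ((a : Matrix (Fin 2) (Fin 2) F) 0 1) with e01 | e01 <;>
        rcases card_two_elems hq ((a : Matrix (Fin 2) (Fin 2) F) 1 0) with e10 | e10 <;>
        rcases card_two_elems hq ((a : Matrix (Fin 2) (Fin 2) F) 1 1) with e11 | e11 <;>
        first
          | (exfalso; simp [e00, e01, e10, e11, h11] at hdet; done)
          | (refine ⟨0, 1, ?_⟩; ext i j; fin_cases i <;> fin_cases j <;> simp [hw, Matrix.mul_apply, Fin.sum_univ_two, e00, e01, e10, e11, h11]; done)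
          | (refine ⟨1, 1, ?_⟩; ext i j; fin_cases i <;> fin_cases j <;> simp [hw, Matrix.mul_apply, Fin.sum_univ_two, e00, e01, e10, e11, h11]; done)
      obtain ⟨x, y, hxy⟩ := hsw
      exact (hLmem _).mpr ⟨x, y, by rw [hxy, Units.mul_inv_cancel_right]⟩
    have hA' : (a : Matrix (Fin 2) (Fin 2) F) * A * ((a⁻¹ : GL (Fin 2) F) : Matrix (Fin 2) (Fin 2) F) ∈ L := by
      obtain ⟨x, y', rfl⟩ := hA
      rw [mul_add, add_mul, Matrix.mul_smul, Matrix.smul_mul, mul_one, Units.mul_inv, Matrix.mul_smul, Matrix.smul_mul]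
      exact add_mem (L.smul_mem (one_mem L) x) (L.smul_mem hconj y')
    refine ⟨_, hA', ?_⟩
    set Y : Matrix (Fin n) (Fin n) F := Matrix.reindexAlgEquiv F F e.symm (y : Matrix (Fin 2 × Fin n₂) (Fin 2 × Fin n₂) F)
    set Yi : Matrix (Fin n) (Fin n) F := Matrix.reindexAlgEquiv F F e.symm ((y⁻¹ : GL (Fin 2 × Fin n₂) F) : Matrix (Fin 2 × Fin n₂) (Fin 2 × Fin n₂) F)
    set Pm : Matrix (Fin n) (Fin n) F := (P : Matrix (Fin n) (Fin n) F)
    set Pi' : Matrix (Fin n) (Fin n) F := ((P⁻¹ : GL (Fin n) F) : Matrix (Fin n) (Fin n) F)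
    show Pm * Matrix.reindexAlgEquiv F F e.symm _ * Pi' = _
    have hg1 : (((MulAut.conj P).toMonoidHom ((glReindex e.symm).toMonoidHom y) : GL (Fin n) F) : Matrix (Fin n) (Fin n) F) = Pm * Y * Pi' := rfl
    have hg2 : ((((MulAut.conj P).toMonoidHom ((glReindex e.symm).toMonoidHom y))⁻¹ : GL (Fin n) F) : Matrix (Fin n) (Fin n) F) = Pm * Yi * Pi' := by
      rw [← map_inv, ← map_inv]; rfl
    rw [hg1, hg2]
    show _ = Pm * Y * Pi' * (Pm * Matrix.reindexAlgEquiv F F e.symm (A ⊗ₖ (1 : Matrix (Fin n₂) (Fin n₂) F)) * Pi') * (Pm * Yi * Pi')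
    have hPP : Pi' * Pm = 1 := Units.inv_mul P
    have : Pm * Y * Pi' * (Pm * Matrix.reindexAlgEquiv F F e.symm (A ⊗ₖ (1 : Matrix (Fin n₂) (Fin n₂) F)) * Pi') * (Pm * Yi * Pi')
        = Pm * (Y * Matrix.reindexAlgEquiv F F e.symm (A ⊗ₖ (1 : Matrix (Fin n₂) (Fin n₂) F)) * Yi) * Pi' := by
      calc _ = Pm * Y * (Pi' * Pm) * Matrix.reindexAlgEquiv F F e.symm (A ⊗ₖ (1 : Matrix (Fin n₂) (Fin n₂) F)) * (Pi' * Pm) * Yi * Pi' := by
            simp only [mul_assoc]
        _ = _ := by rw [hPP]; simp only [mul_one, mul_assoc]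
    rw [this, ← map_mul, ← map_mul, hy]
    congr 3
    have hyi : ((y⁻¹ : GL (Fin 2 × Fin n₂) F) : Matrix (Fin 2 × Fin n₂) (Fin 2 × Fin n₂) F) =
        ((a⁻¹ : GL (Fin 2) F) : Matrix (Fin 2) (Fin 2) F) ⊗ₖ ((c⁻¹ : GL (Fin n₂) F) : Matrix (Fin n₂) (Fin n₂) F) := by
      refine Units.inv_eq_of_mul_eq_one_right ?_
      rw [hy, ← Matrix.mul_kronecker_mul, Units.mul_inv, Units.mul_inv, Matrix.one_kronecker_one]
    rw [hyi, ← Matrix.mul_kronecker_mul, ← Matrix.mul_kronecker_mul, mul_one, Units.mul_inv]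
  intro g hg k
  refine ⟨key g (hle hg) k, fun hk => ?_⟩
  have := key g⁻¹ (inv_mem (hle hg)) _ hk
  rwa [inv_inv, ← mul_assoc, ← mul_assoc, Units.inv_mul, one_mul, mul_assoc, Units.inv_mul, mul_one] at this

end Cfsg.Agent.GeomClasses.MaxList
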