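import Cfsg.Agent.GeomClasses.MaxList.SL

/-! # The normaliser of a cubic extension of the field of four elements -/

set_option autoImplicit false

namespace Cfsg.Agent.GeomClasses.MaxList

open Matrix Cfsg.Geo
open scoped MatrixGroups

variable {F : Type*} [Field F] [Fintype F]

local notation "SL3" => specialLinear (Fin 3) F
local notation "M3" => Matrix (Fin 3) (Fin 3) F

/-- Over four elements a cubic field normaliser preserves a structure over two elements. -/
theorem field_four (hq : Fintype.card F = 4) {H : Subgroup (GL (Fin 3) F)} (hH : IsMaximalIn SL3 H)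
    {K : Subalgebra F M3} (hK : IsFieldSubalgebra 3 K) (hle : H ≤ subalgebraNormalizer K) :
    ∃ (F₀ : Subfield F) (r : ℕ) (P : GL (Fin 3) F), r.Prime ∧ Fintype.card F = Nat.card F₀ ^ r ∧
      H = subfieldSubgroup F₀ P ⊓ SL3 := by
  classical
  haveI : Fact (Nat.Prime 2) := ⟨Nat.prime_two⟩
  haveI hchar : CharP F 2 := by
    obtain ⟨p, hp⟩ := CharP.exists F
    obtain ⟨k, hpp, hk⟩ := FiniteField.card F p
    have hd : p ∣ 2 ^ 2 := by
      have h' : 2 ^ 2 = p ^ (k : ℕ) := by rw [← hk, hq]; norm_num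
      rw [h']
      exact dvd_pow_self p k.ne_zero
    obtain rfl := (Nat.prime_dvd_prime_iff_eq hpp Nat.prime_two).mp (hpp.dvd_of_dvd_pow hd)
    exact hp
  let F₀ : Subfield F := ⊥
  have hF₀ : ∀ x : F, x ∈ F₀ ↔ x = 0 ∨ x = 1 := fun x => by
    rw [show F₀ = ⊥ from rfl, Subfield.mem_bot_iff_pow_eq_self (F := F) (p := 2)]
    constructor
    · intro h
      rcases eq_or_ne x 0 with h0 | h0
      · exact Or.inl h0
      · exact Or.inr (mul_left_cancel₀ h0 (by rw [← pow_two, h, mul_one]))
    · rintro (rfl | rfl) <;> simp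
  have hcard₀ : Nat.card F₀ = 2 := by
    have hset : (F₀ : Set F) = {0, 1} := Set.ext fun x => by simpa using hF₀ x
    show Nat.card (F₀ : Set F) = 2
    rw [hset, Nat.card_coe_set_eq, Set.ncard_pair zero_ne_one]
  haveI : Nontrivial K := Module.nontrivial_of_finrank_pos (R := F) (by
    show 0 < Module.finrank F K
    rw [hK.finrank_eq]; omega)
  have hfield : IsField K :=
    { exists_pair_ne := exists_pair_ne _
      mul_comm := fun x y => Subtype.ext (hK.comm x x.2 y y.2)
      mul_inv_cancel := fun {x} hx => by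
        obtain ⟨y, hy, hxy⟩ := hK.inv x x.2 (fun h => hx (Subtype.ext h))
        exact ⟨⟨y, hy⟩, Subtype.ext hxy⟩ }
  letI : Field K := hfield.toField
  haveI : Finite K := Finite.of_injective _ (Subtype.val_injective)
  haveI : Fintype K := Fintype.ofFinite K
  haveI : CharP K 2 := charP_of_injective_algebraMap (algebraMap F K).injective 2
  have hfr : Module.finrank F K = 3 := hK.finrank_eq
  have hKcard : Fintype.card K = 64 := by
    rw [Module.card_eq_pow_finrank (K := F) (V := K), hfr, hq]; norm_num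
  -- an element of order seven
  obtain ⟨z, hz7, hz1⟩ : ∃ z : K, z ^ 7 = 1 ∧ z ≠ 1 := by
    have h7 : 7 ∣ Fintype.card Kˣ := by rw [Fintype.card_units, hKcard]; norm_num
    haveI : Fact (Nat.Prime 7) := ⟨by norm_num⟩
    obtain ⟨u, hu⟩ := exists_prime_orderOf_dvd_card 7 h7
    refine ⟨u, by rw [← Units.val_pow_eq_pow_val, ← hu, pow_orderOf_eq_one, Units.val_one], fun h => ?_⟩
    rw [Units.val_eq_one.mp h, orderOf_one] at hu
    omega
  have hFpow : ∀ x : F, x ≠ 0 → x ^ 3 = 1 := fun x hx => by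
    have := FiniteField.pow_card_sub_one_eq_one x hx
    rwa [hq] at this
  have hzdeg : (minpoly F z).natDegree = 3 := by
    have hd : (minpoly F z).natDegree ∣ 3 := (minpoly.degree_dvd (IsIntegral.of_finite F z)).trans (dvd_of_eq hfr)
    rcases (Nat.dvd_prime (by norm_num)).mp hd with h | h
    · obtain ⟨a, ha⟩ := minpoly.natDegree_eq_one_iff.mp h
      exfalso
      have ha0 : a ≠ 0 := by
        rintro rfl
        rw [map_zero] at ha
        rw [← ha, zero_pow (by norm_num)] at hz7
        exact zero_ne_one hz7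
      have h7 : a ^ 7 = 1 := (algebraMap F K).injective (by rw [map_pow, ha, hz7, map_one])
      have : a = 1 := by
        calc a = a ^ 7 := by rw [show (7 : ℕ) = 3 * 2 + 1 from rfl, pow_succ, pow_mul, hFpow a ha0, one_pow, one_mul]
          _ = 1 := h7
      exact hz1 (by rw [← ha, this, map_one])
    · exact h
  have hli : LinearIndependent F (fun i : Fin 3 => z ^ (i : ℕ)) := by
    have h := linearIndependent_pow (K := F) z
    exact h.comp (Fin.cast hzdeg.symm) (Fin.cast_injective _)
  let bK : Module.Basis (Fin 3) F K := basisOfLinearIndependentOfCardEqFinrank hli (by rw [hfr]; rfl)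
  have hbK : ∀ i, bK i = z ^ (i : ℕ) := fun i => congrFun (coe_basisOfLinearIndependentOfCardEqFinrank _ _) i
  -- the identification of the space with the extension
  let v₀ : Fin 3 → F := Pi.single 0 1
  let ev : K →ₗ[F] (Fin 3 → F) :=
    { toFun := fun k => (k : M3) *ᵥ v₀
      map_add' := fun a b => by simp [Matrix.add_mulVec]
      map_smul' := fun a b => by simp [Matrix.smul_mulVec] }
  have hev : Function.Injective ev := by
    rw [← LinearMap.ker_eq_bot, Submodule.eq_bot_iff]
    intro k hk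
    by_contra h0
    have h := congrArg (fun v => ((k⁻¹ : K) : M3) *ᵥ v) (LinearMap.mem_ker.mp hk)
    simp only [ev, LinearMap.coe_mk, AddHom.coe_mk, Matrix.mulVec_mulVec, Matrix.mulVec_zero] at h
    rw [← MulMemClass.coe_mul, inv_mul_cancel₀ h0] at h
    have := congrFun h 0
    simp [v₀] at this
  let E : K ≃ₗ[F] (Fin 3 → F) := LinearEquiv.ofBijective ev ⟨hev,
    (LinearMap.injective_iff_surjective_of_finrank_eq_finrank (by rw [hfr, Module.finrank_fin_fun])).mp hev⟩
  have hE : ∀ a b : K, E (a * b) = (a : M3) *ᵥ E b := fun a b => by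
    show ((a * b : K) : M3) *ᵥ v₀ = _
    rw [MulMemClass.coe_mul, ← Matrix.mulVec_mulVec]; rfl
  let bV : Module.Basis (Fin 3) F (Fin 3 → F) := bK.map E
  let T : GL (Fin 3) F := Matrix.GeneralLinearGroup.mkOfDetNeZero ((Pi.basisFun F (Fin 3)).toMatrix bV)
    (Matrix.isUnit_iff_isUnit_det _ |>.mp (@isUnit_of_invertible _ _ _ ((Pi.basisFun F (Fin 3)).invertibleToMatrix bV))).ne_zero
  have hT : ∀ i, (T : M3) *ᵥ Pi.single i 1 = E (z ^ (i : ℕ)) := fun i => by
    funext j
    rw [Matrix.mulVec_single_one]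
    simp [T, Module.Basis.toMatrix_apply, bV, hbK, Matrix.col]
  -- coordinates of seventh roots of unity are rational
  have hrat : ∀ w : K, w ^ 7 = 1 → ∀ j, bK.repr w j ∈ F₀ := by
    intro w hw j
    rw [hF₀]
    set a := fun j => bK.repr w j with ha
    have hw8 : w ^ 8 = w := by rw [pow_succ, hw, one_mul]
    have hz8 : ∀ i : ℕ, (z ^ i) ^ 8 = z ^ i := fun i => by
      rw [← pow_mul, mul_comm, pow_mul, show z ^ 8 = z by rw [pow_succ, hz7, one_mul]]
    have hsum : w = ∑ i, a i • z ^ (i : ℕ) := by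
      conv_lhs => rw [← bK.sum_repr w]
      exact Finset.sum_congr rfl fun i _ => by rw [hbK]
    have h8 : w = ∑ i, (a i ^ 2) • z ^ (i : ℕ) := by
      conv_lhs => rw [← hw8, hsum]
      rw [show (8 : ℕ) = 2 ^ 3 from rfl, sum_pow_char_pow 2 3]
      refine Finset.sum_congr rfl fun i _ => ?_
      rw [smul_pow, show (2 : ℕ) ^ 3 = 8 from rfl, hz8, show (8 : ℕ) = 4 * 2 from rfl, pow_mul,
        show a i ^ 4 = a i by rw [← hq]; exact FiniteField.pow_card _]
    have h := congrArg (fun w => bK.repr w j) (hsum.symm.trans h8)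
    simp only [← hbK, Module.Basis.repr_sum_self] at h
    rcases eq_or_ne (a j) 0 with h0 | h0
    · exact Or.inl h0
    · exact Or.inr (mul_left_cancel₀ h0 (by rw [← pow_two, ← h, mul_one]))
  refine ⟨F₀, 2, T, Nat.prime_two, by rw [hq, hcard₀]; rfl,
    eq_of_le hH (fun g hg => ?_) (subfield_proper (by norm_num) Nat.prime_two (by rw [hq, hcard₀]; rfl) T)⟩
  have hgK := hle hg
  let φ : K → K := fun k => ⟨(g : M3) * k * ((g⁻¹ : GL (Fin 3) F) : M3), (hgK k).mp k.2⟩
  have hφone : φ 1 = 1 := Subtype.ext (by simp [φ])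
  have hφmul : ∀ a b, φ (a * b) = φ a * φ b := fun a b => Subtype.ext (by simp [φ, mul_assoc])
  have hφpow : ∀ (a : K) (k : ℕ), φ (a ^ k) = φ a ^ k := fun a k => by
    induction k with
    | zero => simpa using hφone
    | succ k ih => rw [pow_succ, hφmul, ih, pow_succ]
  set z' := φ z with hz'
  have hz'7 : z' ^ 7 = 1 := by rw [hz', ← hφpow, hz7, hφone]
  set c : K := E.symm ((g : M3) *ᵥ E 1) with hc
  have hgE : ∀ k : K, (g : M3) *ᵥ E k = E (φ k * c) := fun k => by
    rw [show E k = (k : M3) *ᵥ E 1 by rw [← hE, mul_one], hE, hc, E.apply_symm_apply]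
    simp [φ, Matrix.mulVec_mulVec, mul_assoc]
  have hA : ∀ i j : Fin 3, bK.repr (z' ^ (i : ℕ)) j ∈ F₀ := fun i j =>
    hrat _ (by rw [← pow_mul, mul_comm, pow_mul, hz'7, one_pow]) j
  let A : M3 := fun j i => bK.repr (z' ^ (i : ℕ)) j
  have hgT : ((T⁻¹ : GL (Fin 3) F) : M3) * (g : M3) * (T : M3) = Algebra.leftMulMatrix bK c * A := by
    refine Matrix.ext_of_mulVec_single fun i => ?_
    rw [← Matrix.mulVec_mulVec, ← Matrix.mulVec_mulVec, hT, hgE, hφpow, ← hz']
    rw [← Matrix.mulVec_mulVec]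
    have hAi : A *ᵥ Pi.single i 1 = bK.repr (z' ^ (i : ℕ)) := by
      funext j; rw [Matrix.mulVec_single_one]; rfl
    rw [hAi, Algebra.leftMulMatrix_mulVec_repr]
    have key : ∀ w : K, (T : M3) *ᵥ (bK.repr w : Fin 3 → F) = E w := fun w => by
      conv_rhs => rw [← bK.sum_repr w]
      rw [map_sum]
      conv_lhs => rw [pi_eq_sum_univ' (bK.repr w : Fin 3 → F)]
      rw [Matrix.mulVec_sum]
      exact Finset.sum_congr rfl fun k _ => by rw [Matrix.mulVec_smul, hT, map_smul, hbK]
    rw [mul_comm (z' ^ _) c, ← key (c * z' ^ (i : ℕ)), Matrix.mulVec_mulVec, Units.inv_mul, Matrix.one_mulVec]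
  have hdetg : (g : M3).det = 1 := by
    have := hH.1.le hg
    simpa [specialLinear, MonoidHom.mem_ker, Matrix.GeneralLinearGroup.val_det_apply, Units.ext_iff] using this
  have hdet : (Algebra.leftMulMatrix bK c).det * A.det = 1 := by
    rw [← Matrix.det_mul, ← hgT, Matrix.det_mul, Matrix.det_mul, hdetg, mul_one, ← Matrix.det_mul, Units.inv_mul, Matrix.det_one]
  have hA1 : A.det = 1 := by
    have hmem : A.det ∈ F₀ := by
      rw [Matrix.det_apply']
      refine Subfield.sum_mem _ fun σ _ => Subfield.mul_mem _ ?_ (Subfield.prod_mem _ fun k _ => hA _ _)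
      exact intCast_mem F₀ _
    refine ((hF₀ _).mp hmem).resolve_left fun h => ?_
    rw [h, mul_zero] at hdet
    exact zero_ne_one hdet
  rw [hA1, mul_one, ← Algebra.norm_eq_matrix_det] at hdet
  have hc21 : c ^ 21 = 1 := by
    have h := FiniteField.algebraMap_norm_eq_pow (K := F) (x := c)
    rw [hdet, map_one, Nat.card_eq_fintype_card, Nat.card_eq_fintype_card, hKcard, hq] at h
    exact h.symm
  -- split off the scalar part
  obtain ⟨s, hs⟩ : ∃ s : F, algebraMap F K s = c ^ 7 := by
    have h3 : (c ^ 7) ^ 3 = 1 := by rw [← pow_mul]; exact hc21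
    by_contra hcon
    push_neg at hcon
    have hsub : insert (c ^ 7) ((Finset.univ.erase (0 : F)).image (algebraMap F K)) ⊆ (Polynomial.nthRoots 3 (1 : K)).toFinset := by
      intro x hx
      rw [Multiset.mem_toFinset, Polynomial.mem_nthRoots (by norm_num)]
      rcases Finset.mem_insert.mp hx with rfl | hx
      · exact h3
      · obtain ⟨a, ha, rfl⟩ := Finset.mem_image.mp hx
        rw [← map_pow, hFpow a (Finset.ne_of_mem_erase ha), map_one]
    have h := (Finset.card_le_card hsub).trans ((Multiset.toFinset_card_le _).trans (Polynomial.card_nthRoots 3 1))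
    rw [Finset.card_insert_of_notMem (fun hx => by
        obtain ⟨a, -, ha⟩ := Finset.mem_image.mp hx
        exact hcon a ha),
      Finset.card_image_of_injective _ (algebraMap F K).injective, Finset.card_erase_of_mem (Finset.mem_univ _), Finset.card_univ, hq] at h
    omega
  set d := c ^ 15 with hd
  have hd7 : d ^ 7 = 1 := by rw [hd, ← pow_mul, show 15 * 7 = 21 * 5 from rfl, pow_mul, hc21, one_pow]
  have hcd : c = s • d := by
    rw [Algebra.smul_def, hs, hd, ← pow_add, show 7 + 15 = 21 + 1 from rfl, pow_succ, hc21, one_mul]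
  have hs0 : s ≠ 0 := fun h => by
    rw [h, map_zero] at hs
    have : c ^ 21 = 0 := by rw [show (21 : ℕ) = 7 * 3 from rfl, pow_mul, ← hs, zero_pow (by norm_num)]
    exact one_ne_zero (hc21.symm.trans this)
  -- the rational matrix
  let W : Matrix (Fin 3) (Fin 3) F₀ := fun j i =>
    ⟨bK.repr (d * z' ^ (i : ℕ)) j, hrat _ (by
      rw [mul_pow, hd7, ← pow_mul, mul_comm (i : ℕ), pow_mul, hz'7, one_pow, one_mul]) j⟩
  have hW : Algebra.leftMulMatrix bK c * A = s • W.map F₀.subtype := by
    refine Matrix.ext_of_mulVec_single fun i => ?_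
    rw [← Matrix.mulVec_mulVec, Matrix.smul_mulVec, Matrix.mulVec_single_one, Matrix.mulVec_single_one]
    show (Algebra.leftMulMatrix bK c) *ᵥ (bK.repr (z' ^ (i : ℕ)) : Fin 3 → F) = s • (bK.repr (d * z' ^ (i : ℕ)) : Fin 3 → F)
    rw [Algebra.leftMulMatrix_mulVec_repr, hcd, smul_mul_assoc, map_smul]; rfl
  have hWdet : IsUnit W.det := by
    rw [isUnit_iff_ne_zero]
    intro h
    have h1 := congrArg Matrix.det hW
    rw [Matrix.det_mul, hA1, mul_one, ← Algebra.norm_eq_matrix_det, hdet, Matrix.det_smul, ← RingHom.mapMatrix_apply,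
      ← RingHom.map_det, h, map_zero, mul_zero] at h1
    exact one_ne_zero h1
  refine ⟨Matrix.GeneralLinearGroup.map F₀.subtype (Matrix.GeneralLinearGroup.mk'' W hWdet) *
      Units.map (Matrix.scalar (Fin 3) : F →+* M3).toMonoidHom (Units.mk0 s hs0),
    mul_mem (Subgroup.mem_sup_left ⟨_, rfl⟩) (Subgroup.mem_sup_right ⟨_, rfl⟩), ?_⟩
  show T * _ * T⁻¹ = g
  refine mul_inv_eq_iff_eq_mul.mpr (Units.ext ?_)
  have h2 : (g : M3) * (T : M3) = (T : M3) * (s • W.map F₀.subtype) := by
    rw [← hW, ← hgT, ← mul_assoc, ← mul_assoc, Units.mul_inv, one_mul]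
  rw [Units.val_mul, Units.val_mul, Units.val_mul, h2]
  congr 1
  show W.map F₀.subtype * Matrix.scalar (Fin 3) s = _
  rw [Matrix.smul_eq_mul_diagonal]
  rfl

end Cfsg.Agent.GeomClasses.MaxList
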