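import Cfsg.Agent.GeomClasses.Aschbacher.Normal
import Cfsg.Agent.GeomClasses.Aschbacher.Rel.FullCard
import Cfsg.Agent.GeomClasses.MaxList.NotContain
import Cfsg.Agent.S0065

/-! # Symplectic-type data: degree, field, properness -/

set_option autoImplicit false

namespace Cfsg.Agent.GeomClasses.MaxList

open Matrix Cfsg.Geo
open scoped MatrixGroups commutatorElement

variable {F : Type*} [Field F] [Fintype F] {n : ℕ}

theorem full_of_absIrred (hn : 2 ≤ n) {R : Subgroup (GL (Fin n) F)}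
    (hR : ActsAbsolutelyIrreducibly (matrixSet R)) : Asch.Full R := by
  classical
  haveI : Nonempty (Fin n) := ⟨⟨0, by omega⟩⟩
  haveI : Nontrivial (Fin n → F) := Function.nontrivial
  set S : Set (Module.End F (Fin n → F))ˣ := Asch.gu '' (R : Set _) with hS
  have hirr : Asch.Irr ((fun g : (Module.End F (Fin n → F))ˣ => (g : Module.End F (Fin n → F))) '' S) := by
    intro W hW
    refine hR.1 W ?_
    rintro _ ⟨g, hg, rfl⟩ _ ⟨w, hw, rfl⟩
    exact hW _ ⟨Asch.gu g, ⟨g, hg, rfl⟩, rfl⟩ w hw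
  set A := Asch.env R
  have hSA : ∀ u ∈ S, Asch.Normalises A u := by
    rintro _ ⟨g, hg, rfl⟩
    exact Asch.normalises_env (fun a ha x hx => mul_mem (mul_mem ha hx) (inv_mem ha)) hg
  have hcent : ∀ X : Module.End F (Fin n → F), (∀ a ∈ A, Commute X a) → ∃ c : F, X = algebraMap F _ c := by
    intro X hX
    obtain ⟨c, hc⟩ := hR.2 (LinearMap.toMatrix' X) (by
      rintro _ ⟨g, hg, rfl⟩
      show LinearMap.toMatrix' X * (g : Matrix (Fin n) (Fin n) F) = (g : Matrix (Fin n) (Fin n) F) * LinearMap.toMatrix' X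
      rw [← LinearMap.toMatrix'_toLin' (g : Matrix (Fin n) (Fin n) F), ← LinearMap.toMatrix'_mul, ← LinearMap.toMatrix'_mul]
      exact congrArg _ (hX _ (Asch.mem_env hg)).eq)
    refine ⟨c, LinearMap.toMatrix'.injective ?_⟩
    rw [hc, Algebra.algebraMap_eq_smul_one, map_smul]
    congr 1
    exact LinearMap.toMatrix'_id.symm
  haveI := Asch.isSemisimple A S hSA hirr
  obtain ⟨d, e, φA, φC, hd, he, hrange, hAC, hde, -⟩ := Asch.central_type A (fun X h1 _ => hcent X h1)
  rw [Module.finrank_fin_fun] at hde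
  have hrA : Set.range φA = (A : Set _) := by rw [← hrange]; rfl
  rcases (show e = 1 ∨ 2 ≤ e by omega) with rfl | he2
  · refine Asch.op_span_eq_top (Algebra.eq_top_iff.mpr fun X => ?_)
    haveI : Nonempty (Fin d) := ⟨⟨0, hd⟩⟩
    have hinj : Function.Injective φA := RingHom.injective φA.toRingHom
    have hfr : Module.finrank F (Matrix (Fin d) (Fin d) F) = Module.finrank F (Module.End F (Fin n → F)) := by
      rw [Module.finrank_matrix, Module.finrank_linearMap, Module.finrank_fin_fun, Fintype.card_fin, Module.finrank_self]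
      rw [mul_one] at hde
      rw [hde, mul_one]
    obtain ⟨Y, hY⟩ := (LinearMap.injective_iff_surjective_of_finrank_eq_finrank hfr (f := φA.toLinearMap)).mp hinj X
    rw [← hY]
    exact hrA.subset ⟨Y, rfl⟩
  exfalso
  haveI : Nonempty (Fin e) := ⟨⟨0, he⟩⟩
  have hinjC : Function.Injective φC := RingHom.injective φC.toRingHom
  let i : Fin e := ⟨0, he⟩
  let j : Fin e := ⟨1, by omega⟩
  obtain ⟨c, hc⟩ := hcent (φC (Matrix.single i j 1)) fun a ha => by
    obtain ⟨Y, rfl⟩ : a ∈ Set.range φA := hrA ▸ ha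
    exact (hAC Y _).symm
  rw [← φC.commutes] at hc
  have h := congrFun (congrFun (hinjC hc) i) j
  simp [Matrix.algebraMap_matrix_apply, i, j, Fin.ext_iff] at h

section Data

variable {r : ℕ} {R : Subgroup (GL (Fin n) F)}

theorem data_center (hn : 3 ≤ n) (h : IsLinearSymplecticTypeData r R) :
    Nat.card (Subgroup.center R) = r * Nat.gcd 2 r ∧ (∃ m, Nat.card (R ⧸ Subgroup.center R) = r ^ (2 * m)) := by
  obtain ⟨p, e, -, -, hc⟩ := h.field
  have hpos : 0 < Nat.card (Subgroup.center R) := Nat.card_pos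
  have hcard := Subgroup.card_eq_card_quotient_mul_card_subgroup (Subgroup.center R)
  rcases hc with ⟨ho, -, hz, m, -, hR⟩ | ⟨rfl, -, hz, -, m, hR⟩ | ⟨-, -, h2, -⟩
  · refine ⟨?_, m, ?_⟩
    · rw [hz, show Nat.gcd 2 r = 1 from Nat.coprime_two_left.mpr ho, mul_one]
    · rw [hR, hz, show r ^ (1 + 2 * m) = r ^ (2 * m) * r by ring] at hcard
      exact (Nat.eq_of_mul_eq_mul_right (hz ▸ hpos) hcard).symm
  · refine ⟨hz.trans (by decide), m, ?_⟩
    rw [hR, hz, show 2 ^ (2 + 2 * m) = 2 ^ (2 * m) * 4 by ring] at hcard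
    exact (Nat.eq_of_mul_eq_mul_right (by norm_num) hcard).symm
  · rw [Fintype.card_fin] at h2; omega

theorem center_twist (hst : IsSymplecticTypeGroup r R)
    (hc : Nat.card (Subgroup.center R) = r * Nat.gcd 2 r) :
    commutator R ≤ Subgroup.center R := by
  classical
  haveI : Fact r.Prime := ⟨hst.prime⟩
  set Zc := Subgroup.center R
  set D : Subgroup R := commutator R ⊔ Zc with hD
  by_contra hcon
  haveI : (commutator R).Characteristic := inferInstance
  haveI : D.Normal := by rw [hD]; infer_instance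
  let π : R →* R ⧸ Zc := QuotientGroup.mk' Zc
  have hpq : IsPGroup r (R ⧸ Zc) := hst.pGroup.to_quotient Zc
  haveI : (D.map π).Normal := Subgroup.Normal.map inferInstance π (QuotientGroup.mk'_surjective Zc)
  have hne : D.map π ≠ ⊥ := by
    rw [Ne, Subgroup.map_eq_bot_iff, QuotientGroup.ker_mk']
    exact fun hle => hcon (le_sup_left.trans hle)
  haveI : Group.IsNilpotent (R ⧸ Zc) := hpq.isNilpotent
  obtain ⟨q, hq, hq1⟩ : ∃ q ∈ D.map π ⊓ Subgroup.center (R ⧸ Zc), q ≠ 1 :=
    (Subgroup.ne_bot_iff_exists_ne_one.mp (Cfsg.Agent.S0065.result _ hne)).elim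
      fun q hq => ⟨q.1, q.2, fun h1 => hq (Subtype.ext h1)⟩
  obtain ⟨x, hxD, rfl⟩ := Subgroup.mem_map.mp hq.1
  let T : Subgroup R := D ⊓ (Subgroup.center (R ⧸ Zc)).comap π
  haveI : (commutator R).Characteristic := inferInstance
  have hfix : ∀ φ : R ≃* R, D.map φ.toMonoidHom = D := fun φ => by
    rw [hD, Subgroup.map_sup, Subgroup.characteristic_iff_map_eq.mp inferInstance φ,
      Subgroup.characteristic_iff_map_eq.mp inferInstance φ]
  have hmemC : ∀ x : R, π x ∈ Subgroup.center (R ⧸ Zc) ↔ ∀ g : R, ⁅x, g⁆ ∈ Zc := by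
    intro x
    rw [Subgroup.mem_center_iff]
    constructor
    · intro hx g
      rw [← QuotientGroup.eq_one_iff, commutatorElement_def]
      show π (x * g * x⁻¹ * g⁻¹) = 1
      rw [map_mul, map_mul, map_mul, map_inv, map_inv, ← hx (π g)]
      group
    · intro hx y
      obtain ⟨g, rfl⟩ := QuotientGroup.mk'_surjective Zc y
      have h1 : π ⁅x, g⁆ = 1 := (QuotientGroup.eq_one_iff _).mpr (hx g)
      rw [map_commutatorElement, commutatorElement_eq_one_iff_mul_comm] at h1
      exact h1.symm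
  have hTchar : T.Characteristic := Subgroup.characteristic_iff_map_le.mpr fun φ => by
    rintro _ ⟨y, hy, rfl⟩
    refine ⟨hfix φ ▸ Subgroup.mem_map_of_mem _ hy.1, (hmemC _).mpr fun g => ?_⟩
    show ⁅φ y, g⁆ ∈ Zc
    have := (hmemC y).mp hy.2 (φ.symm g)
    rw [show ⁅φ y, g⁆ = φ.toMonoidHom ⁅y, φ.symm g⁆ by
      rw [map_commutatorElement]; show _ = ⁅φ y, φ (φ.symm g)⁆; rw [φ.apply_symm_apply]]
    rw [← Subgroup.characteristic_iff_map_eq.mp (inferInstance : Zc.Characteristic) φ]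
    exact Subgroup.mem_map_of_mem _ this
  have hTab : IsMulCommutative T := by
    refine ⟨⟨fun a b => Subtype.ext ?_⟩⟩
    have ha : ∀ g, ⁅(a : R), g⁆ ∈ Zc := (hmemC _).mp a.2.2
    let φa : R →* Zc := MonoidHom.mk' (fun g => ⟨⁅(a : R), g⁆, ha g⟩) fun g g' => Subtype.ext (by
      show ⁅(a : R), g * g'⁆ = ⁅(a : R), g⁆ * ⁅(a : R), g'⁆
      have hc := Subgroup.mem_center_iff.mp (ha g') g
      calc ⁅(a : R), g * g'⁆ = ⁅(a : R), g⁆ * (g * ⁅(a : R), g'⁆ * g⁻¹) := by simp only [commutatorElement_def]; group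
        _ = _ := by rw [hc]; group)
    have hbk : (b : R) ∈ φa.ker := by
      refine (sup_le (?_ : commutator R ≤ φa.ker) ?_) b.2.1
      · letI : CommGroup Zc := { (inferInstance : Group Zc) with mul_comm := fun u v => Subtype.ext (Subgroup.mem_center_iff.mp v.2 u) }
        exact Abelianization.commutator_subset_ker φa
      · intro z hz
        refine MonoidHom.mem_ker.mpr (Subtype.ext ?_)
        show ⁅(a : R), z⁆ = 1
        exact commutatorElement_eq_one_iff_mul_comm.mpr (Subgroup.mem_center_iff.mp hz a)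
    exact commutatorElement_eq_one_iff_mul_comm.mp (congrArg Subtype.val (MonoidHom.mem_ker.mp hbk))
  haveI := hst.cyclic_of_characteristic T hTchar hTab
  have hexp : Monoid.exponent T ∣ r * Nat.gcd 2 r := by
    refine Monoid.exponent_dvd_of_forall_pow_eq_one fun a => Subtype.ext ?_
    show (a : R) ^ (r * Nat.gcd 2 r) = 1
    rw [← hst.exponent_eq]
    exact Monoid.pow_exponent_eq_one _
  rw [IsCyclic.exponent_eq_card, ← hc] at hexp
  have hZT : Zc ≤ T := fun z hz => ⟨Subgroup.mem_sup_right hz, by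
    show π z ∈ Subgroup.center (R ⧸ Zc)
    rw [show π z = 1 from (QuotientGroup.eq_one_iff z).mpr hz]; exact one_mem _⟩
  have heq : Zc = T := Subgroup.eq_of_le_of_card_ge hZT (Nat.le_of_dvd Nat.card_pos hexp)
  refine hq1 ((QuotientGroup.eq_one_iff x).mpr ?_)
  exact heq.ge ⟨hxD, hq.2⟩

theorem data_twist (hn : 3 ≤ n) (h : IsLinearSymplecticTypeData r R) :
    commutator R ≤ Subgroup.center R := center_twist h.symplecticType (data_center hn h).1

theorem data_card (hn : 3 ≤ n) (h : IsLinearSymplecticTypeData r R) : ∃ m, 1 ≤ m ∧ n = r ^ m := by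
  classical
  haveI : Nonempty (Fin n) := ⟨⟨0, by omega⟩⟩
  have hfull : Asch.Full R := full_of_absIrred (by omega) h.absIrred
  have htw : ∀ a ∈ R, ∀ b ∈ R, ⁅a, b⁆ ∈ scalars (Fin n) F := by
    intro a ha b hb
    have := data_twist hn h (Subgroup.commutator_mem_commutator (Subgroup.mem_top (⟨a, ha⟩ : R))
      (Subgroup.mem_top (⟨b, hb⟩ : R)))
    exact (AschRel.center_iff hfull _).mp this
  obtain ⟨w, -, hcard, -⟩ := AschRel.full_basis hfull htw
  obtain ⟨-, m, hm⟩ := data_center hn h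
  rw [hm, Fintype.card_fin, two_mul, pow_add] at hcard
  have hnm : r ^ m = n := Nat.mul_self_inj.mp hcard
  refine ⟨m, ?_, hnm.symm⟩
  rcases Nat.eq_zero_or_pos m with rfl | hm0
  · simp at hnm; omega
  · exact hm0

theorem data_minimal (hn : 3 ≤ n) (h : IsLinearSymplecticTypeData r R) :
    ∃ p e : ℕ, r ≠ p ∧ IsMinimalFieldFor (r * Nat.gcd 2 r) p e F ∧ (Odd r → Odd e) ∧ (r = 2 → e = 1) := by
  obtain ⟨p, e, hrp, hmin, hc⟩ := h.field
  rw [(data_center hn h).1] at hmin
  refine ⟨p, e, hrp, hmin, fun ho => ?_, fun h2 => ?_⟩ <;>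
    rcases hc with ⟨ho', he, -, -⟩ | ⟨hr, he, -⟩ | ⟨hr, he, -⟩
  · exact he
  · exact absurd (hr ▸ ho) (by decide)
  · exact absurd (hr ▸ ho) (by decide)
  · exact absurd (h2 ▸ ho') (by decide)
  · exact he
  · exact he

open Polynomial in
theorem exists_eigen (hn : 0 < n) {z : ℕ} (hz : 0 < z) (hdvd : z ∣ Fintype.card F - 1) {x : Matrix (Fin n) (Fin n) F}
    (hx : x ^ z = 1) : ∃ (v : Fin n → F) (l : F), v ≠ 0 ∧ l ≠ 0 ∧ x *ᵥ v = l • v := by
  classical
  obtain ⟨g, hg⟩ := IsCyclic.exists_generator (α := Fˣ)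
  have ho : orderOf g = Fintype.card F - 1 := by
    rw [orderOf_eq_card_of_forall_mem_zpowers hg, Nat.card_eq_fintype_card, Fintype.card_units]
  obtain ⟨k, hk⟩ := hdvd
  have hprim : IsPrimitiveRoot g (Fintype.card F - 1) := ho ▸ IsPrimitiveRoot.orderOf g
  have hprim' : IsPrimitiveRoot ((g : F) ^ k) z := by
    refine IsPrimitiveRoot.pow ?_ (IsPrimitiveRoot.coe_units_iff.mpr hprim) (by rw [hk, mul_comm])
    have := Fintype.one_lt_card (α := F)
    omega
  set ψ : F[X] →* F := (Matrix.detMonoidHom).comp (Polynomial.aeval x).toRingHom.toMonoidHom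
  have hzero : ψ (X ^ z - 1) = 0 := by
    show (Polynomial.aeval x (X ^ z - 1)).det = 0
    haveI : Nonempty (Fin n) := ⟨⟨0, hn⟩⟩
    simp [hx]
  rw [X_pow_sub_one_eq_prod hz hprim', map_prod, Finset.prod_eq_zero_iff] at hzero
  obtain ⟨l, hl, hdet⟩ := hzero
  obtain ⟨v, hv, hxv⟩ := Matrix.exists_mulVec_eq_zero_iff.mpr (show (Polynomial.aeval x (X - C l)).det = 0 from hdet)
  refine ⟨v, l, hv, fun h0 => ?_, ?_⟩
  · rw [h0, mem_nthRootsFinset hz, zero_pow hz.ne'] at hl
    exact zero_ne_one hl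
  · simpa [Matrix.sub_mulVec, Algebra.algebraMap_eq_smul_one, Matrix.smul_mulVec, sub_eq_zero] using hxv

theorem symp_type_proper (hn : 3 ≤ n) (h : IsLinearSymplecticTypeData r R) :
    ¬ specialLinear (Fin n) F ≤ subgroupNormalizer R := by
  classical
  intro hle
  haveI : Nonempty (Fin n) := ⟨⟨0, by omega⟩⟩
  have hr := h.symplecticType.prime
  set z := r * Nat.gcd 2 r with hz
  obtain ⟨p, e, hrp, ⟨hp, hchar, hcard, hdvd, -⟩, -, -⟩ := data_minimal hn h
  rw [← hcard] at hdvd
  haveI := hchar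
  have hpow : ∀ a ∈ R, a ^ z = 1 := fun a ha => by
    have := congrArg Subtype.val (Monoid.pow_exponent_eq_one (⟨a, ha⟩ : R))
    rwa [h.symplecticType.exponent_eq] at this
  have hzpos : 0 < z := Nat.mul_pos hr.pos (Nat.gcd_pos_of_pos_left _ two_pos)
  have hco : Nat.Coprime z p := by
    rw [hz, Nat.coprime_mul_iff_left]
    refine ⟨(Nat.coprime_primes hr hp).mpr hrp, ?_⟩
    exact Nat.Coprime.coprime_dvd_left (Nat.gcd_dvd_right 2 r) ((Nat.coprime_primes hr hp).mpr hrp)
  suffices hsc : ∀ x ∈ R, x ∈ scalars (Fin n) F by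
    have h1 : ∀ s ∈ matrixSet R, ∀ W : Submodule F (Fin n → F), W.map (Matrix.toLin' s) ≤ W := by
      rintro _ ⟨x, hx, rfl⟩ W _ ⟨w, hw, rfl⟩
      obtain ⟨c, hc⟩ := (mem_scalars_iff x).mp (hsc x hx)
      show Matrix.toLin' (x : Matrix (Fin n) (Fin n) F) w ∈ W
      rw [Matrix.toLin'_apply, hc, Matrix.smul_mulVec, Matrix.one_mulVec]
      exact W.smul_mem _ hw
    let W : Submodule F (Fin n → F) := Submodule.span F {Pi.single ⟨0, by omega⟩ 1}
    have hfr : Module.finrank F W = 1 := finrank_span_singleton (by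
      intro h0; simpa using congrFun h0 ⟨0, by omega⟩)
    rcases h.absIrred.1 W (fun s hs => h1 s hs W) with h2 | h2
    · rw [h2, finrank_bot] at hfr; omega
    · rw [h2, finrank_top, Module.finrank_fin_fun] at hfr; omega
  intro x hx
  obtain ⟨v, l, hv, hl, hxv⟩ := exists_eigen (by omega) hzpos hdvd (x := (x : Matrix (Fin n) (Fin n) F))
    (by rw [← Units.val_pow_eq_pow_val, hpow x hx, Units.val_one])
  have key : ∀ v : Fin n → F, v ≠ 0 → (x : Matrix (Fin n) (Fin n) F) *ᵥ v = l • v → ∀ w : Fin n → F, w ⬝ᵥ v = 0 →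
      w ᵥ* (x : Matrix (Fin n) (Fin n) F) = l • w := by
    intro v hv hxv w hwv
    set t := tv v w hwv
    have hy : t * x * t⁻¹ * x⁻¹ ∈ R :=
      mul_mem ((Subgroup.mem_normalizer_iff.mp (hle (tv_mem_specialLinear v w hwv)) x).mp hx) (inv_mem hx)
    set u : Fin n → F := w - l • (w ᵥ* ((x⁻¹ : GL (Fin n) F) : Matrix (Fin n) (Fin n) F)) with hu
    have hxi : ((x⁻¹ : GL (Fin n) F) : Matrix (Fin n) (Fin n) F) *ᵥ v = l⁻¹ • v := by
      have := congrArg (((x⁻¹ : GL (Fin n) F) : Matrix (Fin n) (Fin n) F) *ᵥ ·) hxv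
      simp only [Matrix.mulVec_mulVec, Units.inv_mul, Matrix.one_mulVec, Matrix.mulVec_smul] at this
      conv_rhs => rw [this]
      rw [smul_smul, inv_mul_cancel₀ hl, one_smul]
    have huv : u ⬝ᵥ v = 0 := by
      rw [hu, sub_dotProduct, smul_dotProduct, ← Matrix.dotProduct_mulVec, hxi, dotProduct_smul, hwv]
      simp
    have hyv : t * x * t⁻¹ * x⁻¹ = tv v u huv := by
      refine Units.ext ?_
      show (1 + vecMulVec v w) * (x : Matrix (Fin n) (Fin n) F) * (1 + vecMulVec v (-w)) * ((x⁻¹ : GL (Fin n) F) : Matrix (Fin n) (Fin n) F) = 1 + vecMulVec v u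
      have e1 : (x : Matrix (Fin n) (Fin n) F) * vecMulVec v (-w) = l • vecMulVec v (-w) := by
        rw [Matrix.mul_vecMulVec, hxv, Matrix.smul_vecMulVec]
      calc _ = (1 + vecMulVec v w) * ((x : Matrix (Fin n) (Fin n) F) * (1 + vecMulVec v (-w))) * ((x⁻¹ : GL (Fin n) F) : Matrix (Fin n) (Fin n) F) := by
            simp only [mul_assoc]
        _ = (1 + vecMulVec v w) * (1 + l • vecMulVec v (-w) * ((x⁻¹ : GL (Fin n) F) : Matrix (Fin n) (Fin n) F)) := by
            rw [mul_add, mul_one, e1, mul_assoc, add_mul (x : Matrix (Fin n) (Fin n) F), Units.mul_inv]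
        _ = (1 + vecMulVec v w) * (1 + vecMulVec v (-(l • (w ᵥ* ((x⁻¹ : GL (Fin n) F) : Matrix (Fin n) (Fin n) F))))) := by
            rw [Matrix.smul_mul, Matrix.vecMulVec_mul, ← Matrix.vecMulVec_smul, Matrix.neg_vecMul, smul_neg]
        _ = _ := by rw [tv_mul_tv _ _ _ hwv, hu, sub_eq_add_neg]
    have hyp : (tv v u huv) ^ p = 1 := by
      have hh : ∀ k : ℕ, ((tv v u huv : Matrix (Fin n) (Fin n) F)) ^ k = 1 + vecMulVec v ((k : F) • u) := by
        intro k
        induction k with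
        | zero => simp
        | succ k ih =>
          rw [pow_succ, ih, tv_val, tv_mul_tv _ _ _ (by rw [smul_dotProduct, huv, smul_zero]), Nat.cast_succ, add_smul, one_smul]
      refine Units.ext ?_
      rw [Units.val_pow_eq_pow_val, hh, CharP.cast_eq_zero, zero_smul, Matrix.vecMulVec_zero, add_zero, Units.val_one]
    have h1 : tv v u huv = 1 := by
      refine orderOf_eq_one_iff.mp (Nat.eq_one_of_dvd_one ?_)
      rw [← hco.gcd_eq_one]
      exact Nat.dvd_gcd (orderOf_dvd_of_pow_eq_one (hpow _ (hyv ▸ hy))) (orderOf_dvd_of_pow_eq_one hyp)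
    have h2 : u = 0 := by
      have h3 := congrArg Units.val h1
      rw [tv_val, Units.val_one, add_eq_left] at h3
      obtain ⟨i, hi⟩ := Function.ne_iff.mp hv
      funext j
      have h4 := congrFun (congrFun h3 i) j
      rw [Matrix.vecMulVec_apply, Matrix.zero_apply] at h4
      exact (mul_eq_zero.mp h4).resolve_left hi
    rw [hu, sub_eq_zero] at h2
    conv_lhs => rw [h2, Matrix.smul_vecMul, Matrix.vecMul_vecMul, Units.inv_mul, Matrix.vecMul_one]
  have himg : ∀ v : Fin n → F, v ≠ 0 → (x : Matrix (Fin n) (Fin n) F) *ᵥ v = l • v → ∀ a,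
      (x : Matrix (Fin n) (Fin n) F) *ᵥ a - l • a ∈ Submodule.span F {v} := by
    intro v hv0 hxv a
    by_contra hout
    obtain ⟨w, hw, hwa⟩ := exists_dot hout
    have hwv := hw v (Submodule.mem_span_singleton_self v)
    rw [dotProduct_sub, dotProduct_smul, Matrix.dotProduct_mulVec, key v hv0 hxv w hwv, smul_dotProduct, sub_self] at hwa
    exact zero_ne_one hwa
  set N := Matrix.toLin' ((x : Matrix (Fin n) (Fin n) F) - l • 1) with hN
  have hNap : ∀ a, N a = (x : Matrix (Fin n) (Fin n) F) *ᵥ a - l • a := fun a => by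
    rw [hN, Matrix.toLin'_apply, Matrix.sub_mulVec, Matrix.smul_mulVec, Matrix.one_mulVec]
  have hrange : LinearMap.range N ≤ Submodule.span F {v} := by
    rintro _ ⟨a, rfl⟩; rw [hNap]; exact himg v hv hxv a
  obtain ⟨v₂, hv₂, hv₂s⟩ : ∃ v₂ ∈ LinearMap.ker N, v₂ ∉ Submodule.span F {v} := by
    refine SetLike.not_le_iff_exists.mp fun hker => ?_
    have h1 := LinearMap.finrank_range_add_finrank_ker N
    have h2 := Submodule.finrank_mono hrange
    have h3 := Submodule.finrank_mono hker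
    rw [finrank_span_singleton hv] at h2 h3
    rw [Module.finrank_fin_fun] at h1
    omega
  have hxv₂ : (x : Matrix (Fin n) (Fin n) F) *ᵥ v₂ = l • v₂ := sub_eq_zero.mp (hNap v₂ ▸ LinearMap.mem_ker.mp hv₂)
  refine (mem_scalars_iff x).mpr ⟨Units.mk0 l hl, Matrix.ext_of_mulVec_single fun i => ?_⟩
  rw [Units.val_mk0, Matrix.smul_mulVec, Matrix.one_mulVec]
  obtain ⟨c, hc⟩ := Submodule.mem_span_singleton.mp (himg v₂ (fun h0 => hv₂s (h0 ▸ zero_mem _)) hxv₂ (Pi.single i 1))
  have h3 := himg v hv hxv (Pi.single i 1)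
  rw [← hc] at h3
  rcases eq_or_ne c 0 with rfl | hc0
  · rw [zero_smul] at hc; exact sub_eq_zero.mp hc.symm
  · exact absurd ((Submodule.smul_mem_iff _ hc0).mp h3) hv₂s

end Data

end Cfsg.Agent.GeomClasses.MaxList
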