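import Cfsg.Agent.GeomClasses.Aschbacher.Main
import Cfsg.Agent.GeomClasses.MaxList.SymplecticType

/-! # Maximal subgroups of the special linear group by class -/

set_option autoImplicit false

namespace Cfsg.Agent.GeomClasses.MaxList

open Matrix Cfsg.Geo
open scoped MatrixGroups

variable {F : Type*} [Field F] [Fintype F] {n : ℕ}

local notation "SLn" => specialLinear (Fin n) F

theorem field_dvd {r : ℕ} {K : Subalgebra F (Matrix (Fin n) (Fin n) F)} (hK : IsFieldSubalgebra r K) (hr : 2 ≤ r) :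
    r ∣ n := by
  classical
  haveI : Nontrivial K := Module.nontrivial_of_finrank_pos (R := F) (by
    show 0 < Module.finrank F K
    rw [hK.finrank_eq]; omega)
  have hfield : IsField K :=
    { exists_pair_ne := exists_pair_ne _
      mul_comm := fun x y => Subtype.ext (hK.comm x x.2 y y.2)
      mul_inv_cancel := fun {x} hx => by
        obtain ⟨y, hy, hxy⟩ := hK.inv x x.2 (fun h => hx (Subtype.ext h))
        exact ⟨⟨y, hy⟩, Subtype.ext hxy⟩ }
  let φ : K →+* Module.End F (Fin n → F) :=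
    (Matrix.toLinAlgEquiv' : Matrix (Fin n) (Fin n) F ≃ₐ[F] _).toAlgHom.toRingHom.comp K.val.toRingHom
  letI : Module K (Fin n → F) := Module.compHom _ φ
  have tower : ∀ (c : F) (k : K) (v : Fin n → F), (c • k) • v = c • (k • v) := fun c k v => by
    show Matrix.toLinAlgEquiv' ((c • k : K) : Matrix (Fin n) (Fin n) F) v = c • Matrix.toLinAlgEquiv' (k : Matrix (Fin n) (Fin n) F) v
    rw [show ((c • k : K) : Matrix (Fin n) (Fin n) F) = c • (k : Matrix (Fin n) (Fin n) F) from rfl, map_smul]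
    rfl
  haveI : StrongRankCondition K := by
    letI : Field K := hfield.toField
    exact commRing_strongRankCondition K
  haveI : Module.Free K (Fin n → F) := by
    letI : Field K := hfield.toField
    exact Module.Free.of_divisionRing K (Fin n → F)
  have h := @Module.finrank_mul_finrank F K (Fin n → F) _ _ _ _ _ _ ⟨tower⟩ _ _ _ _
  rw [Module.finrank_fin_fun] at h
  rw [show Module.finrank F K = r from hK.finrank_eq] at h
  exact ⟨_, h.symm⟩

theorem card_decomp {t m : ℕ} {D : Fin t → Submodule F (Fin n → F)} (hD : IsMDecomposition m D) : t * m = n := by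
  classical
  have hint : DirectSum.IsInternal D := (DirectSum.isInternal_submodule_iff_iSupIndep_and_iSup_eq_top D).mpr ⟨hD.indep, hD.iSup_eq_top⟩
  let b := hint.collectedBasis fun i => Module.finBasisOfFinrankEq F (D i) (hD.finrank_eq i)
  have h := Module.finrank_eq_card_basis b
  rw [Module.finrank_fin_fun, Fintype.card_sigma] at h
  simpa using h.symm

/-- The kinds of maximal subgroups of the special linear group. -/
theorem sl_cases (hn : 3 ≤ n) (H : Subgroup (GL (Fin n) F)) (hH : IsMaximalIn SLn H) :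
    (∃ W : Submodule F (Fin n → F), W ≠ ⊥ ∧ W ≠ ⊤ ∧ H = subspaceStabilizer W ⊓ SLn) ∨
    (∃ (t m : ℕ) (D : Fin t → Submodule F (Fin n → F)), IsMDecomposition m D ∧ t * m = n ∧
      H = decompositionStabilizer D ⊓ SLn) ∨
    (∃ (r : ℕ) (K : Subalgebra F (Matrix (Fin n) (Fin n) F)), r.Prime ∧ r ∣ n ∧ IsFieldSubalgebra r K ∧
      H = subalgebraNormalizer K ⊓ SLn) ∨
    (∃ (n₁ n₂ : ℕ) (e : Fin n ≃ Fin n₁ × Fin n₂) (P : GL (Fin n) F), 2 ≤ n₁ ∧ n₁ < n₂ ∧ n₁ * n₂ = n ∧
      H = tensorProductSubgroup n₁ n₂ e P ⊓ SLn) ∨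
    (∃ (F₀ : Subfield F) (r : ℕ) (P : GL (Fin n) F), r.Prime ∧ Fintype.card F = Nat.card F₀ ^ r ∧
      H = subfieldSubgroup F₀ P ⊓ SLn) ∨
    (∃ (r : ℕ) (R : Subgroup (GL (Fin n) F)), IsLinearSymplecticTypeData r R ∧ r.Prime ∧ (∃ m, 1 ≤ m ∧ n = r ^ m) ∧
      H = subgroupNormalizer R ⊓ SLn) ∨
    (∃ (m t : ℕ) (e : Fin n ≃ (Fin t → Fin m)) (P : GL (Fin n) F), 3 ≤ m ∧ 2 ≤ t ∧ m ^ t = n ∧
      H ≤ tensorWreathSubgroup m t e P) ∨
    (Even n ∧ ∃ f : (Fin n → F) → (Fin n → F) → F, IsSymplecticForm f ∧ H = similarityGroup f ⊓ SLn) ∨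
    (∃ (σ : F ≃+* F) (f : (Fin n → F) → (Fin n → F) → F), IsUnitaryForm σ f ∧ H = similarityGroup f ⊓ SLn) ∨
    (Odd (Fintype.card F) ∧ ∃ Q : (Fin n → F) → F, IsNondegenerateQuadraticForm Q ∧ H = quadSimilarityGroup Q ⊓ SLn) ∨
    InLinearResidualClass H := by
  rcases Asch.structure_theorem n hn H with ⟨M, hM, hle⟩ | hres
  swap
  · iterate 10 right
    exact hres
  rcases hM with ⟨W, h0, h1, rfl⟩ | ⟨W, U, h0, hWU, hdim, rfl⟩ | ⟨W, U, h0, hinf, hsup, hlt, rfl⟩ |
    ⟨t, m, D, hD, rfl⟩ | ⟨r, K, hr, hK, rfl⟩ | ⟨n₁, n₂, e, P, h1, h2, rfl⟩ | ⟨F₀, r, P, hr, hc, rfl⟩ |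
    ⟨r, R, hR, rfl⟩ | ⟨m, t, e, P, hm, ht, rfl⟩ | ⟨f, hf, hev, -, rfl⟩ | ⟨σ, f, hf, -, rfl⟩ | ⟨Q, hQ, hq, -, rfl⟩
  · exact Or.inl ⟨W, h0, h1, eq_of_le hH hle (subspace_proper h0 h1)⟩
  · have h1 : W ≠ ⊤ := fun h => not_top_lt (h ▸ hWU)
    exact Or.inl ⟨W, h0, h1, eq_of_le hH (hle.trans inf_le_left) (subspace_proper h0 h1)⟩
  · have h1 : W ≠ ⊤ := fun h => by
      subst h
      rw [finrank_top] at hlt
      exact absurd (Submodule.finrank_le U) (by omega)
    exact Or.inl ⟨W, h0, h1, eq_of_le hH (hle.trans inf_le_left) (subspace_proper h0 h1)⟩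
  · exact Or.inr <| Or.inl ⟨t, m, D, hD, card_decomp hD, eq_of_le hH hle (decomp_proper hD)⟩
  · iterate 2 right
    exact Or.inl ⟨r, K, hr, field_dvd hK hr.two_le, hK, eq_of_le hH hle (field_proper hn hr.two_le hK)⟩
  · iterate 3 right
    refine Or.inl ⟨n₁, n₂, e, P, h1, h2, ?_, eq_of_le hH hle (tensor_proper h1 (by omega) e P)⟩
    simpa using (Fintype.card_congr e).symm
  · iterate 4 right
    exact Or.inl ⟨F₀, r, P, hr, hc, eq_of_le hH hle (subfield_proper (by omega) hr hc P)⟩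
  · iterate 5 right
    exact Or.inl ⟨r, R, hR, hR.symplecticType.prime, data_card hn hR, eq_of_le hH hle (symp_type_proper hn hR)⟩
  · iterate 6 right
    refine Or.inl ⟨m, t, e, P, hm, ht, ?_, hle⟩
    simpa using (Fintype.card_congr e).symm
  · iterate 7 right
    exact Or.inl ⟨hev, f, hf, eq_of_le hH hle
      (form_proper hn hf.bilinear.add_left hf.bilinear.smul_left hf.nondegenerate)⟩
  · iterate 8 right
    exact Or.inl ⟨σ, f, hf, eq_of_le hH hle (form_proper hn hf.add_left hf.smul_left hf.nondegenerate)⟩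
  · iterate 9 right
    exact Or.inl ⟨hq, Q, hQ, eq_of_le hH hle (quad_proper hn hQ)⟩

end Cfsg.Agent.GeomClasses.MaxList
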