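import Cfsg.Agent.GeomClasses.MaxList.Exclusions

/-! # Small fields in degree four -/

set_option autoImplicit false

namespace Cfsg.Agent.GeomClasses.MaxList

open Matrix Cfsg.Geo
open scoped MatrixGroups

variable {F : Type*} [Field F] [Fintype F]

local notation "SL4" => specialLinear (Fin 4) F
local notation "M4" => Matrix (Fin 4) (Fin 4) F

theorem det_of_mem_sl {n : ℕ} {g : GL (Fin n) F} (h : g ∈ specialLinear (Fin n) F) :
    (g : Matrix (Fin n) (Fin n) F).det = 1 := by
  simpa [specialLinear, MonoidHom.mem_ker, Matrix.GeneralLinearGroup.val_det_apply, Units.ext_iff] using h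

/-- Two planes over at most three elements fix a symplectic form up to scalars. -/
theorem planes_small (hq : Fintype.card F ≤ 3) {H : Subgroup (GL (Fin 4) F)} (hH : IsMaximalIn SL4 H)
    {D : Fin 2 → Submodule F (Fin 4 → F)} (hD : IsMDecomposition 2 D) (hle : H ≤ decompositionStabilizer D) :
    ∃ f : (Fin 4 → F) → (Fin 4 → F) → F, IsSymplecticForm f ∧ H = similarityGroup f ⊓ SL4 := by
  classical
  obtain ⟨b, hb⟩ := exists_adapted hD
  let f : (Fin 4 → F) → (Fin 4 → F) → F := fun u w =>
    ∑ a, (b.repr u (a, 0) * b.repr w (a, 1) - b.repr u (a, 1) * b.repr w (a, 0))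
  have hf : IsSymplecticForm f := by
    refine ⟨⟨fun x y w => ?_, fun c x w => ?_, fun w x y => ?_, fun c w x => ?_⟩, fun u w => ?_, fun u => ?_, fun w hw => ?_⟩
    · simp only [f, map_add, Finsupp.add_apply, ← Finset.sum_add_distrib]
      exact Finset.sum_congr rfl fun a _ => by ring
    · simp only [f, Finset.mul_sum, map_smul, Finsupp.smul_apply, smul_eq_mul]
      exact Finset.sum_congr rfl fun a _ => by ring
    · simp only [f, map_add, Finsupp.add_apply, ← Finset.sum_add_distrib]
      exact Finset.sum_congr rfl fun a _ => by ring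
    · simp only [f, Finset.mul_sum, map_smul, Finsupp.smul_apply, smul_eq_mul]
      exact Finset.sum_congr rfl fun a _ => by ring
    · simp only [f, ← Finset.sum_neg_distrib]
      exact Finset.sum_congr rfl fun a _ => by ring
    · simp only [f]
      exact Finset.sum_eq_zero fun a _ => by ring
    · obtain ⟨⟨a, j⟩, ha⟩ := not_forall.mp fun hall : ∀ x, b.repr w x = 0 => hw (b.repr.injective (Finsupp.ext fun x => by simpa using hall x))
      fin_cases j
      · refine ⟨⟨b (a, 1), ?_⟩, ⟨b (a, 1), ?_⟩⟩ <;>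
          simp [f, b.repr_self, Finsupp.single_apply] <;> fin_cases a <;> simpa using ha
      · refine ⟨⟨b (a, 0), ?_⟩, ⟨b (a, 0), ?_⟩⟩ <;>
          simp [f, b.repr_self, Finsupp.single_apply] <;> fin_cases a <;> simpa using ha
  refine ⟨f, hf, eq_of_le hH (fun g hg => ?_) (form_proper (by norm_num) hf.bilinear.add_left hf.bilinear.smul_left hf.nondegenerate)⟩
  obtain ⟨σ, A, hA, hgu⟩ := coords_mul b hb (hle hg)
  have hprod : (A 0).det * (A 1).det = 1 := by
    set G := LinearMap.toMatrix b b (Matrix.toLin' (g : M4)) with hG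
    have hGd : G.det = 1 := by
      rw [hG, LinearMap.det_toMatrix, LinearMap.det_toLin', det_of_mem_sl (hH.1.le hg)]
    let e : Equiv.Perm (Fin 2 × Fin 2) := σ.prodCongr (Equiv.refl _)
    have he : Equiv.Perm.sign e = 1 := by
      have h : ∀ τ : Equiv.Perm (Fin 2), Equiv.Perm.sign (τ.prodCongr (Equiv.refl (Fin 2))) = 1 := by decide
      exact h σ
    have hblock : G.submatrix e id = (Matrix.blockDiagonal A).submatrix (Equiv.prodComm _ _) (Equiv.prodComm _ _) := by
      ext ⟨a, j⟩ ⟨c, k⟩
      rw [hG, Matrix.submatrix_apply, LinearMap.toMatrix_apply, Matrix.toLin'_apply, id_eq]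
      show b.repr _ (σ a, j) = _
      rw [hgu, Matrix.submatrix_apply, Matrix.blockDiagonal_apply]
      simp only [b.repr_self, Finsupp.single_apply, Equiv.prodComm_apply, Prod.swap_prod_mk, Prod.mk.injEq]
      by_cases h : c = a
      · subst h; simp
      · simp [h, Ne.symm h]
    have h := congrArg Matrix.det hblock
    rw [Matrix.det_permute, he, hGd, Matrix.det_submatrix_equiv_self, Matrix.det_blockDiagonal, Fin.prod_univ_two] at h
    simpa using h.symm
  have hsq : ∀ x : F, x ≠ 0 → x * x = 1 := fun x hx => by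
    have h := FiniteField.pow_card_sub_one_eq_one x hx
    have := Fintype.one_lt_card (α := F)
    rcases (show Fintype.card F = 2 ∨ Fintype.card F = 3 by omega) with h2 | h2 <;> rw [h2] at h
    · rw [show (2 - 1 : ℕ) = 1 from rfl, pow_one] at h; rw [h, one_mul]
    · rw [← pow_two]; exact h
  have heq : (A 1).det = (A 0).det :=
    mul_left_cancel₀ (hA 0) (hprod.trans (hsq _ (hA 0)).symm)
  refine ⟨Units.mk0 (A 0).det (hA 0), fun u w => ?_⟩
  rw [Units.val_mk0]
  show ∑ a, _ = _ * ∑ a, _
  rw [← Equiv.sum_comp σ, Finset.mul_sum]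
  refine Finset.sum_congr rfl fun a _ => ?_
  have ha : (A a).det = (A 0).det := by fin_cases a <;> simp [heq]
  rw [Matrix.det_fin_two] at ha
  simp only [hgu, Fin.sum_univ_two]
  linear_combination (b.repr u (a, 0) * b.repr w (a, 1) - b.repr u (a, 1) * b.repr w (a, 0)) * ha

/-- Addition in the group of order four, on indices. -/
def vAdd : Fin 4 → Fin 4 → Fin 4 := ![![0, 1, 2, 3], ![1, 0, 3, 2], ![2, 3, 0, 1], ![3, 2, 1, 0]]

/-- The characters of the group of order four. -/
def vChar : Fin 4 → Fin 4 → ℤ := ![![1, 1, 1, 1], ![1, -1, 1, -1], ![1, 1, -1, -1], ![1, -1, -1, 1]]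

/-- The Pauli matrices of degree four. -/
def pauli (v w : Fin 4) : Matrix (Fin 4) (Fin 4) ℤ := Matrix.of fun i a => if i = vAdd a v then vChar w a else 0

theorem hadamard_pauli : ∀ v w i j, ((Matrix.of vChar) * pauli v w) i j = vChar v w * (pauli w v * (Matrix.of vChar)) i j := by
  decide

theorem perm_vAdd : ∀ (σ : Equiv.Perm (Fin 4)) (v : Fin 4), ∃ v', ∀ a, σ (vAdd a v) = vAdd (σ a) v' := by
  decide

/-- Lines over five elements: the monomial group is inside a symplectic-type normaliser. -/
theorem monomial_five (hq : Fintype.card F = 5) {H : Subgroup (GL (Fin 4) F)} (hH : IsMaximalIn SL4 H)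
    {t : ℕ} (ht : t = 4) {D : Fin t → Submodule F (Fin 4 → F)} (hD : IsMDecomposition 1 D)
    (hle : H ≤ decompositionStabilizer D) : False := by
  classical
  subst ht
  have h5 : (5 : F) = 0 := by
    have h := FiniteField.cast_card_eq_zero F
    rw [hq] at h
    exact_mod_cast h
  have h2 : (2 : F) ≠ 0 := fun h => one_ne_zero (α := F) (by linear_combination h5 - 2 * h)
  have h4 : ∀ x : F, x ≠ 0 → x ^ 4 = 1 := fun x hx => by
    have := FiniteField.pow_card_sub_one_eq_one x hx
    rwa [hq] at this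
  obtain ⟨b, hb⟩ := exists_adapted hD
  let b' : Module.Basis (Fin 4) F (Fin 4 → F) := b.reindex (Equiv.prodUnique (Fin 4) (Fin 1))
  have hb' : ∀ a, b' a = b (a, 0) := fun a => by
    simp [b', Subsingleton.elim (default : Fin 1) 0]
  let T : GL (Fin 4) F := Matrix.GeneralLinearGroup.mkOfDetNeZero ((Pi.basisFun F (Fin 4)).toMatrix b')
    (Matrix.isUnit_iff_isUnit_det _ |>.mp (@isUnit_of_invertible _ _ _ ((Pi.basisFun F (Fin 4)).invertibleToMatrix b'))).ne_zero
  have hT : ∀ i, (T : M4) *ᵥ Pi.single i 1 = b' i := fun i => by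
    funext j
    rw [Matrix.mulVec_single_one]
    simp [T, Module.Basis.toMatrix_apply, Matrix.col]
  have hTw : ∀ w : Fin 4 → F, ∀ i, b'.repr ((T : M4) *ᵥ w) i = w i := fun w i => by
    conv_lhs => rw [pi_eq_sum_univ' w]
    simp [Matrix.mulVec_sum, Matrix.mulVec_smul, hT, Finsupp.finset_sum_apply, Finsupp.single_apply]
  let P : Fin 4 → Fin 4 → M4 := fun v w => (pauli v w).map (Int.castRingHom F)
  let S : M4 → Prop := fun x => ∃ (c : F) (v w : Fin 4), c ≠ 0 ∧ x = c • P v w
  let N : Subgroup (GL (Fin 4) F) :=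
    { carrier := {g | ∀ x : M4, S x ↔ S ((g : M4) * x * ((g⁻¹ : GL (Fin 4) F) : M4))}
      mul_mem' := fun {a b} ha hb x => by
        rw [hb x, ha, Units.val_mul, _root_.mul_inv_rev, Units.val_mul]
        simp [mul_assoc]
      one_mem' := fun x => by simp
      inv_mem' := fun {a} ha x => by
        rw [ha ((((a⁻¹ : GL (Fin 4) F)) : M4) * x * (((a⁻¹)⁻¹ : GL (Fin 4) F) : M4))]
        simp [mul_assoc] }
  have hmk : ∀ g : GL (Fin 4) F, (∀ (v w : Fin 4), ∃ (c : F) (v' w' : Fin 4), c ≠ 0 ∧ (g : M4) * P v w = c • (P v' w' * (g : M4))) → g ∈ N := by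
    intro g h
    have hf : ∀ x, S x → S ((g : M4) * x * ((g⁻¹ : GL (Fin 4) F) : M4)) := by
      rintro _ ⟨c, v, w, hc, rfl⟩
      obtain ⟨c', v', w', hc', he⟩ := h v w
      exact ⟨c * c', v', w', mul_ne_zero hc hc', by
        rw [Matrix.mul_smul, he, Matrix.smul_mul, Matrix.smul_mul, mul_assoc, Units.mul_inv, mul_one, smul_smul]⟩
    refine fun x => ⟨hf x, fun hx => ?_⟩
    let φ : {x // S x} → {x // S x} := fun y => ⟨_, hf y.1 y.2⟩
    have hφ : Function.Injective φ := fun y z hyz => Subtype.ext (by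
      have := congrArg (fun u : {x // S x} => ((g⁻¹ : GL (Fin 4) F) : M4) * u.1 * (g : M4)) hyz
      simpa [φ, mul_assoc] using this)
    obtain ⟨y, hy⟩ := Finite.surjective_of_injective hφ ⟨_, hx⟩
    have : y.1 = x := by
      have := congrArg (fun u : {x // S x} => ((g⁻¹ : GL (Fin 4) F) : M4) * u.1 * (g : M4)) hy
      simpa [φ, mul_assoc] using this
    exact this ▸ y.2
  -- the shape of the elements of H
  have hmono : ∀ g ∈ H, ∃ (σ : Equiv.Perm (Fin 4)) (d : Fin 4 → F), (∀ a, d a ≠ 0) ∧
      ∀ i a, ((T⁻¹ * g * T : GL (Fin 4) F) : M4) i a = if i = σ a then d a else 0 := by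
    intro g hg
    obtain ⟨σ, A, hA, hgu⟩ := coords_mul b hb (hle hg)
    refine ⟨σ, fun a => A a 0 0, fun a h0 => hA a (by rw [Matrix.det_fin_one]; exact h0), fun i a => ?_⟩
    have h1 : ((T⁻¹ * g * T : GL (Fin 4) F) : M4) i a = b'.repr ((g : M4) *ᵥ b' a) i := by
      have h := hTw (((T⁻¹ * g * T : GL (Fin 4) F) : M4) *ᵥ Pi.single a 1) i
      rw [Matrix.mulVec_mulVec, ← Units.val_mul, show T * (T⁻¹ * g * T) = g * T by simp [mul_assoc], Units.val_mul,
        ← Matrix.mulVec_mulVec, hT, Matrix.mulVec_single_one] at h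
      exact h.symm
    rw [h1, hb']
    obtain ⟨i, rfl⟩ := σ.surjective i
    have h2 : b'.repr ((g : M4) *ᵥ b (a, 0)) (σ i) = b.repr ((g : M4) *ᵥ b (a, 0)) (σ i, 0) := by
      simp only [b']
      rw [Module.Basis.repr_reindex, Finsupp.mapDomain_equiv_apply]
      exact congrArg _ (Prod.ext rfl (Subsingleton.elim _ _))
    rw [h2, hgu]
    by_cases h : i = a
    · subst h; simp
    · simp [h, b.repr_self, Finsupp.single_apply, Ne.symm h]
  have hHN : H ≤ N.map (MulAut.conj T).toMonoidHom := by
    intro g hg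
    refine ⟨T⁻¹ * g * T, hmk _ ?_, by simp [mul_assoc]⟩
    obtain ⟨σ, d, hd, hent⟩ := hmono g hg
    set A : M4 := ((T⁻¹ * g * T : GL (Fin 4) F) : M4)
    have hu : ∏ a, d a ^ 2 = 1 := by
      have hdet : A.det = 1 := by
        simp only [A, Units.val_mul, Matrix.det_mul, det_of_mem_sl (hH.1.le hg), mul_one]
        rw [← Matrix.det_mul, Units.inv_mul, Matrix.det_one]
      have hAA : Aᵀ * A = Matrix.diagonal fun a => d a ^ 2 := by
        ext a c
        simp only [Matrix.mul_apply, Matrix.transpose_apply, hent, Matrix.diagonal_apply]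
        by_cases h : a = c
        · subst h; simp [pow_two]
        · simp [h, Ne.symm h]
      have h := congrArg Matrix.det hAA
      rw [Matrix.det_mul, Matrix.det_transpose, hdet, one_mul, Matrix.det_diagonal] at h
      exact h.symm
    intro v w
    obtain ⟨v', hv'⟩ := perm_vAdd σ v
    let e : Fin 4 → F := fun i => d (vAdd (σ.symm i) v) * (vChar w (σ.symm i) : F) / d (σ.symm i)
    have hchar : ∀ w a, (vChar w a : F) ^ 2 = 1 := by
      intro w a; fin_cases w <;> fin_cases a <;> simp [vChar]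
    have hchp : ∏ a, (vChar w a : F) = 1 := by
      rw [Fin.prod_univ_four]; fin_cases w <;> simp [vChar]
    have he0 : ∀ i, e i ≠ 0 := fun i => div_ne_zero (mul_ne_zero (hd _) (fun h => by
      have := hchar w (σ.symm i); rw [h] at this; simp at this)) (hd _)
    have hue : ∀ i, e i ^ 2 = e 0 ^ 2 := by
      have key : ∀ a c, d (vAdd a v) ^ 2 * d c ^ 2 = d (vAdd c v) ^ 2 * d a ^ 2 := by
        rw [Fin.prod_univ_four] at hu
        have h0 := h4 _ (hd 0); have h1 := h4 _ (hd 1); have h2 := h4 _ (hd 2); have h3 := h4 _ (hd 3)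
        intro a c
        fin_cases v <;> fin_cases a <;> fin_cases c <;> simp [vAdd] <;> grind
      intro i
      simp only [e, div_pow, mul_pow, hchar, mul_one]
      rw [div_eq_div_iff (pow_ne_zero _ (hd _)) (pow_ne_zero _ (hd _))]
      exact key _ _
    have hpe : e 0 * e 1 * e 2 * e 3 = 1 := by
      rw [← Fin.prod_univ_four, ← Equiv.prod_comp σ]
      simp only [e, Equiv.symm_apply_apply, Finset.prod_div_distrib, Finset.prod_mul_distrib, hchp, mul_one]
      have hbij : ∀ v, Function.Bijective fun a => vAdd a v := by decide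
      rw [(hbij v).prod_comp d, div_self (Finset.prod_ne_zero_iff.mpr fun a _ => hd a)]
    obtain ⟨w', hw'⟩ : ∃ w' : Fin 4, ∀ i, e i = e 0 * (vChar w' i : F) := by
      have hs : ∀ i, e i = e 0 ∨ e i = -e 0 := fun i => sq_eq_sq_iff_eq_or_eq_neg.mp (hue i)
      have h04 := h4 _ (he0 0)
      rcases hs 1 with h1 | h1 <;> rcases hs 2 with h2' | h2' <;> rcases hs 3 with h3 | h3 <;>
        first
          | (refine ⟨0, fun i => ?_⟩; fin_cases i <;> simp [vChar, h1, h2', h3] <;> done)
          | (refine ⟨1, fun i => ?_⟩; fin_cases i <;> simp [vChar, h1, h2', h3] <;> done)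
          | (refine ⟨2, fun i => ?_⟩; fin_cases i <;> simp [vChar, h1, h2', h3] <;> done)
          | (refine ⟨3, fun i => ?_⟩; fin_cases i <;> simp [vChar, h1, h2', h3] <;> done)
          | (exfalso; rw [h1, h2', h3] at hpe; exact h2 (by linear_combination -hpe - h04))
    refine ⟨e 0, v', w', he0 0, ?_⟩
    ext i a
    rw [Matrix.smul_apply, smul_eq_mul, Matrix.mul_apply, Matrix.mul_apply]
    rw [Finset.sum_eq_single (vAdd a v) (fun k _ hk => by simp [P, pauli, hk]) (by simp),
      Finset.sum_eq_single (σ a) (fun k _ hk => by simp [hent, hk]) (by simp)]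
    simp only [P, pauli, Matrix.map_apply, Matrix.of_apply, hent, if_true, eq_intCast, apply_ite (Int.cast : ℤ → F), Int.cast_zero,
      ← hv']
    by_cases h : i = σ (vAdd a v)
    · simp only [h, if_true]
      have := hw' (σ a)
      simp only [e, Equiv.symm_apply_apply] at this ⊢
      rw [← mul_assoc, ← this, div_mul_cancel₀ _ (hd a)]
    · simp [h]
  have hproper : ¬ SL4 ≤ N.map (MulAut.conj T).toMonoidHom := by
    intro hall
    have hdT : (Matrix.transvection (0 : Fin 4) 1 (1 : F)).det = 1 := Matrix.det_transvection_of_ne _ _ (by decide) _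
    let g : GL (Fin 4) F := Matrix.GeneralLinearGroup.mkOfDetNeZero _ (by rw [hdT]; exact one_ne_zero)
    have hgs : g ∈ SL4 := by
      simp [specialLinear, MonoidHom.mem_ker, Units.ext_iff, Matrix.GeneralLinearGroup.val_det_apply, g, hdT]
    obtain ⟨y, hy, hye⟩ := hall (conj_mem_specialLinear T hgs)
    obtain rfl : y = g := (MulAut.conj T).injective hye
    obtain ⟨c, v, w, hc, he⟩ := (hy (P 0 1)).mp ⟨1, 0, 1, one_ne_zero, (one_smul _ _).symm⟩
    have he' : (g : M4) * P 0 1 = (c • P v w) * (g : M4) := by rw [← he, mul_assoc, Units.inv_mul, mul_one]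
    have e00 := congrFun (congrFun he' 0) 0
    have e01 := congrFun (congrFun he' 0) 1
    simp [g, Matrix.mul_apply, Fin.sum_univ_four, P, pauli, Matrix.transvection, vAdd, vChar, Matrix.single] at e00 e01
    fin_cases v <;> fin_cases w <;> simp [vAdd, vChar] at e00 e01 <;> exact h2 (by grind)
  have hHM := eq_of_le hH hHN hproper
  let U : M4 := (Matrix.of vChar).map (Int.castRingHom F)
  have hUd : U.det = 1 := by
    have : (Matrix.of vChar).det = 16 := by decide
    show ((Int.castRingHom F).mapMatrix (Matrix.of vChar)).det = 1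
    rw [← RingHom.map_det, this]
    simp only [map_ofNat]
    linear_combination 3 * h5
  let Ug : GL (Fin 4) F := Matrix.GeneralLinearGroup.mkOfDetNeZero U (by rw [hUd]; exact one_ne_zero)
  have hUs : Ug ∈ SL4 := by
    simp [specialLinear, MonoidHom.mem_ker, Units.ext_iff, Matrix.GeneralLinearGroup.val_det_apply, Ug, hUd]
  have hUN : Ug ∈ N := hmk _ fun v w => by
    refine ⟨(vChar v w : F), w, v, ?_, ?_⟩
    · fin_cases v <;> fin_cases w <;> simp [vChar]
    · have h : Matrix.of vChar * pauli v w = vChar v w • (pauli w v * Matrix.of vChar) :=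
        Matrix.ext fun i j => hadamard_pauli v w i j
      have h' := congrArg (Int.castRingHom F).mapMatrix h
      rw [map_mul, map_zsmul, map_mul] at h'
      rw [Int.cast_smul_eq_zsmul]
      exact h'
  have hmem : T * Ug * T⁻¹ ∈ H := hHM ▸ ⟨⟨Ug, hUN, rfl⟩, conj_mem_specialLinear T hUs⟩
  obtain ⟨σ, d, hd, hent⟩ := hmono _ hmem
  have hne : ∃ i, i ≠ σ 0 := ⟨σ 1, fun h => absurd (σ.injective h) (by decide)⟩
  obtain ⟨i, hi⟩ := hne
  have h := hent i 0
  rw [if_neg hi] at h
  have hU0 : U i 0 = 0 := by simpa [Ug, mul_assoc] using h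
  fin_cases i <;> simp [U, vChar] at hU0

end Cfsg.Agent.GeomClasses.MaxList
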