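import Cfsg.Agent.GeomClasses.MaxList.Exclusions
import Cfsg.Agent.GeomClasses.UnitaryMax

/-! # The members of the unitary classes do not contain the special unitary group -/

set_option autoImplicit false

namespace Cfsg.Agent.GeomClasses.MaxList

open Matrix Cfsg.Geo Cfsg.Agent.Forms Cfsg.Agent.GeomClasses.Unitary
open scoped MatrixGroups Kronecker commutatorElement

variable {F : Type*} [Field F] [Fintype F] {q n : ℕ}

local notation "hh" => Cfsg.hermForm n F q
local notation "SUn" => (Cfsg.GU n F q ⊓ specialLinear (Fin n) F)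

/-- The functional of a unitary transvection. -/
def uW (v : Fin n → F) : Fin n → F := fun j => v j ^ q

theorem uW_dot (x v : Fin n → F) : (uW (q := q) v) ⬝ᵥ x = hh x v := dot_conj x v

omit [Fintype F] in
theorem uT_eq (v : Fin n → F) (c : F) (hv : hh v v = 0) :
    uT v c hv = tv (c • v) (uW (q := q) v) (by rw [dotProduct_smul]; unfold uW; rw [dot_conj, hv, smul_zero]) := rfl

theorem exists_pair (hF : Fintype.card F = q ^ 2) (hn : 2 ≤ n) :
    ∃ e f : Fin n → F, hh e e = 0 ∧ hh f f = 0 ∧ hh f e = 1 ∧ hh e f = 1 ∧ e ≠ 0 := by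
  obtain ⟨e, -, f, -, he, hf, hfe, hef⟩ := exists_isotropic_pair hF (nonDeg_top (n := n) hF)
    (by rw [finrank_top, Module.finrank_fin_fun]; exact hn)
  exact ⟨e, f, he, hf, hfe, hef, fun h0 => by rw [h0, hh_zero_left hF] at hef; exact zero_ne_one hef⟩

theorem iso_span (hF : Fintype.card F = q ^ 2) (hn : 2 ≤ n) :
    Submodule.span F {v : Fin n → F | hh v v = 0} = ⊤ := by
  obtain ⟨e, f, he, hf, hfe, hef, -⟩ := exists_pair hF hn
  set S := Submodule.span F {v : Fin n → F | hh v v = 0}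
  have hadj : ∀ x : Fin n → F, hh x e ≠ 0 → x ∈ S := fun x hx => by
    obtain ⟨a, ha⟩ := exists_adjust hF he hx (zero_pow_q hF)
    have := sub_mem (show x + a • e ∈ S from Submodule.subset_span ha)
      (S.smul_mem a (show e ∈ S from Submodule.subset_span he))
    simpa using this
  refine eq_top_iff.mpr fun x _ => ?_
  by_cases hx : hh x e = 0
  · have h1 := hadj (x + f) (by rw [hh_add_left hF, hx, hfe, zero_add]; exact one_ne_zero)
    simpa using sub_mem h1 (show f ∈ S from Submodule.subset_span hf)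
  · exact hadj x hx

theorem nonDeg_of_on (hF : Fintype.card F = q ^ 2) {W : Submodule F (Fin n → F)} (h : IsNondegenerateOn hh W) :
    NonDeg q W := fun u hu h0 => by
  by_contra hu0
  obtain ⟨x, hx, hxu⟩ := (h u hu hu0).2
  exact hxu (h0 x hx)

theorem exists_outside (hF : Fintype.card F = q ^ 2) (hn : 2 ≤ n) {W : Submodule F (Fin n → F)} (h0 : W ≠ ⊥) (h1 : W ≠ ⊤)
    (hW : IsTotallySingularFor hh W ∨ IsNondegenerateOn hh W) :
    ∃ v x, hh v v = 0 ∧ v ∉ W ∧ x ∈ W ∧ hh x v ≠ 0 := by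
  rcases hW with hW | hW
  · obtain ⟨w, hw, hw0⟩ := W.exists_mem_ne_zero_of_ne_bot h0
    by_contra hcon
    push_neg at hcon
    refine hw0 (nonDeg_top hF w trivial fun y _ => ?_)
    have hy : y ∈ Submodule.span F {v : Fin n → F | hh v v = 0} := (iso_span hF hn).symm ▸ trivial
    refine hh_comm_zero hF ?_
    induction hy using Submodule.span_induction with
    | mem v hv =>
      by_cases hvW : v ∈ W
      · exact hW v hvW w hw
      · exact hh_comm_zero hF (hcon v w hv hvW hw)
    | zero => exact hh_zero_left hF w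
    | add a b _ _ ha hb => rw [hh_add_left hF, ha trivial, hb trivial, add_zero]
    | smul c a _ ha => rw [hh_smul_left hF, ha trivial, mul_zero]
  · have hN := nonDeg_of_on hF hW
    have hc := isCompl_perp' hF hN
    set U := perp (hermB n hF) W
    have hU0 : U ≠ ⊥ := fun h => h1 (by have := hc.sup_eq_top; rwa [h, sup_bot_eq] at this)
    obtain ⟨u, hu, huu⟩ := exists_unit hF hN h0
    obtain ⟨u', hu', huu'⟩ := exists_unit hF (nonDeg_perp hF hN) hU0
    obtain ⟨r, hr⟩ := exists_norm hF (-1 : F) (by rw [pow_neg_q hF, one_pow])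
    have h1' : hh u' u = 0 := (mem_perp_iff hF).mp hu' u hu
    have h2' : hh u u' = 0 := hh_comm_zero hF h1'
    refine ⟨u + r • u', u, ?_, fun hmem => ?_, hu, ?_⟩
    · simp only [hh_add_left hF, hh_add_right hF, hh_smul_left hF, hh_smul_right hF, huu, huu', h1', h2']
      linear_combination hr
    · have h3 : r • u' ∈ W := by simpa using sub_mem hmem hu
      have h4 : r • u' = 0 := Submodule.disjoint_def.mp hc.disjoint _ h3 (U.smul_mem r hu')
      rcases smul_eq_zero.mp h4 with h | h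
      · rw [h] at hr; simp at hr
      · rw [h, hh_zero_left hF] at huu'; exact zero_ne_one huu'
    · rw [hh_add_right hF, hh_smul_right hF, huu, h2', mul_zero, add_zero]
      exact one_ne_zero

theorem u_subspace_proper (hF : Fintype.card F = q ^ 2) (hn : 2 ≤ n) {W : Submodule F (Fin n → F)} (h0 : W ≠ ⊥)
    (h1 : W ≠ ⊤) (hW : IsTotallySingularFor hh W ∨ IsNondegenerateOn hh W) : ¬ SUn ≤ subspaceStabilizer W := by
  intro hle
  obtain ⟨v, x, hv, hvW, hx, hxv⟩ := exists_outside hF hn h0 h1 hW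
  obtain ⟨c, hc0, hc⟩ := exists_trace_zero hF
  have h := mem_subspaceStabilizer_iff.mp (hle (uT_mem hF v c hv hc)) x hx
  rw [uT_mulVec] at h
  exact hvW ((W.smul_mem_iff (mul_ne_zero hc0 hxv)).mp ((W.add_mem_iff_right hx).mp h))

theorem u_blocks_proper (hF : Fintype.card F = q ^ 2) (hn : 2 ≤ n) {t m : ℕ} {D : Fin t → Submodule F (Fin n → F)}
    (hD : IsMDecomposition m D) (hm : 2 ≤ m) (hW : ∀ i, IsTotallySingularFor hh (D i) ∨ IsNondegenerateOn hh (D i)) :
    ¬ SUn ≤ decompositionStabilizer D := by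
  intro hle
  have ht := hD.two_le
  set a : Fin t := ⟨0, by omega⟩
  have hdis : ∀ {i j : Fin t}, i ≠ j → ∀ z, z ∈ D i → z ∈ D j → z = 0 := fun hij z hi hj =>
    Submodule.disjoint_def.mp (hD.indep.pairwiseDisjoint hij) z hi hj
  have hne : ∀ i, D i ≠ ⊥ := fun i h => by
    have := hD.finrank_eq i
    rw [h, finrank_bot] at this
    omega
  have htop : D a ≠ ⊤ := fun h => by
    obtain ⟨z, hz, hz0⟩ := (D ⟨1, by omega⟩).exists_mem_ne_zero_of_ne_bot (hne _)
    exact hz0 (hdis (show a ≠ ⟨1, by omega⟩ by simp [a, Fin.ext_iff]) z (h ▸ trivial) hz)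
  obtain ⟨v, x, hv, hvW, hx, hxv⟩ := exists_outside hF hn (hne a) htop (hW a)
  obtain ⟨c, hc0, hc⟩ := exists_trace_zero hF
  obtain ⟨σ, hσ⟩ := hle (uT_mem hF v c hv hc)
  have hT : ∀ y ∈ D a, y + (c * hh y v) • v ∈ D (σ a) := fun y hy => by
    have h := Submodule.mem_map_of_mem (f := Matrix.toLin' (uT v c hv : Matrix (Fin n) (Fin n) F)) hy
    rwa [hσ, Matrix.toLin'_apply, uT_mulVec] at h
  by_cases hσa : σ a = a
  · have h := hT x hx
    rw [hσa] at h
    exact hvW ((Submodule.smul_mem_iff _ (mul_ne_zero hc0 hxv)).mp ((Submodule.add_mem_iff_right _ hx).mp h))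
  · have hrk : D a ≤ Submodule.span F {x} := fun y hy => by
      set l := hh y v / hh x v with hl
      have h2 := sub_mem (hT y hy) ((D (σ a)).smul_mem l (hT x hx))
      have h3 : y + (c * hh y v) • v - l • (x + (c * hh x v) • v) = y - l • x := by
        rw [smul_add, smul_smul, show l * (c * hh x v) = c * hh y v by rw [hl]; field_simp]
        abel
      rw [h3] at h2
      have h4 := hdis (Ne.symm hσa) _ (sub_mem hy ((D a).smul_mem l hx)) h2
      exact Submodule.mem_span_singleton.mpr ⟨l, (sub_eq_zero.mp h4).symm⟩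
    have h5 := Submodule.finrank_mono hrk
    rw [hD.finrank_eq a] at h5
    have h6 := finrank_span_le_card (R := F) ({x} : Set (Fin n → F))
    simp at h6
    omega

theorem u_monomial_proper (hF : Fintype.card F = q ^ 2) (hn : 3 ≤ n) (hex : ¬ (q = 2 ∧ n = 3)) {t : ℕ}
    {D : Fin t → Submodule F (Fin n → F)} (hD : IsNondegenerateMDecomposition hh 1 D) :
    ¬ SUn ≤ decompositionStabilizer D := by
  intro hle
  classical
  have htn : t * 1 = n := card_decomp hD.decomp
  rw [mul_one] at htn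
  obtain ⟨b, hb⟩ := exists_adapted hD.decomp
  have hq := two_le_q hF
  have hbD : ∀ i, b (i, 0) ∈ D i := fun i => (hb i _).mpr fun k j hk => by
    rw [b.repr_self, Finsupp.single_apply, if_neg]
    exact fun h => hk (congrArg Prod.fst h).symm
  have horth : ∀ i j, i ≠ j → hh (b (i, 0)) (b (j, 0)) = 0 := fun i j h => hD.orthogonal i j h _ (hbD i) _ (hbD j)
  have hnd : ∀ i, hh (b (i, 0)) (b (i, 0)) ≠ 0 := fun i h0 => by
    obtain ⟨y, hy, hy0⟩ := (hD.nondegenerate i _ (hbD i) (b.ne_zero _)).2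
    refine hy0 ?_
    have hspan : y = b.repr y (i, 0) • b (i, 0) := b.repr.injective (Finsupp.ext fun ⟨k, j⟩ => by
      rw [Subsingleton.elim j 0, map_smul, b.repr_self, Finsupp.smul_apply, Finsupp.single_apply]
      by_cases hk : i = k
      · subst hk; simp
      · rw [if_neg (fun h => hk (congrArg Prod.fst h)), smul_zero]; exact (hb i y).mp hy k 0 (Ne.symm hk))
    rw [hspan, hh_smul_right hF, h0, mul_zero]
  have hscale : ∀ i, ∃ u ∈ D i, hh u u = 1 := fun i => by
    obtain ⟨r, hr⟩ := exists_norm hF (hh (b (i, 0)) (b (i, 0)))⁻¹ (by rw [inv_pow, hh_self_fixed hF])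
    exact ⟨r • b (i, 0), (D i).smul_mem r (hbD i), by
      rw [hh_smul_left hF, hh_smul_right hF, ← mul_assoc, hr, inv_mul_cancel₀ (hnd i)]⟩
  choose u hu huu using hscale
  have huo : ∀ i j, hh (u i) (u j) = if i = j then 1 else 0 := fun i j => by
    split_ifs with h
    · subst h; exact huu i
    · exact hD.orthogonal i j h _ (hu i) _ (hu j)
  -- an image of a frame vector with two non-zero coordinates
  have key : ∀ (T : GL (Fin n) F) (a i j : Fin t), T ∈ SUn → i ≠ j →
      hh ((T : Matrix (Fin n) (Fin n) F) *ᵥ u a) (u i) ≠ 0 → hh ((T : Matrix (Fin n) (Fin n) F) *ᵥ u a) (u j) ≠ 0 → False := by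
    intro T a i j hT hij hi hj
    obtain ⟨σ, hσ⟩ := hle hT
    have h := Submodule.mem_map_of_mem (f := Matrix.toLin' (T : Matrix (Fin n) (Fin n) F)) (hu a)
    rw [hσ, Matrix.toLin'_apply] at h
    have h1 : σ a = i := by_contra fun h1 => hi (hD.orthogonal _ _ h1 _ h _ (hu i))
    have h2 : σ a = j := by_contra fun h2 => hj (hD.orthogonal _ _ h2 _ h _ (hu j))
    exact hij (h1.symm.trans h2)
  by_cases hq3 : 3 ≤ q
  · obtain ⟨r, hr⟩ := exists_norm hF (-1 : F) (by rw [pow_neg_q hF, one_pow])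
    let i : Fin t := ⟨0, by omega⟩
    let j : Fin t := ⟨1, by omega⟩
    have hij : i ≠ j := by simp [i, j, Fin.ext_iff]
    have hr0 : r ≠ 0 := fun h => by rw [h] at hr; simp at hr
    set v := u i + r • u j with hvdef
    have hv : hh v v = 0 := by
      simp only [hvdef, hh_add_left hF, hh_add_right hF, hh_smul_left hF, hh_smul_right hF, huo, hij, hij.symm, if_true, if_false]
      linear_combination hr
    obtain ⟨τ, hτ0, hτ⟩ := exists_trace_zero hF
    obtain ⟨s, hs0, hs1, hs⟩ := exists_fixed_ne hF hq3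
    obtain ⟨c, hc0, hc1, hc⟩ : ∃ c : F, c ≠ 0 ∧ 1 + c ≠ 0 ∧ c + c ^ q = 0 := by
      by_cases h1 : 1 + τ = 0
      · refine ⟨s * τ, mul_ne_zero hs0 hτ0, fun h2 => hs1 ?_, by rw [mul_pow, hs]; linear_combination s * hτ⟩
        have : (s - 1) * τ = 0 := by linear_combination h2 - h1
        exact sub_eq_zero.mp ((mul_eq_zero.mp this).resolve_right hτ0)
      · exact ⟨τ, hτ0, h1, hτ⟩
    refine key (uT v c hv) i i j (uT_mem hF v c hv hc) hij ?_ ?_ <;>
      rw [uT_mulVec, hh_add_left hF, hh_smul_left hF] <;>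
      simp only [hvdef, hh_add_left hF, hh_add_right hF, hh_smul_left hF, hh_smul_right hF, huo, hij, hij.symm, if_true, if_false]
    · simpa using hc1
    · simpa using mul_ne_zero hc0 hr0
  · have hq2 : q = 2 := by omega
    have hn4 : 4 ≤ t := by
      by_contra h4
      exact hex ⟨hq2, by omega⟩
    let i : Fin 4 → Fin t := fun k => ⟨k, by omega⟩
    have hi : Function.Injective i := fun k l h => by simpa [i, Fin.ext_iff] using h
    have h2 : (2 : F) = 0 := by
      obtain ⟨p, hp⟩ := CharP.exists F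
      haveI := hp
      obtain ⟨e, hpp, hcard⟩ := FiniteField.card F p
      have hd : p ∣ 2 ^ 2 := by
        rw [show (2 : ℕ) ^ 2 = p ^ (e : ℕ) by rw [← hcard, hF, hq2]]; exact dvd_pow_self p e.pos.ne'
      have hp2 : p = 2 := (Nat.prime_dvd_prime_iff_eq hpp Nat.prime_two).mp (hpp.dvd_of_dvd_pow hd)
      subst hp2
      exact_mod_cast CharP.cast_eq_zero F 2
    set v := u (i 0) + u (i 1) + u (i 2) + u (i 3) with hvdef
    have hhv : ∀ k, hh v (u (i k)) = 1 := fun k => by
      simp only [hvdef, hh_add_left hF, huo, hi.eq_iff]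
      fin_cases k <;> simp
    have hv : hh v v = 0 := by
      conv_lhs => arg 5; rw [hvdef]
      simp only [hh_add_right hF, hhv]
      linear_combination 2 * h2
    have hc : (1 : F) + 1 ^ q = 0 := by rw [one_pow, one_add_one_eq_two, h2]
    refine key (uT v 1 hv) (i 0) (i 1) (i 2) (uT_mem hF v 1 hv hc) (fun h => absurd (hi h) (by decide)) ?_ ?_ <;>
      rw [uT_mulVec, hh_add_left hF, hh_smul_left hF, hhv, one_mul, huo, if_neg (fun h => absurd (hi h) (by decide)),
        ← hh_conj hF v (u (i 0)), hhv, one_pow, zero_add, one_mul] <;>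
      exact one_ne_zero

theorem field_tv_commute (hn : 3 ≤ n) {r : ℕ} {K : Subalgebra F (Matrix (Fin n) (Fin n) F)}
    (hK : IsFieldSubalgebra r K) {v w : Fin n → F} (h : w ⬝ᵥ v = 0) (hle : tv v w h ∈ subalgebraNormalizer K)
    {k : Matrix (Fin n) (Fin n) F} (hk : k ∈ K) :
    vecMulVec v w * k = k * vecMulVec v w := by
  haveI : Nonempty (Fin n) := ⟨⟨0, by omega⟩⟩
  set t := tv v w h with ht
  have hmem := (hle k).mp hk
  set d := (t : Matrix (Fin n) (Fin n) F) * k * ((t⁻¹ : GL (Fin n) F) : Matrix (Fin n) (Fin n) F) - k with hd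
  let φ : (Fin n → F) →ₗ[F] (F × F) :=
    { toFun := fun x => (w ⬝ᵥ x, w ⬝ᵥ (k *ᵥ x))
      map_add' := fun x y => by simp [dotProduct_add, Matrix.mulVec_add]
      map_smul' := fun c x => by simp [dotProduct_smul, Matrix.mulVec_smul] }
  have hker : 0 < Module.finrank F (LinearMap.ker φ) := by
    have h1 := LinearMap.finrank_range_add_finrank_ker φ
    have h2 := Submodule.finrank_le (LinearMap.range φ)
    rw [Module.finrank_prod, Module.finrank_self] at h2
    rw [Module.finrank_fin_fun] at h1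
    omega
  obtain ⟨⟨x, hx⟩, hx0⟩ := Module.finrank_pos_iff_exists_ne_zero.mp hker
  have hx1 : w ⬝ᵥ x = 0 := congrArg Prod.fst (LinearMap.mem_ker.mp hx)
  have hx2 : w ⬝ᵥ (k *ᵥ x) = 0 := congrArg Prod.snd (LinearMap.mem_ker.mp hx)
  have htx : (t : Matrix (Fin n) (Fin n) F) *ᵥ x = x := by rw [ht, tv_mulVec, hx1, zero_smul, add_zero]
  have htix : ((t⁻¹ : GL (Fin n) F) : Matrix (Fin n) (Fin n) F) *ᵥ x = x := by
    conv_lhs => rw [← htx, Matrix.mulVec_mulVec, Units.inv_mul, Matrix.one_mulVec]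
  have hdx : d *ᵥ x = 0 := by
    rw [hd, Matrix.sub_mulVec, ← Matrix.mulVec_mulVec, htix, ← Matrix.mulVec_mulVec, ht, tv_mulVec, hx2,
      zero_smul, add_zero, sub_self]
  by_cases hd0 : d = 0
  · have h3 := congrArg (· * (t : Matrix (Fin n) (Fin n) F)) (sub_eq_zero.mp hd0)
    simp only [Units.inv_mul_cancel_right] at h3
    rw [ht, tv_val, Matrix.add_mul, Matrix.mul_add, one_mul, mul_one, add_left_cancel_iff] at h3
    exact h3
  · obtain ⟨y, hy, hdy⟩ := hK.inv d (sub_mem hmem hk) hd0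
    refine absurd (Subtype.ext ?_ : (⟨x, hx⟩ : LinearMap.ker φ) = 0) hx0
    have h4 := hK.comm d (sub_mem hmem hk) y hy
    rw [hdy] at h4
    show x = 0
    rw [← Matrix.one_mulVec x, h4, ← Matrix.mulVec_mulVec, hdx, Matrix.mulVec_zero]

theorem u_field_proper (hF : Fintype.card F = q ^ 2) (hn : 3 ≤ n) {r : ℕ} (hr : 2 ≤ r)
    {K : Subalgebra F (Matrix (Fin n) (Fin n) F)} (hK : IsFieldSubalgebra r K) : ¬ SUn ≤ subalgebraNormalizer K := by
  intro hle
  haveI : Nonempty (Fin n) := ⟨⟨0, by omega⟩⟩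
  obtain ⟨e, f, he, hf, hfe, hef, he0⟩ := exists_pair hF (n := n) (by omega)
  obtain ⟨c, hc0, hc⟩ := exists_trace_zero hF
  suffices hbot : K ≤ ⊥ by
    have h5 := hK.finrank_eq
    rw [le_bot_iff.mp hbot, Subalgebra.finrank_bot] at h5
    omega
  intro k hk
  have h := field_tv_commute hn hK _ (hle (uT_mem hF e c he hc)) hk
  have h2 := congrArg (fun M => M *ᵥ f) h
  simp only [← Matrix.mulVec_mulVec, Matrix.vecMulVec_mulVec, op_smul_eq_smul, Matrix.mulVec_smul, dot_conj, hfe,
    one_smul] at h2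
  set l := hh (k *ᵥ f) e with hl
  have h3 : (k - algebraMap F _ l) *ᵥ e = 0 := by
    rw [Matrix.sub_mulVec, Algebra.algebraMap_eq_smul_one, Matrix.smul_mulVec, Matrix.one_mulVec, sub_eq_zero]
    refine smul_right_injective (Fin n → F) hc0 ?_
    show c • (k *ᵥ e) = c • (l • e)
    rw [← h2, smul_comm]
  by_contra hb
  have hne : k - algebraMap F (Matrix (Fin n) (Fin n) F) l ≠ 0 := fun h0 => hb (by
    rw [sub_eq_zero.mp h0]; exact Subalgebra.algebraMap_mem _ _)
  have hd := sub_mem hk (K.algebraMap_mem l)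
  obtain ⟨y, hy, hdy⟩ := hK.inv _ hd hne
  have h4 := hK.comm _ hd y hy
  rw [hdy] at h4
  exact he0 (by rw [← Matrix.one_mulVec e, h4, ← Matrix.mulVec_mulVec, h3, Matrix.mulVec_zero])

/-- A unitary transvection seen through a change of coordinates. -/
theorem u_tv_coord (hF : Fintype.card F = q ^ 2) (hn : 2 ≤ n) {κ : Type} [Fintype κ] [DecidableEq κ] (e : Fin n ≃ κ)
    (P : GL (Fin n) F) {T : Subgroup (GL κ F)}
    (hle : SUn ≤ (T.map (glReindex e.symm).toMonoidHom).map (MulAut.conj P).toMonoidHom) :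
    ∃ g ∈ T, ∃ x y : κ → F, g ≠ 1 ∧ y ⬝ᵥ x = 0 ∧ (g : Matrix κ κ F) = 1 + vecMulVec x y := by
  obtain ⟨v, f, hv, -, hfv, -, hv0⟩ := exists_pair hF (n := n) hn
  obtain ⟨c, hc0, hc⟩ := exists_trace_zero hF
  obtain ⟨_, ⟨g, hg, rfl⟩, hg'⟩ := hle (uT_mem hF v c hv hc)
  have hval := congrArg Units.val hg'
  rw [uT_eq, tv_val] at hval
  have hdot : uW (q := q) v ⬝ᵥ (c • v) = 0 := by rw [dotProduct_smul, uW_dot, hv, smul_zero]
  set x' : Fin n → F := ((P⁻¹ : GL (Fin n) F) : Matrix (Fin n) (Fin n) F) *ᵥ (c • v)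
  set y' : Fin n → F := uW (q := q) v ᵥ* (P : Matrix (Fin n) (Fin n) F)
  have hG : Matrix.reindexAlgEquiv F F e.symm (g : Matrix κ κ F) = 1 + vecMulVec x' y' := by
    have h1 : (P : Matrix (Fin n) (Fin n) F) * Matrix.reindexAlgEquiv F F e.symm (g : Matrix κ κ F) *
        ((P⁻¹ : GL (Fin n) F) : Matrix (Fin n) (Fin n) F) = 1 + vecMulVec (c • v) (uW (q := q) v) := hval
    have h2 := congrArg (fun M => ((P⁻¹ : GL (Fin n) F) : Matrix (Fin n) (Fin n) F) * M * (P : Matrix (Fin n) (Fin n) F)) h1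
    simp only [mul_assoc, Units.inv_mul_cancel_left, Units.inv_mul, mul_one] at h2
    rw [h2, Matrix.add_mul, one_mul, Matrix.mul_add, Units.inv_mul, Matrix.vecMulVec_mul, Matrix.mul_vecMulVec]
  refine ⟨g, hg, x' ∘ e.symm, y' ∘ e.symm, fun h1 => ?_, ?_, ?_⟩
  · subst h1
    rw [map_one, map_one] at hg'
    have h5 := congrArg (fun T : GL (Fin n) F => (T : Matrix (Fin n) (Fin n) F) *ᵥ f) hg'
    simp only [Units.val_one, Matrix.one_mulVec, uT_mulVec, hfv, mul_one, left_eq_add] at h5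
    exact hv0 ((smul_eq_zero.mp h5).resolve_left hc0)
  · rw [show (y' ∘ e.symm) ⬝ᵥ (x' ∘ e.symm) = y' ⬝ᵥ x' from Equiv.sum_comp e.symm (fun i => y' i * x' i),
      ← Matrix.dotProduct_mulVec, Matrix.mulVec_mulVec, Units.mul_inv, Matrix.one_mulVec, hdot]
  · ext a b
    have h6 := congrFun (congrFun hG (e.symm a)) (e.symm b)
    rw [Matrix.reindexAlgEquiv_apply] at h6
    simpa [Matrix.reindex_apply, Matrix.add_apply, Matrix.one_apply, Matrix.vecMulVec_apply] using h6

/-- A Kronecker product differing from the identity by a matrix of rank one is the identity. -/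
theorem kron_rank_one {A B : Type} [Fintype A] [Fintype B] [DecidableEq A] [DecidableEq B] [Nontrivial A] [Nontrivial B]
    (a : GL A F) (b : GL B F) {g : GL (A × B) F} (hg : (g : Matrix (A × B) (A × B) F) = (a : Matrix A A F) ⊗ₖ (b : Matrix B B F))
    {x y : A × B → F} (hxy : (g : Matrix (A × B) (A × B) F) = 1 + vecMulVec x y) : g = 1 := by
  have hent : ∀ i k j l, (a : Matrix A A F) i j * (b : Matrix B B F) k l =
      (if (i, k) = (j, l) then 1 else 0) + x (i, k) * y (j, l) := fun i k j l => by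
    have := congrFun (congrFun (hg.symm.trans hxy) (i, k)) (j, l)
    simpa [Matrix.kroneckerMap_apply, Matrix.one_apply, Matrix.vecMulVec_apply] using this
  have hrk : ∀ {C : Type} [Fintype C] [DecidableEq C] [Nontrivial C] (m : GL C F) (u w : C → F),
      (∀ k l, (m : Matrix C C F) k l = u k * w l) → False := by
    intro C _ _ _ m u w hm
    obtain ⟨k, l, hkl⟩ := exists_pair_ne C
    have hdet : IsUnit (m : Matrix C C F).det := (Matrix.isUnit_iff_isUnit_det _).mp m.isUnit
    refine hdet.ne_zero ?_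
    by_cases hu : u k = 0
    · exact Matrix.det_eq_zero_of_row_eq_zero k fun j => by rw [hm, hu, zero_mul]
    · rw [← Matrix.det_updateRow_add_smul_self (m : Matrix C C F) hkl.symm (-(u l / u k))]
      refine Matrix.det_eq_zero_of_row_eq_zero l fun j => ?_
      rw [Matrix.updateRow_self]
      show (m : Matrix C C F) l j + -(u l / u k) * (m : Matrix C C F) k j = 0
      rw [hm, hm]
      field_simp
      ring
  have ha : ∀ i j, i ≠ j → (a : Matrix A A F) i j = 0 := fun i j hij => by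
    by_contra h0
    refine hrk b (fun k => x (i, k) / (a : Matrix A A F) i j) (fun l => y (j, l)) fun k l => ?_
    have := hent i k j l
    rw [if_neg (fun h => hij (congrArg Prod.fst h)), zero_add] at this
    rw [div_mul_eq_mul_div, eq_div_iff h0, mul_comm, this]
  have hb : ∀ k l, k ≠ l → (b : Matrix B B F) k l = 0 := fun k l hkl => by
    by_contra h0
    refine hrk a (fun i => x (i, k) / (b : Matrix B B F) k l) (fun j => y (j, l)) fun i j => ?_
    have := hent i k j l
    rw [if_neg (fun h => hkl (congrArg Prod.snd h)), zero_add] at this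
    rw [div_mul_eq_mul_div, eq_div_iff h0, this]
  have hoff : ∀ p p', p ≠ p' → x p * y p' = 0 := fun ⟨i, k⟩ ⟨j, l⟩ hne => by
    have := hent i k j l
    rw [if_neg hne, zero_add] at this
    rw [← this]
    rcases eq_or_ne i j with h | h
    · subst h
      rw [hb k l (fun h => hne (by rw [h])), mul_zero]
    · rw [ha i j h, zero_mul]
  refine Units.ext (hxy.trans (add_eq_left.mpr ?_))
  ext p p'
  rw [Matrix.vecMulVec_apply, Matrix.zero_apply]
  rcases eq_or_ne p p' with h | h
  swap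
  · exact hoff p p' h
  subst h
  by_contra h0
  obtain ⟨i₀, k₀⟩ := p
  obtain ⟨i, hi⟩ := exists_ne i₀
  obtain ⟨k, hk⟩ := exists_ne k₀
  have hz : ∀ p, p ≠ (i₀, k₀) → x p = 0 := fun p hp =>
    (mul_eq_zero.mp (hoff p (i₀, k₀) hp)).resolve_right (fun h => h0 (by rw [h, mul_zero]))
  have e1 := hent i k i k
  have e2 := hent i k₀ i k₀
  have e3 := hent i₀ k i₀ k
  have e4 := hent i₀ k₀ i₀ k₀
  rw [if_pos rfl, hz _ (fun h => hi (congrArg Prod.fst h)), zero_mul, add_zero] at e1 e2
  rw [if_pos rfl, hz _ (fun h => hk (congrArg Prod.snd h)), zero_mul, add_zero] at e3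
  rw [if_pos rfl] at e4
  have h14 : (a : Matrix A A F) i i * (b : Matrix B B F) k k * ((a : Matrix A A F) i₀ i₀ * (b : Matrix B B F) k₀ k₀) =
      (a : Matrix A A F) i i * (b : Matrix B B F) k₀ k₀ * ((a : Matrix A A F) i₀ i₀ * (b : Matrix B B F) k k) := by ring
  rw [e1, e2, e3, e4, one_mul, one_mul, add_eq_left] at h14
  exact h0 h14

theorem u_tensor_proper (hF : Fintype.card F = q ^ 2) {n₁ n₂ : ℕ} (h1 : 2 ≤ n₁) (h2 : 2 ≤ n₂) (hn : 2 ≤ n)
    (e : Fin n ≃ Fin n₁ × Fin n₂) (P : GL (Fin n) F) : ¬ SUn ≤ tensorProductSubgroup n₁ n₂ e P := by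
  intro hle
  haveI : Nontrivial (Fin n₁) := Fin.nontrivial_iff_two_le.mpr h1
  haveI : Nontrivial (Fin n₂) := Fin.nontrivial_iff_two_le.mpr h2
  obtain ⟨g, ⟨a, b, hab⟩, x, y, hg1, -, hxy⟩ := u_tv_coord hF hn e P hle
  exact hg1 (kron_rank_one a b hab hxy)

theorem u_subfield_proper (hF : Fintype.card F = q ^ 2) (hn : 3 ≤ n) {F₀ : Subfield F} {r : ℕ} (hr : r.Prime)
    (hcard : Fintype.card F = Nat.card F₀ ^ r) (P : GL (Fin n) F) :
    ¬ SUn ≤ subfieldSubgroup F₀ P := by
  intro hle
  classical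
  set Q := Nat.card F₀
  obtain ⟨p, hp⟩ := CharP.exists F
  haveI := hp
  obtain ⟨m, hpp, hpcard⟩ := FiniteField.card F p
  haveI := Fact.mk hpp
  obtain ⟨d, -, hQ⟩ := (Nat.dvd_prime_pow hpp).mp (hpcard ▸ hcard ▸ dvd_pow_self Q hr.pos.ne')
  have hfixQ : ∀ a : F, a ∈ F₀ ↔ a ^ Q = a := by
    have h1 : ∀ a ∈ F₀, a ^ Q = a := fun a ha => by
      have := FiniteField.pow_card (⟨a, ha⟩ : F₀)
      rw [← Nat.card_eq_fintype_card] at this
      exact congrArg Subtype.val this
    refine fun a => ⟨h1 a, fun ha => ?_⟩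
    by_contra hna
    have hQ1 : 1 < Q := by
      rw [show Q = Nat.card F₀ from rfl, Nat.card_eq_fintype_card]; exact Fintype.one_lt_card
    have hsub : insert a ((Finset.univ : Finset F₀).image Subtype.val) ⊆
        (Polynomial.X ^ Q - Polynomial.X : Polynomial F).roots.toFinset := by
      intro y hy
      rw [Multiset.mem_toFinset, Polynomial.mem_roots (FiniteField.X_pow_card_sub_X_ne_zero F hQ1)]
      rcases Finset.mem_insert.mp hy with rfl | hy
      · simp [Polynomial.IsRoot, ha]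
      · obtain ⟨z, -, rfl⟩ := Finset.mem_image.mp hy
        simp [Polynomial.IsRoot, h1 z z.2]
    have h2 := (Finset.card_le_card hsub).trans ((Multiset.toFinset_card_le _).trans (Polynomial.card_roots' _))
    rw [Finset.card_insert_of_notMem (fun h => by
        obtain ⟨z, -, rfl⟩ := Finset.mem_image.mp h; exact hna z.2),
      Finset.card_image_of_injective _ Subtype.val_injective, Finset.card_univ,
      FiniteField.X_pow_card_sub_X_natDegree_eq F hQ1, ← Nat.card_eq_fintype_card] at h2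
    omega
  -- the coordinates of a transvection lie in the subfield
  have hT : ∀ v c, ∀ hv : hh v v = 0, c + c ^ q = 0 → c ≠ 0 →
      ∀ i j, (((P⁻¹ : GL (Fin n) F) : Matrix (Fin n) (Fin n) F) *ᵥ v) i * c * (uW (q := q) v ᵥ* (P : Matrix (Fin n) (Fin n) F)) j ∈ F₀ := by
    intro v c hv hc hc0 i j
    obtain ⟨g, hg, hg'⟩ := hle (uT_mem hF v c hv hc)
    rw [Subgroup.mul_normal] at hg
    obtain ⟨_, ⟨y₀, rfl⟩, z, hz, rfl⟩ := hg
    obtain ⟨l, hl⟩ := (mem_scalars_iff z).mp hz
    set x : Fin n → F := ((P⁻¹ : GL (Fin n) F) : Matrix (Fin n) (Fin n) F) *ᵥ v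
    set w : Fin n → F := uW (q := q) v ᵥ* (P : Matrix (Fin n) (Fin n) F)
    set Y : Matrix (Fin n) (Fin n) F := (Matrix.GeneralLinearGroup.map (F₀.subtype : F₀ →+* F) y₀ : GL (Fin n) F).val with hY
    have h1 : (P : Matrix (Fin n) (Fin n) F) * ((l : F) • Y) * ((P⁻¹ : GL (Fin n) F) : Matrix (Fin n) (Fin n) F) =
        1 + vecMulVec (c • v) (uW (q := q) v) := by
      have := congrArg Units.val hg'
      rw [uT_eq, tv_val] at this
      rw [← this]
      show _ = (P : Matrix (Fin n) (Fin n) F) * (Y * (z : Matrix (Fin n) (Fin n) F)) * _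
      rw [hl]
      simp only [Matrix.mul_smul, Matrix.smul_mul, mul_one]
    have h2 := congrArg (fun M => ((P⁻¹ : GL (Fin n) F) : Matrix (Fin n) (Fin n) F) * M * (P : Matrix (Fin n) (Fin n) F)) h1
    simp only [mul_assoc, Units.inv_mul_cancel_left, Units.inv_mul, mul_one] at h2
    rw [Matrix.add_mul, one_mul, Matrix.mul_add, Units.inv_mul, Matrix.vecMulVec_mul, Matrix.mul_vecMulVec,
      Matrix.mulVec_smul] at h2
    have hYin : ∀ i j, Y i j ∈ F₀ := fun i j => (y₀.val i j).2
    set μ : F := (l : F)⁻¹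
    have hYe : Y = μ • (1 + vecMulVec (c • x) w) := by rw [← h2, inv_smul_smul₀ l.ne_zero]
    have hμ : μ ∈ F₀ := by
      rw [hfixQ]
      by_contra hne
      have hwx : w ⬝ᵥ (c • x) = 0 := by
        show (uW (q := q) v ᵥ* _) ⬝ᵥ _ = 0
        rw [dotProduct_smul, ← Matrix.dotProduct_mulVec, Matrix.mulVec_mulVec, Units.mul_inv, Matrix.one_mulVec, uW_dot,
          hv, smul_zero]
      obtain ⟨v₀, hv₀, hv₁⟩ : ∃ v₀ : Fin n → F, v₀ ≠ 0 ∧ w ⬝ᵥ v₀ = 0 := by
        by_cases hcx : c • x = 0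
        · let φ : (Fin n → F) →ₗ[F] F :=
            { toFun := fun u => w ⬝ᵥ u, map_add' := fun a b => dotProduct_add _ _ _, map_smul' := fun a b => dotProduct_smul _ _ _ }
          have h1 := LinearMap.finrank_range_add_finrank_ker φ
          have h2 := Submodule.finrank_le (LinearMap.range φ)
          rw [Module.finrank_self] at h2
          rw [Module.finrank_fin_fun] at h1
          obtain ⟨⟨u, hu⟩, hu0⟩ := Module.finrank_pos_iff_exists_ne_zero.mp (show 0 < Module.finrank F (LinearMap.ker φ) by omega)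
          exact ⟨u, fun h => hu0 (Subtype.ext h), hu⟩
        · exact ⟨_, hcx, hwx⟩
      have hdet : (Y - μ • 1).det = 0 := Matrix.exists_mulVec_eq_zero_iff.mp ⟨v₀, hv₀, by
        rw [hYe, Matrix.sub_mulVec, Matrix.smul_mulVec, Matrix.smul_mulVec, Matrix.one_mulVec, Matrix.add_mulVec,
          Matrix.one_mulVec, Matrix.vecMulVec_mulVec, hv₁]
        simp⟩
      have hfr : ∀ a : F, iterateFrobenius F p d a = a ^ Q := fun a => by rw [iterateFrobenius_def, hQ]
      have hdet' : (Y - (μ ^ Q) • 1).det = 0 := by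
        have h := congrArg (iterateFrobenius F p d) hdet
        rw [RingHom.map_det, map_zero] at h
        rw [← h]
        congr 1
        ext a b
        simp only [RingHom.mapMatrix_apply, Matrix.map_apply, Matrix.sub_apply, Matrix.smul_apply, map_sub, smul_eq_mul,
          map_mul, hfr, (hfixQ _).mp (hYin a b)]
        rcases eq_or_ne a b with rfl | hab
        · simp
        · have hQ0 : Q ≠ 0 := Nat.card_pos.ne'
          simp [Matrix.one_apply_ne hab, hQ0]
      obtain ⟨u, hu, hYu⟩ := Matrix.exists_mulVec_eq_zero_iff.mpr hdet'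
      rw [hYe, Matrix.sub_mulVec, Matrix.smul_mulVec, Matrix.smul_mulVec, Matrix.one_mulVec, Matrix.add_mulVec,
        Matrix.one_mulVec, Matrix.vecMulVec_mulVec, op_smul_eq_smul, smul_add, sub_eq_zero] at hYu
      have h3 := congrArg (fun z => w ⬝ᵥ z) hYu
      simp only [dotProduct_add, dotProduct_smul, hwx, smul_zero, add_zero, smul_eq_mul, mul_zero] at h3
      have h4 : w ⬝ᵥ u = 0 := by
        by_contra h5
        exact hne (mul_right_cancel₀ h5 h3).symm
      rw [h4, zero_smul, smul_zero, add_zero] at hYu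
      exact hne (smul_left_injective F hu hYu).symm
    have h5 := hYin i j
    rw [hYe, Matrix.smul_apply, Matrix.add_apply, Matrix.vecMulVec_apply, Pi.smul_apply, smul_eq_mul, smul_eq_mul, mul_add] at h5
    have hone : μ * (1 : Matrix (Fin n) (Fin n) F) i j ∈ F₀ := by
      rcases eq_or_ne i j with rfl | h
      · rwa [Matrix.one_apply_eq, mul_one]
      · rw [Matrix.one_apply_ne h, mul_zero]; exact zero_mem _
    have h6 := sub_mem h5 hone
    rw [add_sub_cancel_left] at h6
    have hμ0 : μ ≠ 0 := inv_ne_zero l.ne_zero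
    have h7 := mul_mem (inv_mem hμ) h6
    rw [inv_mul_cancel_left₀ hμ0] at h7
    rwa [mul_comm (x i) c]
  obtain ⟨e, f, he, hf, hfe, hef, he0⟩ := exists_pair hF (n := n) (by omega)
  obtain ⟨τ, hτ0, hτ⟩ := exists_trace_zero hF
  obtain ⟨t, ht⟩ := exists_trace_one hF
  set Pi' : Matrix (Fin n) (Fin n) F := ((P⁻¹ : GL (Fin n) F) : Matrix (Fin n) (Fin n) F)
  set Pm : Matrix (Fin n) (Fin n) F := (P : Matrix (Fin n) (Fin n) F)
  have hxne : ∀ v : Fin n → F, v ≠ 0 → ∃ i, (Pi' *ᵥ v) i ≠ 0 := fun v hv =>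
    Function.ne_iff.mp fun h => hv (by
      have := congrArg (Pm *ᵥ ·) h
      simpa [Pm, Pi', Matrix.mulVec_mulVec, show (fun _ : Fin n => (0 : F)) = 0 from rfl] using this)
  have hwne : ∀ v : Fin n → F, v ≠ 0 → ∃ j, (uW (q := q) v ᵥ* Pm) j ≠ 0 := fun v hv =>
    Function.ne_iff.mp fun h => by
      obtain ⟨i, hi⟩ := Function.ne_iff.mp hv
      have h' := congrArg (· ᵥ* Pi') h
      simp only [Matrix.vecMul_vecMul, Pm, Pi', Units.mul_inv, Matrix.vecMul_one, Matrix.zero_vecMul] at h'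
      rw [show (fun _ : Fin n => (0 : F)) = 0 from rfl, Matrix.zero_vecMul] at h'
      exact hi ((pow_eq_zero_iff (show q ≠ 0 by have := two_le_q hF; omega)).mp (congrFun h' i))
  rcases (show r = 2 ∨ 3 ≤ r by have := hr.two_le; omega) with rfl | hr3
  swap
  · obtain ⟨i, hi⟩ := hxne e he0
    obtain ⟨j, hj⟩ := hwne e he0
    have hK : ∀ c : F, c + c ^ q = 0 → (Pi' *ᵥ e) i * c * (uW (q := q) e ᵥ* Pm) j ∈ F₀ := fun c hc => by
      by_cases hc0 : c = 0
      · rw [hc0, mul_zero, zero_mul]; exact zero_mem _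
      · exact hT e c he hc hc0 i j
    have hfix : ∀ a : F, (a + a ^ q) ^ q = a + a ^ q := fun a => by rw [pow_add_q hF, pow_q_q hF, add_comm]
    let Φ : F → F₀ × F₀ := fun a =>
      (⟨_, hK ((a + a ^ q) * τ) (by rw [mul_pow, hfix]; linear_combination (a + a ^ q) * hτ)⟩,
       ⟨_, hK (a - (a + a ^ q) * t) (by rw [pow_sub_q hF, mul_pow, hfix]; linear_combination (-(a + a ^ q)) * ht)⟩)
    have hΦ : Function.Injective Φ := fun a a' h => by
      have hk1 := mul_left_cancel₀ hi (mul_right_cancel₀ hj (congrArg Subtype.val (congrArg Prod.fst h)))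
      have hk2 := mul_left_cancel₀ hi (mul_right_cancel₀ hj (congrArg Subtype.val (congrArg Prod.snd h)))
      have hk3 := mul_right_cancel₀ hτ0 hk1
      rw [hk3] at hk2
      exact sub_left_injective hk2
    have hle' := Fintype.card_le_of_injective Φ hΦ
    rw [Fintype.card_prod, ← Nat.card_eq_fintype_card (α := F₀), hcard] at hle'
    have hQ1 : 1 < Q := by rw [show Q = Nat.card F₀ from rfl, Nat.card_eq_fintype_card]; exact Fintype.one_lt_card
    have := Nat.pow_le_pow_right (show 0 < Q by omega) hr3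
    nlinarith
  · have hQq : Q = q := Nat.pow_left_injective two_ne_zero (hcard.symm.trans hF)
    let J : (Fin n → F) → (Fin n → F) := fun v => Pm *ᵥ (fun i => ((Pi' *ᵥ v) i) ^ q)
    have hJadd : ∀ u v, J (u + v) = J u + J v := fun u v => by
      simp only [J]
      rw [← Matrix.mulVec_add]
      congr 1; funext i
      simp [Matrix.mulVec_add, pow_add_q hF]
    have hJsmul : ∀ (s : F) v, J (s • v) = s ^ q • J v := fun s v => by
      simp only [J]
      rw [← Matrix.mulVec_smul]
      congr 1; funext i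
      simp [Matrix.mulVec_smul, mul_pow]
    have hJ : ∀ v, hh v v = 0 → v ≠ 0 → ∃ a : F, a ≠ 0 ∧ J v = a • v := fun v hv hv0 => by
      obtain ⟨j, hj⟩ := hwne v hv0
      set b := τ * (uW (q := q) v ᵥ* Pm) j
      have hb : b ≠ 0 := mul_ne_zero hτ0 hj
      refine ⟨b / b ^ q, div_ne_zero hb (pow_ne_zero _ hb), ?_⟩
      have hx : (fun i => ((Pi' *ᵥ v) i) ^ q) = (b / b ^ q) • (Pi' *ᵥ v) := funext fun i => by
        have h := (hfixQ _).mp (hT v τ hv hτ hτ0 i j)
        rw [mul_assoc, hQq, mul_pow] at h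
        rw [Pi.smul_apply, smul_eq_mul, div_mul_eq_mul_div, eq_div_iff (pow_ne_zero _ hb), h]
        ring
      show Pm *ᵥ _ = _
      rw [hx, Matrix.mulVec_smul, Matrix.mulVec_mulVec, Units.mul_inv, Matrix.one_mulVec]
    -- a third vector orthogonal to the hyperbolic pair
    obtain ⟨z, hze, hzf, hz0⟩ : ∃ z, hh z e = 0 ∧ hh z f = 0 ∧ z ≠ 0 := by
      let φ : (Fin n → F) →ₗ[F] F × F :=
        { toFun := fun u => (hh u e, hh u f)
          map_add' := fun a b => by simp [hh_add_left hF]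
          map_smul' := fun a b => by simp [hh_smul_left hF] }
      have h1 := LinearMap.finrank_range_add_finrank_ker φ
      have h2 := Submodule.finrank_le (LinearMap.range φ)
      rw [Module.finrank_prod, Module.finrank_self] at h2
      rw [Module.finrank_fin_fun] at h1
      obtain ⟨⟨u, hu⟩, hu0⟩ := Module.finrank_pos_iff_exists_ne_zero.mp (show 0 < Module.finrank F (LinearMap.ker φ) by omega)
      exact ⟨u, congrArg Prod.fst (LinearMap.mem_ker.mp hu), congrArg Prod.snd (LinearMap.mem_ker.mp hu), fun h => hu0 (Subtype.ext h)⟩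
    have hcoef : ∀ a b d : F, a • e + b • f + d • z = 0 → a = 0 ∧ b = 0 ∧ d = 0 := by
      intro a b d h
      have h1 := congrArg (fun u => hh u e) h
      have h2 := congrArg (fun u => hh u f) h
      simp only [hh_add_left hF, hh_smul_left hF, he, hf, hfe, hef, hze, hzf, hh_zero_left hF, mul_zero, mul_one, add_zero, zero_add] at h1 h2
      subst h1 h2
      rw [zero_smul, zero_smul, zero_add, zero_add] at h
      exact ⟨rfl, rfl, (smul_eq_zero.mp h).resolve_right hz0⟩
    have hf0 : f ≠ 0 := fun h => by rw [h, hh_zero_left hF] at hfe; exact zero_ne_one hfe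
    obtain ⟨a, ha, hJe⟩ := hJ e he he0
    obtain ⟨b, -, hJf⟩ := hJ f hf hf0
    have hba : b = -a := by
      have hv : hh (e + τ • f) (e + τ • f) = 0 := by
        simp only [hh_add_left hF, hh_add_right hF, hh_smul_left hF, hh_smul_right hF, he, hf, hfe, hef]
        linear_combination hτ
      obtain ⟨μ, -, hμ⟩ := hJ _ hv (fun h => one_ne_zero (hcoef 1 τ 0 (by rw [one_smul, zero_smul, add_zero]; exact h)).1)
      rw [hJadd, hJsmul, hJe, hJf] at hμ
      obtain ⟨h1, h2, -⟩ := hcoef (a - μ) (τ ^ q * b - μ * τ) 0 (by linear_combination (norm := module) hμ)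
      have h3 : τ * (b + a) = 0 := by linear_combination (-1 : F) * h2 + b * hτ + τ * h1
      exact eq_neg_of_add_eq_zero_left ((mul_eq_zero.mp h3).resolve_left hτ0)
    set r := -(hh z z * t) with hr'
    have hrr : r + r ^ q = -(hh z z) := by
      rw [hr', pow_neg_q hF, mul_pow, hh_self_fixed hF]; linear_combination (-(hh z z)) * ht
    have hez : hh e z = 0 := hh_comm_zero hF hze
    have hfz : hh f z = 0 := hh_comm_zero hF hzf
    have hθ : ∀ θ : F, θ * θ ^ q = 1 → ∃ μ : F, θ ^ q • J z = (μ - a) • e + (μ * r + a * r ^ q) • f + (μ * θ) • z := by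
      intro θ hθ
      have hv : hh (e + r • f + θ • z) (e + r • f + θ • z) = 0 := by
        simp only [hh_add_left hF, hh_add_right hF, hh_smul_left hF, hh_smul_right hF, he, hf, hfe, hef, hze, hzf, hez, hfz]
        linear_combination hrr + hh z z * hθ
      obtain ⟨μ, -, hμ⟩ := hJ _ hv (fun h => one_ne_zero (hcoef 1 r θ (by rw [one_smul]; exact h)).1)
      rw [hJadd, hJadd, hJsmul, hJsmul, hJe, hJf, hba] at hμ
      exact ⟨μ, by linear_combination (norm := module) hμ⟩
    obtain ⟨μ₁, hμ₁⟩ := hθ 1 (by simp)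
    rw [one_pow, one_smul, mul_one] at hμ₁
    have hall : ∀ θ : F, θ * θ ^ q = 1 → θ ≠ 1 → μ₁ = -(a * θ) := by
      intro θ hθ1 hne
      obtain ⟨μ, hμ⟩ := hθ θ hθ1
      rw [hμ₁] at hμ
      obtain ⟨h1, -, h3⟩ := hcoef (θ ^ q * (μ₁ - a) - (μ - a)) (θ ^ q * (μ₁ * r + a * r ^ q) - (μ * r + a * r ^ q))
        (θ ^ q * μ₁ - μ * θ) (by linear_combination (norm := module) hμ)
      have h4 : (μ₁ + a * θ) * (θ - 1) = 0 := by
        linear_combination θ * (θ * h1) - θ * h3 + (a * θ - θ * μ₁ + μ₁) * hθ1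
      exact eq_neg_of_add_eq_zero_left ((mul_eq_zero.mp h4).resolve_right (sub_ne_zero.mpr hne))
    obtain ⟨g, hg⟩ := IsCyclic.exists_generator (α := Fˣ)
    have hord : orderOf g = q ^ 2 - 1 := by
      rw [orderOf_eq_card_of_forall_mem_zpowers hg, Nat.card_units, Nat.card_eq_fintype_card, hF]
    have hq2 := two_le_q hF
    have hlt : 2 * (q - 1) < q ^ 2 - 1 := by
      have : q ^ 2 = q * q := pow_two q
      have : 2 * q ≤ q * q := Nat.mul_le_mul_right q hq2
      omega
    set θ := g ^ (q - 1) with hθdef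
    have hn1 : ((θ : Fˣ) : F) * ((θ : Fˣ) : F) ^ q = 1 := by
      rw [← Units.val_pow_eq_pow_val, ← Units.val_mul, hθdef, ← pow_mul, ← pow_add,
        show q - 1 + (q - 1) * q = q ^ 2 - 1 by
          obtain ⟨k, rfl⟩ : ∃ k, q = k + 1 := ⟨q - 1, by omega⟩
          rw [Nat.add_sub_cancel, show (k + 1) ^ 2 = k + k * (k + 1) + 1 by ring, Nat.add_sub_cancel],
        ← hord, pow_orderOf_eq_one, Units.val_one]
    have hne1 : ((θ : Fˣ) : F) ≠ 1 := fun h => by
      have h1 : g ^ (q - 1) = 1 := Units.ext h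
      have := Nat.le_of_dvd (by omega) (hord ▸ orderOf_dvd_of_pow_eq_one h1)
      omega
    have hne2 : ((θ : Fˣ) : F) * θ ≠ 1 := fun h => by
      have h1 : g ^ (q - 1 + (q - 1)) = 1 := by rw [pow_add]; exact Units.ext h
      have := Nat.le_of_dvd (by omega) (hord ▸ orderOf_dvd_of_pow_eq_one h1)
      omega
    have e1 := hall _ hn1 hne1
    have e2 := hall _ (by linear_combination (((θ : Fˣ) : F) * ((θ : Fˣ) : F) ^ q + 1) * hn1 + (0 : F) * hn1) hne2
    rw [e1] at e2
    exact hne1 (mul_left_cancel₀ (mul_ne_zero ha θ.ne_zero) (by linear_combination e2))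

theorem u_symp_proper (hF : Fintype.card F = q ^ 2) (hn : 5 ≤ n) {r : ℕ} {R : Subgroup (GL (Fin n) F)}
    (hst : IsSymplecticTypeGroup r R) (habs : ActsAbsolutelyIrreducibly (matrixSet R))
    (hc : Nat.card (Subgroup.center R) = r * Nat.gcd 2 r) : ¬ SUn ≤ subgroupNormalizer R := by
  intro hle
  classical
  haveI : Nonempty (Fin n) := ⟨⟨0, by omega⟩⟩
  have hfull := full_of_absIrred (by omega) habs
  have htw : ∀ a ∈ R, ∀ b ∈ R, ⁅a, b⁆ ∈ scalars (Fin n) F := fun a ha b hb =>
    (AschRel.center_iff hfull _).mp (center_twist hst hc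
      (Subgroup.commutator_mem_commutator (Subgroup.mem_top (⟨a, ha⟩ : R)) (Subgroup.mem_top (⟨b, hb⟩ : R))))
  obtain ⟨v, f, hv, -, hfv, -, hv0⟩ := exists_pair hF (n := n) (by omega)
  obtain ⟨c, hc0, hcc⟩ := exists_trace_zero hF
  set T := uT v c hv with hTdef
  suffices hcomm : ∀ x ∈ R, (T : Matrix (Fin n) (Fin n) F) * (x : Matrix (Fin n) (Fin n) F) =
      (x : Matrix (Fin n) (Fin n) F) * (T : Matrix (Fin n) (Fin n) F) by
    obtain ⟨l, hl⟩ := hfull.comm_scalar hcomm
    have h1 : (T : Matrix (Fin n) (Fin n) F) *ᵥ v = v := by rw [hTdef, uT_mulVec, hv, mul_zero, zero_smul, add_zero]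
    have h2 : (T : Matrix (Fin n) (Fin n) F) *ᵥ f = f + c • v := by rw [hTdef, uT_mulVec, hfv, mul_one]
    rw [hl, Matrix.smul_mulVec, Matrix.one_mulVec] at h1 h2
    have hl1 : l = 1 := smul_left_injective F hv0 (by show l • v = (1 : F) • v; rw [one_smul, h1])
    rw [hl1, one_smul, left_eq_add] at h2
    exact hv0 ((smul_eq_zero.mp h2).resolve_left hc0)
  intro x hx
  set y := T * x * T⁻¹ * x⁻¹ with hy
  have hyR : y ∈ R := mul_mem ((Subgroup.mem_normalizer_iff.mp (hle (uT_mem hF v c hv hcc)) x).mp hx) (inv_mem hx)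
  set w := uW (q := q) v
  set xi : Matrix (Fin n) (Fin n) F := ((x⁻¹ : GL (Fin n) F) : Matrix (Fin n) (Fin n) F)
  let φ : (Fin n → F) →ₗ[F] (F × F) :=
    { toFun := fun u => (w ⬝ᵥ u, w ⬝ᵥ (xi *ᵥ u))
      map_add' := fun a b => by simp [dotProduct_add, Matrix.mulVec_add]
      map_smul' := fun a b => by simp [dotProduct_smul, Matrix.mulVec_smul] }
  set U := LinearMap.ker φ
  have hUdim : n ≤ Module.finrank F U + 2 := by
    have h1 := LinearMap.finrank_range_add_finrank_ker φ
    have h2 := Submodule.finrank_le (LinearMap.range φ)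
    rw [Module.finrank_prod, Module.finrank_self] at h2
    rw [Module.finrank_fin_fun] at h1
    show n ≤ Module.finrank F (LinearMap.ker φ) + 2
    omega
  have hfix : ∀ u ∈ U, (y : Matrix (Fin n) (Fin n) F) *ᵥ u = u := by
    intro u hu
    have h1 : w ⬝ᵥ u = 0 := congrArg Prod.fst (LinearMap.mem_ker.mp hu)
    have h2 : w ⬝ᵥ (xi *ᵥ u) = 0 := congrArg Prod.snd (LinearMap.mem_ker.mp hu)
    have hT : ∀ z, w ⬝ᵥ z = 0 → (T : Matrix (Fin n) (Fin n) F) *ᵥ z = z := fun z hz => by
      rw [hTdef, uT_mulVec, ← uW_dot, hz, mul_zero, zero_smul, add_zero]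
    have hTi : ((T⁻¹ : GL (Fin n) F) : Matrix (Fin n) (Fin n) F) *ᵥ (xi *ᵥ u) = xi *ᵥ u := by
      conv_lhs => rw [← hT _ h2, Matrix.mulVec_mulVec, Units.inv_mul, Matrix.one_mulVec]
    rw [hy, Units.val_mul, Units.val_mul, Units.val_mul, ← Matrix.mulVec_mulVec, ← Matrix.mulVec_mulVec, hTi, ← Matrix.mulVec_mulVec,
      Matrix.mulVec_mulVec u (x : Matrix (Fin n) (Fin n) F) xi, Units.mul_inv, Matrix.one_mulVec, hT u h1]
  by_cases hys : y ∈ scalars (Fin n) F
  · obtain ⟨l, hl⟩ := (mem_scalars_iff y).mp hys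
    obtain ⟨u, hu, hu0⟩ := U.exists_mem_ne_zero_of_ne_bot fun h => by rw [h, finrank_bot] at hUdim; omega
    have h1 := hfix u hu
    rw [hl, Matrix.smul_mulVec, Matrix.one_mulVec] at h1
    have hl1 : (l : F) = 1 := smul_left_injective F hu0 (by show (l : F) • u = (1 : F) • u; rw [one_smul, h1])
    have hy1 : y = 1 := Units.ext (by rw [hl, hl1, one_smul, Units.val_one])
    have h2 : T * x = x * T := by
      calc T * x = y * x * T := by rw [hy]; group
        _ = x * T := by rw [hy1, one_mul]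
    exact congrArg Units.val h2
  · exfalso
    obtain ⟨g, hg, hgy⟩ : ∃ g ∈ R, g * y ≠ y * g := by
      by_contra hcon
      push_neg at hcon
      obtain ⟨l, hl⟩ := hfull.comm_scalar (M := (y : Matrix (Fin n) (Fin n) F)) fun g hg => by
        rw [← Units.val_mul, ← Units.val_mul, hcon g hg]
      exact hys ((mem_scalars_iff y).mpr ⟨Units.mk0 l fun h0 => y.ne_zero (by rw [hl, h0, zero_smul]), hl⟩)
    obtain ⟨s, hs⟩ := AschRel.exists_twist (htw y hyR g hg)
    have hs1 : (s : F) ≠ 1 := fun h => hgy (Units.ext (by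
      show (g : Matrix (Fin n) (Fin n) F) * (y : Matrix (Fin n) (Fin n) F) = (y : Matrix (Fin n) (Fin n) F) * (g : Matrix (Fin n) (Fin n) F)
      rw [hs, h, one_smul]))
    set gl := Matrix.toLin' (g : Matrix (Fin n) (Fin n) F)
    have hinj : Function.Injective gl := by
      intro a b hab
      have := congrArg (((g⁻¹ : GL (Fin n) F) : Matrix (Fin n) (Fin n) F) *ᵥ ·) hab
      simpa [gl, Matrix.toLin'_apply, Matrix.mulVec_mulVec] using this
    have hdis : Disjoint U (U.map gl) := by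
      rw [Submodule.disjoint_def]
      rintro a ha ⟨u, hu, rfl⟩
      have h1 := hfix _ ha
      rw [Matrix.toLin'_apply, Matrix.mulVec_mulVec, hs, Matrix.smul_mulVec, ← Matrix.mulVec_mulVec, hfix u hu] at h1
      have h2 : ((s : F) - 1) • ((g : Matrix (Fin n) (Fin n) F) *ᵥ u) = 0 := by rw [sub_smul, one_smul, h1, sub_self]
      exact (smul_eq_zero.mp h2).resolve_left (sub_ne_zero.mpr hs1)
    have h1 := Submodule.finrank_sup_add_finrank_inf_eq U (U.map gl)
    rw [hdis.eq_bot, finrank_bot, (Submodule.equivMapOfInjective gl hinj U).finrank_eq.symm] at h1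
    have h2 := Submodule.finrank_le (U ⊔ U.map gl)
    rw [Module.finrank_fin_fun] at h2
    omega

end Cfsg.Agent.GeomClasses.MaxList
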