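import Cfsg.Agent.GeomClasses.MaxList.U
import Cfsg.Agent.GeomClasses.Aschbacher.Rel.UMain

/-! # Tensor powers, symplectic-type data and exceptional fields in the unitary case -/

set_option autoImplicit false

namespace Cfsg.Agent.GeomClasses.MaxList

open Matrix Cfsg.Geo Cfsg.Agent.Forms Cfsg.Agent.GeomClasses.Unitary
open scoped MatrixGroups Kronecker commutatorElement

variable {F : Type*} [Field F] [Fintype F] {q n : ℕ}

local notation "hh" => Cfsg.hermForm n F q
local notation "SUn" => (Cfsg.GU n F q ⊓ specialLinear (Fin n) F)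

theorem u_wreath_proper (hF : Fintype.card F = q ^ 2) {m : ℕ} (hm : 3 ≤ m) (hn : 2 ≤ n)
    (e : Fin n ≃ (Fin 2 → Fin m)) (P : GL (Fin n) F) : ¬ SUn ≤ tensorWreathSubgroup m 2 e P := by
  intro hle
  classical
  obtain ⟨g, hg, x, y, hg1, -, hxy⟩ := u_tv_coord hF hn e P hle
  obtain ⟨σ, gs, hgs⟩ := wreath_mem hg
  haveI : Nontrivial (Fin m) := Fin.nontrivial_iff_two_le.mpr (by omega)
  set A : Matrix (Fin m) (Fin m) F := (gs 0 : Matrix (Fin m) (Fin m) F)
  set B : Matrix (Fin m) (Fin m) F := (gs 1 : Matrix (Fin m) (Fin m) F)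
  rcases (by decide : ∀ τ : Equiv.Perm (Fin 2), τ = 1 ∨ τ = Equiv.swap 0 1) σ with rfl | rfl
  · let E := piFinTwoEquiv (fun _ : Fin 2 => Fin m)
    have h1 : glReindex E g = 1 := by
      refine kron_rank_one (gs 0) (gs 1) ?_ (x := x ∘ E.symm) (y := y ∘ E.symm) ?_
      · ext ⟨i, k⟩ ⟨j, l⟩
        show (g : Matrix (Fin 2 → Fin m) (Fin 2 → Fin m) F) (E.symm (i, k)) (E.symm (j, l)) = _
        rw [hgs, Fin.prod_univ_two]
        rfl
      · ext a b
        show (g : Matrix (Fin 2 → Fin m) (Fin 2 → Fin m) F) (E.symm a) (E.symm b) = _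
        rw [hxy]
        simp [Matrix.add_apply, Matrix.one_apply, Matrix.vecMulVec_apply]
    exact hg1 ((glReindex E).injective (h1.trans (map_one _).symm))
  · let i₀ : Fin m := ⟨0, by omega⟩
    let i₁ : Fin m := ⟨1, by omega⟩
    let i₂ : Fin m := ⟨2, by omega⟩
    set Ai : Matrix (Fin m) (Fin m) F := (((gs 0)⁻¹ : GL (Fin m) F) : Matrix (Fin m) (Fin m) F)
    let w : Fin m → Fin m → F := fun i => Ai *ᵥ Pi.single i 1
    let v : Fin m → ((Fin 2 → Fin m) → F) := fun i z => (Pi.single i₀ (1 : F) : Fin m → F) (z 0) * w i (z 1)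
    have hAw : ∀ i, A *ᵥ w i = Pi.single i 1 := fun i => by
      show A *ᵥ (Ai *ᵥ _) = _
      rw [Matrix.mulVec_mulVec, Units.mul_inv, Matrix.one_mulVec]
    have hD : ∀ i a k, (g : Matrix (Fin 2 → Fin m) (Fin 2 → Fin m) F) *ᵥ v i = v i + (y ⬝ᵥ v i) • x ∧
        ((g : Matrix (Fin 2 → Fin m) (Fin 2 → Fin m) F) *ᵥ v i) ![a, k] = (Pi.single i (1 : F) : Fin m → F) a * B k i₀ := by
      intro i a k
      constructor
      · rw [hxy, Matrix.add_mulVec, Matrix.one_mulVec, Matrix.vecMulVec_mulVec, op_smul_eq_smul]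
      · rw [← hAw i]
        show ∑ z : Fin 2 → Fin m, _ * _ = (∑ l, A a l * w i l) * _
        rw [← Equiv.sum_comp (piFinTwoEquiv (fun _ : Fin 2 => Fin m)).symm, Fintype.sum_prod_type, Finset.sum_mul]
        rw [Finset.sum_eq_single i₀]
        · refine Finset.sum_congr rfl fun l _ => ?_
          rw [hgs, Fin.prod_univ_two]
          show A a l * B k i₀ * ((Pi.single i₀ (1 : F) : Fin m → F) i₀ * w i l) = _
          rw [Pi.single_eq_same]; ring
        · intro j _ hj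
          refine Finset.sum_eq_zero fun l _ => ?_
          show _ * ((Pi.single i₀ (1 : F) : Fin m → F) j * w i l) = 0
          rw [Pi.single_eq_of_ne hj, zero_mul, mul_zero]
        · simp
    have h12 : i₁ ≠ i₂ := by simp [i₁, i₂, Fin.ext_iff]
    have h10 : i₁ ≠ i₀ := by simp [i₁, i₀, Fin.ext_iff]
    have h20 : i₂ ≠ i₀ := by simp [i₂, i₀, Fin.ext_iff]
    have hval : ∀ i a k, a ≠ i₀ → (y ⬝ᵥ v i) * x ![a, k] = (Pi.single i (1 : F) : Fin m → F) a * B k i₀ := fun i a k ha => by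
      rw [← (hD i a k).2, (hD i a k).1]
      show _ = (Pi.single i₀ (1 : F) : Fin m → F) a * _ + _
      rw [Pi.single_eq_of_ne ha, zero_mul, zero_add]
      rfl
    obtain ⟨k, hk⟩ : ∃ k, B k i₀ ≠ 0 := by
      by_contra hcon
      push_neg at hcon
      exact ((Matrix.isUnit_iff_isUnit_det _).mp (gs 1).isUnit).ne_zero (Matrix.det_eq_zero_of_column_eq_zero i₀ hcon)
    have e21 := hval i₂ i₁ k h10
    have e11 := hval i₁ i₁ k h10
    have e22 := hval i₂ i₂ k h20
    rw [Pi.single_eq_of_ne h12, zero_mul] at e21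
    rw [Pi.single_eq_same, one_mul] at e11 e22
    rcases mul_eq_zero.mp e21 with h | h
    · rw [h, zero_mul] at e22; exact hk e22.symm
    · rw [h, mul_zero] at e11; exact hk e11.symm

theorem u_data {r k : ℕ} {R : Subgroup (GL (Fin n) F)} (hn : 3 ≤ n) (hst : IsSymplecticTypeGroup r R)
    (habs : ActsAbsolutelyIrreducibly (matrixSet R))
    (hc : Nat.card (Subgroup.center R) = r * Nat.gcd 2 r)
    (hR : Nat.card R = r * Nat.gcd 2 r * r ^ (2 * k)) : n = r ^ k := by
  classical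
  haveI : Nonempty (Fin n) := ⟨⟨0, by omega⟩⟩
  have hfull := full_of_absIrred (by omega) habs
  have htw : ∀ a ∈ R, ∀ b ∈ R, ⁅a, b⁆ ∈ scalars (Fin n) F := fun a ha b hb =>
    (AschRel.center_iff hfull _).mp (center_twist hst hc
      (Subgroup.commutator_mem_commutator (Subgroup.mem_top (⟨a, ha⟩ : R)) (Subgroup.mem_top (⟨b, hb⟩ : R))))
  obtain ⟨w, -, hcard, -⟩ := AschRel.full_basis hfull htw
  have hmul := Subgroup.card_eq_card_quotient_mul_card_subgroup (Subgroup.center R)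
  rw [hcard, hc, hR, Fintype.card_fin, mul_comm (n * n), two_mul, pow_add] at hmul
  exact (Nat.mul_self_inj.mp (Nat.eq_of_mul_eq_mul_left
    (Nat.mul_pos hst.prime.pos (Nat.gcd_pos_of_pos_left _ two_pos)) hmul)).symm

theorem minimal_half (hF : Fintype.card F = q ^ 2) {r p e : ℕ} (hr : r.Prime) (hrp : r ≠ p)
    (hm : IsMinimalFieldFor r p e F) :
    ∃ f, e = 2 * f ∧ 0 < f ∧ q = p ^ f ∧ e ∣ r - 1 ∧ p ^ e % r = 1 ∧ (∀ d, 0 < d → d < e → p ^ d % r ≠ 1) := by
  have hp := hm.1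
  have he := minimal_e_pos hm
  have hcard := hm.2.2.1
  rw [hF] at hcard
  obtain ⟨f, -, hq⟩ := (Nat.dvd_prime_pow hp).mp (hcard ▸ dvd_pow_self q two_ne_zero)
  have hef : f * 2 = e := by
    rw [hq, ← pow_mul] at hcard
    exact Nat.pow_right_injective hp.two_le hcard
  obtain ⟨h1, h2, -⟩ := minimal_odd hr hrp hm he
  refine ⟨f, by omega, by omega, hq, h1, h2, fun d hd0 hde h => hm.2.2.2.2 d hd0 hde ?_⟩
  haveI := Fact.mk hr
  rw [← ZMod.natCast_eq_zero_iff, Nat.cast_sub (Nat.one_le_pow _ _ hp.pos), sub_eq_zero, ← ZMod.natCast_mod (p ^ d) r, h]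

theorem u_field_small (hF : Fintype.card F = q ^ 2) {r p e : ℕ} (hrp : r ≠ p) (hm : IsMinimalFieldFor r p e F)
    (hr : r.Prime) :
    (r = 3 → q = p ∧ p % 3 = 2) ∧
    (r = 5 → (q = p ∧ p % 5 = 4) ∨ (q = p ^ 2 ∧ (p % 5 = 2 ∨ p % 5 = 3))) ∧
    (r = 7 → (q = p ∧ p % 7 = 6) ∨ (q = p ^ 3 ∧ (p % 7 = 3 ∨ p % 7 = 5))) ∧
    (r = 11 → (q = p ∧ p % 11 = 10) ∨ (q = p ^ 5 ∧ (p % 11 = 2 ∨ p % 11 = 6 ∨ p % 11 = 7 ∨ p % 11 = 8))) := by
  obtain ⟨f, hef, hf, hq, hd, hmod, hlt⟩ := minimal_half hF hr hrp hm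
  subst hef
  rw [Nat.pow_mod] at hmod
  have h1 := hlt 1 one_pos (by omega)
  rw [pow_one] at h1
  have hle := Nat.le_of_dvd (by have := hr.two_le; omega) hd
  have hlt' : ∀ d, 0 < d → d < 2 * f → (p % r) ^ d % r ≠ 1 := fun d h0 hd => by rw [← Nat.pow_mod]; exact hlt d h0 hd
  have hmlt := Nat.mod_lt p hr.pos
  refine ⟨?_, ?_, ?_, ?_⟩ <;> intro hr' <;> subst hr'
  · obtain rfl : f = 1 := by omega
    refine ⟨by rw [hq, pow_one], ?_⟩
    interval_cases hres : p % 3 <;> simp_all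
  · rcases (show f = 1 ∨ f = 2 by omega) with rfl | rfl
    · refine Or.inl ⟨by rw [hq, pow_one], ?_⟩
      interval_cases hres : p % 5 <;> simp_all
    · refine Or.inr ⟨hq, ?_⟩
      have h2 := hlt' 2 two_pos (by omega)
      interval_cases hres : p % 5 <;> simp_all
  · rcases (show f = 1 ∨ f = 3 by have : f ≤ 3 := (by omega); interval_cases f <;> omega) with rfl | rfl
    · refine Or.inl ⟨by rw [hq, pow_one], ?_⟩
      interval_cases hres : p % 7 <;> simp_all
    · refine Or.inr ⟨hq, ?_⟩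
      have h2 := hlt' 2 two_pos (by omega)
      have h3 := hlt' 3 (by omega) (by omega)
      interval_cases hres : p % 7 <;> simp_all
  · rcases (show f = 1 ∨ f = 5 by have : f ≤ 5 := (by omega); interval_cases f <;> omega) with rfl | rfl
    · refine Or.inl ⟨by rw [hq, pow_one], ?_⟩
      interval_cases hres : p % 11 <;> simp_all
    · refine Or.inr ⟨hq, ?_⟩
      have h2 := hlt' 2 two_pos (by omega)
      have h5 := hlt' 5 (by omega) (by omega)
      interval_cases hres : p % 11 <;> simp_all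

theorem u_field_two (hF : Fintype.card F = q ^ 2) {p : ℕ} (hm : IsMinimalFieldFor 4 p 2 F) : q = p ∧ p % 4 = 3 := by
  obtain ⟨hp, -, hc, hd, hlt⟩ := hm
  rw [hF] at hc
  have hq : q = p := Nat.pow_left_injective two_ne_zero hc
  refine ⟨hq, ?_⟩
  have h1 := hlt 1 one_pos (by norm_num)
  rw [pow_one] at h1
  have hp2 : p ≠ 2 := fun h => by subst h; norm_num at hd
  have := hp.eq_two_or_odd.resolve_left hp2
  omega

theorem le_GU_of_similar (hF : Fintype.card F = q ^ 2) (hn : 2 ≤ n) {r : ℕ} (hco : Nat.Coprime r (q - 1)) {R : Subgroup (GL (Fin n) F)}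
    (hsim : R ≤ similarityGroup hh) (hexp : Monoid.exponent R = r) : R ≤ Cfsg.GU n F q := by
  intro x hx
  obtain ⟨c, hc⟩ := hsim hx
  obtain ⟨u, -, huu⟩ := exists_unit hF (nonDeg_top (n := n) hF) (by
    intro h
    have := congrArg (fun W : Submodule F (Fin n → F) => Module.finrank F W) h
    simp only [finrank_top, finrank_bot, Module.finrank_fin_fun] at this
    omega)
  have hcq : (c : F) ^ q = c := by
    have h1 := hc u u
    rw [huu, mul_one] at h1
    rw [← h1, hh_self_fixed hF]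
  have hxr : x ^ r = 1 := by
    have := congrArg Subtype.val (Monoid.pow_exponent_eq_one (⟨x, hx⟩ : R))
    rwa [hexp] at this
  have hpow : ∀ (j : ℕ), hh ((x : Matrix (Fin n) (Fin n) F) ^ j *ᵥ u) ((x : Matrix (Fin n) (Fin n) F) ^ j *ᵥ u) = (c : F) ^ j := by
    intro j
    induction j with
    | zero => simp [huu]
    | succ j ih => rw [pow_succ', ← Matrix.mulVec_mulVec, hc, ih, pow_succ']
  have hcr : c ^ r = 1 := Units.ext (by
    have h1 := hpow r
    rw [← Units.val_pow_eq_pow_val, hxr, Units.val_one, Matrix.one_mulVec, huu] at h1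
    rw [Units.val_pow_eq_pow_val, ← h1, Units.val_one])
  have hcq1 : c ^ (q - 1) = 1 := by
    have h1 : c ^ (q - 1) * c = c := by
      rw [← pow_succ, Nat.sub_add_cancel (by have := two_le_q hF; omega)]
      exact Units.ext (by rw [Units.val_pow_eq_pow_val]; exact hcq)
    exact mul_eq_right.mp h1
  have hc1 : c = 1 := by
    have h1 := pow_gcd_eq_one.mpr ⟨hcr, hcq1⟩
    rwa [Nat.Coprime.gcd_eq_one hco, pow_one] at h1
  exact mem_GU_iff.mpr fun a b => by rw [hc, hc1, Units.val_one, one_mul]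

theorem line_decomp (hF : Fintype.card F = q ^ 2) (hn : 2 ≤ n) {w : Fin n → (Fin n → F)}
    (hw : ∀ i j, hh (w i) (w j) = if i = j then 1 else 0) :
    IsNondegenerateMDecomposition hh 1 fun i => Submodule.span F {w i} := by
  classical
  have hli : LinearIndependent F w := by
    rw [Fintype.linearIndependent_iff]
    intro c hc i
    have h := congrArg (fun x => hh x (w i)) hc
    rw [hh_zero_left hF] at h
    rw [← h]
    show _ = Cfsg.Agent.Forms.hermB n hF (w i) (∑ j, c j • w j)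
    rw [map_sum, Finset.sum_eq_single i]
    · rw [map_smul, smul_eq_mul]
      show c i = c i * hh (w i) (w i)
      rw [hw, if_pos rfl, mul_one]
    · intro j _ hj
      rw [map_smul, smul_eq_mul]
      show c j * hh (w j) (w i) = 0
      rw [hw, if_neg hj, mul_zero]
    · simp
  haveI : Nonempty (Fin n) := ⟨⟨0, by omega⟩⟩
  let b := basisOfLinearIndependentOfCardEqFinrank hli (by rw [Fintype.card_fin, Module.finrank_fin_fun])
  have hb : ⇑b = w := coe_basisOfLinearIndependentOfCardEqFinrank _ _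
  refine ⟨⟨hn, one_pos, fun i => finrank_span_singleton (hli.ne_zero i), hli.iSupIndep_span_singleton, ?_⟩, fun i x hx hx0 => ?_, fun i j hij x hx y hy => ?_⟩
  · rw [← Submodule.span_range_eq_iSup, ← hb, b.span_eq]
  · obtain ⟨c, rfl⟩ := Submodule.mem_span_singleton.mp hx
    have hc : c ≠ 0 := fun h => hx0 (by rw [h, zero_smul])
    have hcq : c ^ q ≠ 0 := pow_ne_zero _ hc
    exact ⟨⟨w i, Submodule.mem_span_singleton_self _, by rw [hh_smul_right hF, hw, if_pos rfl, mul_one]; exact hcq⟩,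
      ⟨w i, Submodule.mem_span_singleton_self _, by rw [hh_smul_left hF, hw, if_pos rfl, mul_one]; exact hc⟩⟩
  · obtain ⟨c, rfl⟩ := Submodule.mem_span_singleton.mp hx
    obtain ⟨d, rfl⟩ := Submodule.mem_span_singleton.mp hy
    rw [hh_smul_left hF, hh_smul_right hF, hw, if_neg hij, mul_zero, mul_zero]

theorem norm_two (hF : Fintype.card F = 2 ^ 2) {a : F} (ha : a ≠ 0) : a * a ^ 2 = 1 := by
  have h := FiniteField.pow_card_sub_one_eq_one a ha
  rw [hF] at h
  linear_combination h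

theorem two_zero_four (hF : Fintype.card F = 2 ^ 2) : (1 : F) + 1 = 0 := by
  obtain ⟨t, ht⟩ := exists_trace_zero hF
  have h := norm_two hF ht.1
  have hh2 : t ^ 2 = -t := by linear_combination ht.2
  have h3 : (1 : F) * 1 ^ 2 = 1 := by ring
  obtain ⟨p, hp⟩ := CharP.exists F
  haveI := hp
  obtain ⟨e, hpp, hcard⟩ := FiniteField.card F p
  have hd : p ∣ 2 ^ 2 := by
    rw [show (2 : ℕ) ^ 2 = p ^ (e : ℕ) by rw [← hcard, hF]]; exact dvd_pow_self p e.pos.ne'
  have hp2 : p = 2 := (Nat.prime_dvd_prime_iff_eq hpp Nat.prime_two).mp (hpp.dvd_of_dvd_pow hd)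
  subst hp2
  rw [one_add_one_eq_two]
  exact_mod_cast CharP.cast_eq_zero F 2

/-- Decompositions into planes over the field with four elements refine to frames. -/
theorem u_planes_two (hF : Fintype.card F = q ^ 2) (hq : q = 2) (hn : 4 ≤ n) {H : Subgroup (GL (Fin n) F)}
    (hH : IsMaximalIn SUn H) {t : ℕ} {D : Fin t → Submodule F (Fin n → F)}
    (hD : IsNondegenerateMDecomposition hh 2 D) (hle : H ≤ decompositionStabilizer D) :
    ∃ D' : Fin n → Submodule F (Fin n → F), IsNondegenerateMDecomposition hh 1 D' ∧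
      H = decompositionStabilizer D' ⊓ SUn := by
  classical
  have hF4 : Fintype.card F = 2 ^ 2 := hq ▸ hF
  have hpick : ∀ a, ∃ u ∈ D a, ∃ u' ∈ D a, hh u u = 1 ∧ hh u' u' = 1 ∧ hh u u' = 0 ∧ hh u' u = 0 := by
    intro a
    have hN := nonDeg_of_on hF (hD.nondegenerate a)
    obtain ⟨u, hu, huu⟩ := exists_unit hF hN (fun h => by
      have := hD.decomp.finrank_eq a
      rw [h, finrank_bot] at this; omega)
    obtain ⟨d, hd, hdu, hdd⟩ := exists_aniso_perp hF hN hu
      (Or.inr ⟨by rw [hD.decomp.finrank_eq a], by rw [huu]; exact one_ne_zero⟩)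
    obtain ⟨r, hr⟩ := exists_norm hF (hh d d)⁻¹ (by rw [inv_pow, hh_self_fixed hF])
    refine ⟨u, hu, r • d, (D a).smul_mem r hd, huu, ?_, ?_, ?_⟩
    · rw [hh_smul_left hF, hh_smul_right hF, ← mul_assoc, hr, inv_mul_cancel₀ hdd]
    · rw [hh_smul_right hF, hh_comm_zero hF hdu, mul_zero]
    · rw [hh_smul_left hF, hdu, mul_zero]
  choose u hu u' hu' huu huu' huv hvu using hpick
  let pk : Fin t × Fin 2 → (Fin n → F) := fun z => if z.2 = 0 then u z.1 else u' z.1
  have hpk : ∀ z z', hh (pk z) (pk z') = if z = z' then 1 else 0 := by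
    rintro ⟨a, j⟩ ⟨a', j'⟩
    by_cases ha : a = a'
    · subst ha
      fin_cases j <;> fin_cases j' <;> simp [pk, huu, huu', huv, hvu]
    · rw [if_neg (fun h => ha (congrArg Prod.fst h))]
      refine hD.orthogonal a a' ha _ ?_ _ ?_ <;> simp only [pk] <;> split_ifs <;> first | exact hu _ | exact hu' _
  let E : Fin t × Fin 2 ≃ Fin n := finProdFinEquiv.trans (finCongr (card_decomp hD.decomp))
  have hw : ∀ i j, hh (pk (E.symm i)) (pk (E.symm j)) = if i = j then 1 else 0 := fun i j => by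
    rw [hpk]; simp
  have hD' := line_decomp hF (by omega) hw
  refine ⟨_, hD', eq_of_le hH (fun g hg => ?_) (u_monomial_proper hF (by omega) (by omega) hD')⟩
  refine mem_decomp_of_forall hD'.decomp fun i => ?_
  obtain ⟨σ, hσ⟩ := hle hg
  set a := (E.symm i).1
  set a' := σ a
  set v := (g : Matrix (Fin n) (Fin n) F) *ᵥ pk (E.symm i)
  have hmemD : pk (E.symm i) ∈ D a := by
    simp only [pk]; split_ifs <;> first | exact hu _ | exact hu' _
  have hv : v ∈ D a' := by
    show v ∈ D (σ a)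
    rw [← hσ a]
    exact ⟨_, hmemD, Matrix.toLin'_apply _ _⟩
  have hvv : hh v v = 1 := by
    rw [mem_GU_iff.mp (hH.1.le hg).1, hw, if_pos rfl]
  set α := hh v (u a')
  set β := hh v (u' a')
  have hexp : v = α • u a' + β • u' a' := by
    rw [← sub_eq_zero]
    refine nonDeg_of_on hF (hD.nondegenerate a') _ (sub_mem hv (add_mem ((D a').smul_mem _ (hu a')) ((D a').smul_mem _ (hu' a')))) fun z hz => ?_
    have hsp : D a' ≤ Submodule.span F {u a', u' a'} := by
      refine le_of_eq (Submodule.eq_of_le_of_finrank_le ?_ ?_).symm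
      · rw [Submodule.span_le]; rintro z (rfl | rfl) <;> first | exact hu a' | exact hu' a'
      · rw [hD.decomp.finrank_eq a']
        have hli : LinearIndependent F ![u a', u' a'] := by
          rw [LinearIndependent.pair_iff]
          intro s r h
          have h1 := congrArg (fun x => hh x (u a')) h
          have h2 := congrArg (fun x => hh x (u' a')) h
          simp only [hh_add_left hF, hh_smul_left hF, huu, huu', huv, hvu, hh_zero_left hF, mul_zero, mul_one, add_zero, zero_add] at h1 h2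
          exact ⟨h1, h2⟩
        have h5 := finrank_span_eq_card hli
        rw [Matrix.range_cons_cons_empty, Fintype.card_fin] at h5
        rw [h5]
    obtain ⟨s, r, rfl⟩ := Submodule.mem_span_pair.mp (hsp hz)
    simp only [hh_sub_left hF, hh_add_left hF, hh_add_right hF, hh_smul_left hF, hh_smul_right hF, huu, huu', huv, hvu,
      mul_zero, mul_one, add_zero, zero_add]
    ring
  have hno : ¬ (α ≠ 0 ∧ β ≠ 0) := by
    rintro ⟨ha, hb⟩
    have h1 := hvv
    rw [hexp] at h1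
    simp only [hh_add_left hF, hh_add_right hF, hh_smul_left hF, hh_smul_right hF, huu, huu', huv, hvu,
      mul_zero, mul_one, add_zero, zero_add] at h1
    rw [hq, norm_two hF4 ha, norm_two hF4 hb, two_zero_four hF4] at h1
    exact zero_ne_one h1
  by_cases hα : α = 0
  · refine ⟨E (a', 1), fun x hx => ?_⟩
    obtain ⟨c, rfl⟩ := Submodule.mem_span_singleton.mp hx
    rw [Matrix.mulVec_smul]
    refine Submodule.smul_mem _ c (Submodule.mem_span_singleton.mpr ⟨β, ?_⟩)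
    show β • pk (E.symm (E (a', 1))) = v
    rw [hexp, hα, zero_smul, zero_add]; simp [pk]
  · refine ⟨E (a', 0), fun x hx => ?_⟩
    obtain ⟨c, rfl⟩ := Submodule.mem_span_singleton.mp hx
    rw [Matrix.mulVec_smul]
    refine Submodule.smul_mem _ c (Submodule.mem_span_singleton.mpr ⟨α, ?_⟩)
    show α • pk (E.symm (E (a', 0))) = v
    rw [hexp, not_not.mp (fun hb => hno ⟨hα, hb⟩), zero_smul, add_zero]; simp [pk]

theorem pow_form_right (hF : Fintype.card F = q ^ 2) {d : ℕ} {f : (Fin d → F) → (Fin d → F) → F}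
    (hf : IsUnitaryFormPow q f) :
    (∀ x v w, f x (v + w) = f x v + f x w) ∧ (∀ (c : F) x v, f x (c • v) = c ^ q * f x v) :=
  ⟨fun x v w => by rw [hf.herm, hf.add_left, pow_add_q hF, ← hf.herm, ← hf.herm],
    fun c x v => by rw [hf.herm, hf.smul_left, mul_pow, ← hf.herm]⟩

theorem pow_form_gram (hF : Fintype.card F = q ^ 2) {d : ℕ} {f : (Fin d → F) → (Fin d → F) → F}
    (hf : IsUnitaryFormPow q f) (x y : Fin d → F) : f x y = ∑ i, ∑ j, x i * gramMatrix f i j * y j ^ q := by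
  obtain ⟨hadd, hsmul⟩ := pow_form_right hF hf
  have hL : ∀ v, f x v = ∑ i, x i * f (Pi.single i 1) v := fun v => by
    let φ : (Fin d → F) →ₗ[F] F :=
      { toFun := fun u => f u v, map_add' := fun a b => hf.add_left a b v, map_smul' := fun c a => hf.smul_left c a v }
    show φ x = _
    conv_lhs => rw [pi_eq_sum_univ' x, map_sum]
    exact Finset.sum_congr rfl fun i _ => by rw [map_smul]; rfl
  have hR : ∀ i, f (Pi.single i 1) y = ∑ j, gramMatrix f i j * y j ^ q := fun i => by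
    rw [hf.herm]
    let φ : (Fin d → F) →ₗ[F] F :=
      { toFun := fun u => f u (Pi.single i 1), map_add' := fun a b => hf.add_left a b _, map_smul' := fun c a => hf.smul_left c a _ }
    show (φ y) ^ q = _
    conv_lhs => rw [pi_eq_sum_univ' y, map_sum]
    show (Cfsg.Agent.Forms.frobQ hF) (∑ j, φ (y j • Pi.single j 1)) = _
    rw [map_sum]
    refine Finset.sum_congr rfl fun j _ => ?_
    rw [map_smul, smul_eq_mul]
    show (y j * f (Pi.single j 1) (Pi.single i 1)) ^ q = _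
    rw [mul_pow, ← hf.herm, mul_comm]; rfl
  rw [hL]
  refine Finset.sum_congr rfl fun i _ => ?_
  rw [hR, Finset.mul_sum]
  exact Finset.sum_congr rfl fun j _ => by ring

/-- A tensor factor of degree two over the field with four elements splits the space in halves. -/
theorem u_tensor_two (hF : Fintype.card F = q ^ 2) (hq : q = 2) (hn : 4 ≤ n) {H : Subgroup (GL (Fin n) F)}
    (hH : IsMaximalIn SUn H) {n₂ : ℕ} (h2 : 2 ≤ n₂) (e : Fin n ≃ Fin 2 × Fin n₂) (P : GL (Fin n) F)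
    (f₁ : (Fin 2 → F) → (Fin 2 → F) → F) (f₂ : (Fin n₂ → F) → (Fin n₂ → F) → F)
    (hf₁ : IsUnitaryFormPow q f₁) (hf₂ : IsUnitaryFormPow q f₂)
    (hs : IsTensorFormStructure (fun x : F => x ^ q) hh f₁ f₂ e P) (hle : H ≤ tensorProductSubgroup 2 n₂ e P) :
    ∃ D : Fin 2 → Submodule F (Fin n → F), IsNondegenerateMDecomposition hh n₂ D ∧
      H = decompositionStabilizer D ⊓ SUn := by
  classical
  have hF4 : Fintype.card F = 2 ^ 2 := hq ▸ hF
  obtain ⟨hr1, hr2⟩ := pow_form_right hF hf₁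
  have h1L : ∀ v, f₁ 0 v = 0 := fun v => by
    have h := hf₁.smul_left 0 0 v
    rwa [zero_smul, zero_mul] at h
  obtain ⟨u, huu⟩ : ∃ u, f₁ u u ≠ 0 := by
    by_contra hcon
    push_neg at hcon
    obtain ⟨a, ha⟩ := exists_not_fixed hF
    obtain ⟨y, hy⟩ := (hf₁.nondegenerate (Pi.single 0 1) (fun h => by simpa using congrFun h 0)).2
    set v := (Pi.single 0 1 : Fin 2 → F)
    have e1 := hcon (v + y)
    rw [hf₁.add_left, hr1, hr1, hcon, hcon, zero_add, add_zero] at e1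
    have e2 := hcon (a • v + y)
    rw [hf₁.add_left, hr1, hr1, hcon, hcon, zero_add, add_zero, hf₁.smul_left, hr2] at e2
    have e3 : (a - a ^ q) * f₁ v y = 0 := by linear_combination e2 - a ^ q * e1
    exact hy ((mul_eq_zero.mp e3).resolve_left (sub_ne_zero.mpr ha.symm))
  let φ : (Fin 2 → F) →ₗ[F] F :=
    { toFun := fun z => f₁ z u, map_add' := fun a b => hf₁.add_left a b u, map_smul' := fun c a => hf₁.smul_left c a u }
  obtain ⟨⟨u', hu'k⟩, hu'0⟩ := Module.finrank_pos_iff_exists_ne_zero.mp (show 0 < Module.finrank F (LinearMap.ker φ) by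
    have h1 := LinearMap.finrank_range_add_finrank_ker φ
    have h3 := Submodule.finrank_le (LinearMap.range φ)
    rw [Module.finrank_self] at h3
    rw [Module.finrank_fin_fun] at h1
    omega)
  have hu'u : f₁ u' u = 0 := hu'k
  have huu'' : f₁ u u' = 0 := by rw [hf₁.herm, hu'u, zero_pow_q hF]
  have hu'n : u' ≠ 0 := fun h => hu'0 (Subtype.ext h)
  have hli : LinearIndependent F ![u, u'] := by
    rw [LinearIndependent.pair_iff]
    intro s r h
    have h1 : f₁ (s • u + r • u') u = 0 := by rw [h]; exact h1L u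
    rw [hf₁.add_left, hf₁.smul_left, hf₁.smul_left, hu'u, mul_zero, add_zero] at h1
    have hs0 := (mul_eq_zero.mp h1).resolve_right huu
    rw [hs0, zero_smul, zero_add] at h
    exact ⟨hs0, (smul_eq_zero.mp h).resolve_right hu'n⟩
  let bb := basisOfLinearIndependentOfCardEqFinrank hli (by simp)
  have hbb : ⇑bb = ![u, u'] := coe_basisOfLinearIndependentOfCardEqFinrank _ _
  have hspan : ∀ z, z = bb.repr z 0 • u + bb.repr z 1 • u' := fun z => by
    conv_lhs => rw [← bb.sum_repr z, Fin.sum_univ_two, hbb]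
    rfl
  have hu'u' : f₁ u' u' ≠ 0 := fun h0 => by
    obtain ⟨z, hz⟩ := (hf₁.nondegenerate u' hu'n).1
    rw [hspan z, hf₁.add_left, hf₁.smul_left, hf₁.smul_left, h0, huu'', mul_zero, mul_zero, add_zero] at hz
    exact hz rfl
  have hfix : ∀ z, f₁ z z ≠ 0 → f₁ z z = 1 := fun z hz => by
    have h1 : f₁ z z = (f₁ z z) ^ 2 := by
      conv_lhs => rw [hf₁.herm z z, hq]
    exact mul_left_cancel₀ hz (by rw [mul_one, ← pow_two, ← h1])
  let uu : Fin 2 → (Fin 2 → F) := ![u, u']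
  have huu2 : ∀ i j, f₁ (uu i) (uu j) = if i = j then 1 else 0 := fun i j => by
    fin_cases i <;> fin_cases j <;> simp [uu, hfix _ huu, hfix _ hu'u', hu'u, huu'']
  obtain ⟨c, hc, hs⟩ := hs
  let ψ : Fin 2 → ((Fin n₂ → F) →ₗ[F] (Fin n → F)) := fun i =>
    { toFun := fun w => (P : Matrix (Fin n) (Fin n) F) *ᵥ ((fun z : Fin 2 × Fin n₂ => uu i z.1 * w z.2) ∘ e)
      map_add' := fun a b => by
        rw [← Matrix.mulVec_add]; congr 1; funext k; simp [mul_add]
      map_smul' := fun s a => by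
        rw [← Matrix.mulVec_smul]; congr 1; funext k; simp; ring }
  have hprod : ∀ (x1 y1 : Fin 2 → F) (x2 y2 : Fin n₂ → F),
      hh ((P : Matrix (Fin n) (Fin n) F) *ᵥ ((fun z : Fin 2 × Fin n₂ => x1 z.1 * x2 z.2) ∘ e))
        ((P : Matrix (Fin n) (Fin n) F) *ᵥ ((fun z : Fin 2 × Fin n₂ => y1 z.1 * y2 z.2) ∘ e)) =
        c * (f₁ x1 y1 * f₂ x2 y2) := by
    intro x1 y1 x2 y2
    rw [hs, pow_form_gram hF hf₁, pow_form_gram hF hf₂]
    congr 1
    rw [formOfGram, Fintype.sum_prod_type, Finset.sum_mul_sum]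
    refine Finset.sum_congr rfl fun i _ => Finset.sum_congr rfl fun k _ => ?_
    rw [Fintype.sum_prod_type, Finset.sum_mul_sum]
    refine Finset.sum_congr rfl fun j _ => Finset.sum_congr rfl fun l _ => ?_
    simp only [Matrix.kroneckerMap_apply]
    ring
  have hψf : ∀ i j w w', hh (ψ i w) (ψ j w') = c * ((if i = j then 1 else 0) * f₂ w w') := fun i j w w' => by
    rw [← huu2]; exact hprod _ _ _ _
  have hψinj : ∀ i, Function.Injective (ψ i) := fun i w w' h => by
    by_contra hne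
    obtain ⟨z, hz⟩ := (hf₂.nondegenerate (w - w') (sub_ne_zero.mpr hne)).2
    have h1 := hψf i i (w - w') z
    rw [map_sub, h, sub_self, hh_zero_left hF, if_pos rfl, one_mul] at h1
    exact hz ((mul_eq_zero.mp h1.symm).resolve_left hc)
  let D : Fin 2 → Submodule F (Fin n → F) := fun i => LinearMap.range (ψ i)
  have hfr : ∀ i, Module.finrank F (D i) = n₂ := fun i => by
    rw [LinearMap.finrank_range_of_inj (hψinj i), Module.finrank_fin_fun]
  have horth : ∀ i j, i ≠ j → AreOrthogonalFor hh (D i) (D j) := by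
    rintro i j hij _ ⟨w, rfl⟩ _ ⟨w', rfl⟩
    rw [hψf, if_neg hij, zero_mul, mul_zero]
  have hnd : ∀ i, IsNondegenerateOn hh (D i) := by
    rintro i _ ⟨w, rfl⟩ hw0
    have hwne : w ≠ 0 := fun h => hw0 (by rw [h, map_zero])
    obtain ⟨⟨a, ha⟩, ⟨b, hb⟩⟩ := hf₂.nondegenerate w hwne
    refine ⟨⟨ψ i a, ⟨a, rfl⟩, ?_⟩, ⟨ψ i b, ⟨b, rfl⟩, ?_⟩⟩ <;>
      rw [hψf, if_pos rfl, one_mul] <;> exact mul_ne_zero hc (by assumption)
  have hdis : Disjoint (D 0) (D 1) := by
    rw [Submodule.disjoint_def]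
    intro z hz0 hz1
    refine nonDeg_of_on hF (hnd 0) z hz0 fun y hy => ?_
    exact hh_comm_zero hF (horth 0 1 (by decide) y hy z hz1)
  have hnn : n = 2 * n₂ := by simpa using Fintype.card_congr e
  have hDd : IsMDecomposition n₂ D := by
    refine ⟨le_rfl, by omega, hfr, ?_, ?_⟩
    · rw [iSupIndep_def]
      intro i
      fin_cases i
      · exact hdis.mono_right (iSup₂_le fun j hj => by fin_cases j; exacts [absurd rfl hj, le_rfl])
      · exact hdis.symm.mono_right (iSup₂_le fun j hj => by fin_cases j; exacts [le_rfl, absurd rfl hj])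
    · refine Submodule.eq_top_of_finrank_eq ?_
      have hsup : (⨆ i, D i) = D 0 ⊔ D 1 :=
        le_antisymm (iSup_le fun i => by fin_cases i; exacts [le_sup_left, le_sup_right]) (sup_le (le_iSup D 0) (le_iSup D 1))
      have h5 := Submodule.finrank_sup_add_finrank_inf_eq (D 0) (D 1)
      rw [hdis.eq_bot, finrank_bot, hfr, hfr] at h5
      rw [hsup, Module.finrank_fin_fun]
      omega
  have hD : IsNondegenerateMDecomposition hh n₂ D := ⟨hDd, hnd, horth⟩
  refine ⟨D, hD, eq_of_le hH (fun g hg => ?_) (u_blocks_proper hF (by omega) hDd h2 fun i => Or.inr (hnd i))⟩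
  refine mem_decomp_of_forall hDd fun i => ?_
  obtain ⟨_, ⟨y, ⟨a, b, hab⟩, rfl⟩, hgy⟩ := hle hg
  have hgact : ∀ (z1 : Fin 2 → F) (z2 : Fin n₂ → F),
      (g : Matrix (Fin n) (Fin n) F) *ᵥ ((P : Matrix (Fin n) (Fin n) F) *ᵥ ((fun z : Fin 2 × Fin n₂ => z1 z.1 * z2 z.2) ∘ e)) =
        (P : Matrix (Fin n) (Fin n) F) *ᵥ ((fun z : Fin 2 × Fin n₂ => ((a : Matrix (Fin 2) (Fin 2) F) *ᵥ z1) z.1 *
          ((b : Matrix (Fin n₂) (Fin n₂) F) *ᵥ z2) z.2) ∘ e) := by
    intro z1 z2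
    have hgv : (g : Matrix (Fin n) (Fin n) F) = (P : Matrix (Fin n) (Fin n) F) *
        Matrix.reindexAlgEquiv F F e.symm (y : Matrix (Fin 2 × Fin n₂) (Fin 2 × Fin n₂) F) *
        ((P⁻¹ : GL (Fin n) F) : Matrix (Fin n) (Fin n) F) := (congrArg Units.val hgy).symm
    rw [hgv, Matrix.mulVec_mulVec, mul_assoc, Units.inv_mul, mul_one, ← Matrix.mulVec_mulVec]
    congr 1
    funext k
    simp only [Matrix.mulVec, dotProduct, Matrix.reindexAlgEquiv_apply, Matrix.reindex_apply, Matrix.submatrix_apply, Function.comp_apply,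
      Equiv.symm_symm]
    rw [Equiv.sum_comp e (fun z => (y : Matrix (Fin 2 × Fin n₂) (Fin 2 × Fin n₂) F) (e k) z * (z1 z.1 * z2 z.2)), hab,
      Fintype.sum_prod_type, Finset.sum_mul_sum]
    refine Finset.sum_congr rfl fun p _ => Finset.sum_congr rfl fun s _ => ?_
    rw [Matrix.kroneckerMap_apply]; ring
  set z := (a : Matrix (Fin 2) (Fin 2) F) *ᵥ uu i with hz
  have hzz : f₁ z z ≠ 0 := by
    intro h0
    obtain ⟨wv, hwv⟩ : ∃ wv : Fin n₂ → F, wv ≠ 0 := ⟨Pi.single ⟨0, by omega⟩ 1, fun h => by simpa using congrFun h ⟨0, by omega⟩⟩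
    obtain ⟨w', hw'⟩ := (hf₂.nondegenerate wv hwv).2
    have h1 := mem_GU_iff.mp (hH.1.le hg).1 (ψ i wv) (ψ i w')
    rw [hψf, if_pos rfl, one_mul] at h1
    change hh ((g : Matrix (Fin n) (Fin n) F) *ᵥ ((P : Matrix (Fin n) (Fin n) F) *ᵥ _)) ((g : Matrix (Fin n) (Fin n) F) *ᵥ ((P : Matrix (Fin n) (Fin n) F) *ᵥ _)) = _ at h1
    rw [hgact, hgact, hprod, h0, zero_mul, mul_zero] at h1
    exact mul_ne_zero hc hw' h1.symm
  set α := bb.repr z 0
  set β := bb.repr z 1
  have hzab : z = α • u + β • u' := hspan z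
  have hno : ¬ (α ≠ 0 ∧ β ≠ 0) := by
    rintro ⟨hα, hβ⟩
    apply hzz
    rw [hzab]
    simp only [hf₁.add_left, hf₁.smul_left, hr1, hr2, huu'', hu'u, hfix _ huu, hfix _ hu'u', mul_zero, mul_one, add_zero, zero_add]
    rw [hq, norm_two hF4 hα, norm_two hF4 hβ, two_zero_four hF4]
  obtain ⟨k, s, hks⟩ : ∃ (k : Fin 2) (s : F), z = s • uu k := by
    by_cases hα : α = 0
    · exact ⟨1, β, by rw [hzab, hα, zero_smul, zero_add]; rfl⟩
    · exact ⟨0, α, by rw [hzab, not_not.mp (fun hb => hno ⟨hα, hb⟩), zero_smul, add_zero]; rfl⟩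
  refine ⟨k, ?_⟩
  rintro _ ⟨w, rfl⟩
  refine ⟨s • ((b : Matrix (Fin n₂) (Fin n₂) F) *ᵥ w), ?_⟩
  show (P : Matrix (Fin n) (Fin n) F) *ᵥ _ = (g : Matrix (Fin n) (Fin n) F) *ᵥ ((P : Matrix (Fin n) (Fin n) F) *ᵥ _)
  rw [hgact, ← hz, hks]
  congr 1; funext l
  simp only [Function.comp_apply, Pi.smul_apply, smul_eq_mul]
  ring

/-- The kinds of maximal subgroups of the special unitary group in dimension at least five. -/
theorem u_cases (hF : Fintype.card F = q ^ 2) (hn : 5 ≤ n) (H : Subgroup (GL (Fin n) F)) (hH : IsMaximalIn SUn H) :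
    (∃ W : Submodule F (Fin n → F), W ≠ ⊥ ∧ IsTotallySingularFor hh W ∧ H = subspaceStabilizer W ⊓ SUn) ∨
    (∃ W : Submodule F (Fin n → F), W ≠ ⊥ ∧ IsNondegenerateOn hh W ∧ 2 * Module.finrank F W < n ∧
      H = subspaceStabilizer W ⊓ SUn) ∨
    (∃ (t m : ℕ) (D : Fin t → Submodule F (Fin n → F)), IsNondegenerateMDecomposition hh m D ∧ t * m = n ∧
      H = decompositionStabilizer D ⊓ SUn) ∨
    (∃ (k : ℕ) (D : Fin 2 → Submodule F (Fin n → F)), 2 * k = n ∧ IsMDecomposition k D ∧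
      (∀ i, IsTotallySingularFor hh (D i)) ∧ H = decompositionStabilizer D ⊓ SUn) ∨
    (∃ (r : ℕ) (K : Subalgebra F (Matrix (Fin n) (Fin n) F)), r.Prime ∧ Odd r ∧ r ∣ n ∧ IsFieldSubalgebra r K ∧
      IsAdjointClosedFor hh K ∧ H = subalgebraNormalizer K ⊓ SUn) ∨
    (∃ (n₁ n₂ : ℕ) (e : Fin n ≃ Fin n₁ × Fin n₂) (P : GL (Fin n) F)
      (f₁ : (Fin n₁ → F) → (Fin n₁ → F) → F) (f₂ : (Fin n₂ → F) → (Fin n₂ → F) → F),
      2 ≤ n₁ ∧ n₁ < n₂ ∧ n₁ * n₂ = n ∧ IsUnitaryFormPow q f₁ ∧ IsUnitaryFormPow q f₂ ∧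
      IsTensorFormStructure (fun x : F => x ^ q) hh f₁ f₂ e P ∧ H = tensorProductSubgroup n₁ n₂ e P ⊓ SUn) ∨
    (∃ (F₀ : Subfield F) (r : ℕ) (P : GL (Fin n) F), r.Prime ∧ Odd r ∧ Fintype.card F = Nat.card F₀ ^ r ∧
      IsFormRationalStructure hh F₀ 1 P ∧ H = subfieldSubgroup F₀ P ⊓ SUn) ∨
    (Even n ∧ ∃ (F₀ : Subfield F) (P : GL (Fin n) F) (ζ : F), Fintype.card F = Nat.card F₀ ^ 2 ∧ ζ ≠ 0 ∧
      ζ + ζ ^ q = 0 ∧ IsFormRationalStructure hh F₀ ζ P ∧
      (∀ u : Fin n → F, (∀ i, u i ∈ F₀) → hh ((P : Matrix (Fin n) (Fin n) F) *ᵥ u) ((P : Matrix (Fin n) (Fin n) F) *ᵥ u) = 0) ∧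
      H = subfieldSubgroup F₀ P ⊓ SUn) ∨
    (Odd q ∧ ∃ (F₀ : Subfield F) (P : GL (Fin n) F), Fintype.card F = Nat.card F₀ ^ 2 ∧
      IsFormRationalStructure hh F₀ 1 P ∧ H = subfieldSubgroup F₀ P ⊓ SUn) ∨
    (∃ (r : ℕ) (R : Subgroup (GL (Fin n) F)) (p e k : ℕ), r.Prime ∧ p.Prime ∧ CharP F p ∧ IsSymplecticTypeGroup r R ∧
      ActsAbsolutelyIrreducibly (matrixSet R) ∧ R ≤ similarityGroup hh ∧ r ≠ p ∧ n = r ^ k ∧ 1 ≤ k ∧
      IsMinimalFieldFor (r * Nat.gcd 2 r) p e F ∧ (r = 2 → e = 2) ∧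
      Nat.card (Subgroup.center R) = r * Nat.gcd 2 r ∧ Nat.card R = r * Nat.gcd 2 r * (n * n) ∧
      H = subgroupNormalizer R ⊓ SUn) ∨
    (∃ (m t : ℕ) (e : Fin n ≃ (Fin t → Fin m)) (P : GL (Fin n) F) (f₁ : (Fin m → F) → (Fin m → F) → F),
      3 ≤ m ∧ 2 ≤ t ∧ ¬ (q = 2 ∧ m = 3) ∧ m ^ t = n ∧ IsUnitaryFormPow q f₁ ∧
      IsTensorPowerFormStructure (fun x : F => x ^ q) hh f₁ e P ∧ H ≤ tensorWreathSubgroup m t e P) ∨
    InUnitaryResidualClass H := by
  rcases AschRel.u_structure hF (by omega) H (hH.1.le.trans inf_le_left) with ⟨M, hM, hle⟩ | hres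
  swap
  · iterate 11 right
    exact hres
  rcases hM with hP | ⟨r, K, hr, hro, hK, hadj, rfl⟩ | ⟨n₁, n₂, e, P, f₁, f₂, h1, h2, hf₁, hf₂, hs, rfl⟩ |
    ⟨m, t, e, P, f₁, hm, ht, hex, hf₁, hs, rfl⟩
  · rcases hP with ⟨W, h0, hW, rfl⟩ | ⟨W, h0, hW, hdim, rfl⟩ | ⟨t, k, D, hD, rfl⟩ | ⟨k, D, hk, hD, hW, rfl⟩ |
      ⟨F₀, r, P, hr, hro, hc, hs, rfl⟩ | ⟨F₀, P, hq, hc, hs, rfl⟩ | ⟨F₀, P, ζ, hev, hc, hζ, hζq, hs, hal, rfl⟩ |
      ⟨r, R, p, e, k, hst, habs, hsim, hrp, hm, hdis, rfl⟩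
    · refine Or.inl ⟨W, h0, hW, eq_of_le hH (hle.trans inf_le_left) (u_subspace_proper hF (by omega) h0 (fun h => ?_) (Or.inl hW))⟩
      obtain ⟨u, -, huu⟩ := exists_unit hF (nonDeg_top (n := n) hF) (fun h' => h0 (by rw [h, h']))
      exact one_ne_zero (huu.symm.trans (hW u (h ▸ trivial) u (h ▸ trivial)))
    · refine Or.inr <| Or.inl ⟨W, h0, hW, hdim, eq_of_le hH (hle.trans inf_le_left) (u_subspace_proper hF (by omega) h0 (fun h => ?_) (Or.inr hW))⟩
      rw [h, finrank_top, Module.finrank_fin_fun] at hdim; omega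
    · refine Or.inr <| Or.inr <| Or.inl ⟨t, k, D, hD, card_decomp hD.decomp, eq_of_le hH (hle.trans inf_le_left) ?_⟩
      rcases (show k = 1 ∨ 2 ≤ k by have := hD.decomp.pos; omega) with rfl | hk
      · exact u_monomial_proper hF (by omega) (by omega) hD
      · exact u_blocks_proper hF (by omega) hD.decomp hk fun i => Or.inr (hD.nondegenerate i)
    · iterate 3 right
      exact Or.inl ⟨k, D, hk, hD, hW, eq_of_le hH (hle.trans inf_le_left)
        (u_blocks_proper hF (by omega) hD (by omega) fun i => Or.inl (hW i))⟩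
    · iterate 6 right
      exact Or.inl ⟨F₀, r, P, hr, hro, hc, hs, eq_of_le hH (hle.trans inf_le_left) (u_subfield_proper hF (by omega) hr hc P)⟩
    · iterate 8 right
      exact Or.inl ⟨hq, F₀, P, hc, hs, eq_of_le hH (hle.trans inf_le_left) (u_subfield_proper hF (by omega) Nat.prime_two hc P)⟩
    · iterate 7 right
      exact Or.inl ⟨hev, F₀, P, ζ, hc, hζ, hζq, hs, hal, eq_of_le hH (hle.trans inf_le_left) (u_subfield_proper hF (by omega) Nat.prime_two hc P)⟩
    · have hcR : Nat.card (Subgroup.center R) = r * Nat.gcd 2 r ∧ Nat.card R = r * Nat.gcd 2 r * r ^ (2 * k) := by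
        rcases hdis with ⟨ho, hz, -, hR⟩ | ⟨rfl, -, hz, hR⟩
        · rw [show Nat.gcd 2 r = 1 from Nat.coprime_two_left.mpr ho, mul_one]
          exact ⟨hz, by rw [hR, pow_add, pow_one]⟩
        · exact ⟨hz.trans (by decide), by rw [hR, pow_add]; rfl⟩
      have hnk := u_data (by omega) hst habs hcR.1 hcR.2
      iterate 9 right
      refine Or.inl ⟨r, R, p, e, k, hst.prime, hm.1, hm.2.1, hst, habs, hsim, hrp, hnk, ?_, hcR.1 ▸ hm, fun h2 => ?_, hcR.1, ?_,
        eq_of_le hH (hle.trans inf_le_left) (u_symp_proper hF hn hst habs hcR.1)⟩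
      · rcases Nat.eq_zero_or_pos k with rfl | hk
        · simp at hnk; omega
        · exact hk
      · rcases hdis with ⟨ho, -⟩ | ⟨-, he, -⟩
        · exact absurd (h2 ▸ ho) (by decide)
        · exact he
      · rw [hcR.2, hnk, ← pow_add, two_mul]
  · iterate 4 right
    exact Or.inl ⟨r, K, hr, hro, field_dvd hK hr.two_le, hK, hadj, eq_of_le hH (hle.trans inf_le_left) (u_field_proper hF (by omega) hr.two_le hK)⟩
  · iterate 5 right
    refine Or.inl ⟨n₁, n₂, e, P, f₁, f₂, h1, h2, ?_, hf₁, hf₂, hs, eq_of_le hH (hle.trans inf_le_left) (u_tensor_proper hF h1 (by omega) (by omega) e P)⟩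
    simpa using (Fintype.card_congr e).symm
  · iterate 10 right
    refine Or.inl ⟨m, t, e, P, f₁, hm, ht, hex, ?_, hf₁, hs, hle.trans inf_le_left⟩
    simpa using (Fintype.card_congr e).symm

end Cfsg.Agent.GeomClasses.MaxList
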