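import Cfsg.Agent.GeomClasses.MaxList.UExcl

/-! # Symplectic-type normalisers in degrees three and four do not contain the special unitary group -/

set_option autoImplicit false

namespace Cfsg.Agent.GeomClasses.MaxList.USympSmall

open Matrix Cfsg.Geo Cfsg.Agent.Forms Cfsg.Agent.GeomClasses.Unitary
open scoped commutatorElement

variable {F : Type*} [Field F] [Fintype F] {q n : ℕ}

local notation "hh" => Cfsg.hermForm n F q
local notation "SUn" => (Cfsg.GU n F q ⊓ specialLinear (Fin n) F)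
local notation "Mn" => Matrix (Fin n) (Fin n) F

/-- The fixed points of an element of prime order acting by conjugation. -/
theorem fixed_modEq {l : ℕ} (hl : l.Prime) {g : GL (Fin n) F} (hg : g ^ l = 1) {D : Subgroup (GL (Fin n) F)}
    (hD : ∀ x ∈ D, g * x * g⁻¹ ∈ D) :
    Nat.card D ≡ Nat.card (D ⊓ Subgroup.centralizer {g} : Subgroup (GL (Fin n) F)) [MOD l] := by
  classical
  haveI := Fact.mk hl
  let f : D → D := fun x => ⟨g * x * g⁻¹, hD x x.2⟩
  have hinj : Function.Injective f := fun x y h => Subtype.ext (by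
    have : g * (x : GL (Fin n) F) * g⁻¹ = g * y * g⁻¹ := congrArg Subtype.val h
    simpa using this)
  let σ : Equiv.Perm D := Equiv.ofBijective f (Finite.injective_iff_bijective.mp hinj)
  have hpow : ∀ (k : ℕ) (x : D), ((σ ^ k) x : GL (Fin n) F) = g ^ k * x * (g ^ k)⁻¹ := by
    intro k
    induction k with
    | zero => simp
    | succ k ih =>
      intro x
      rw [pow_succ', Equiv.Perm.mul_apply]
      show g * _ * g⁻¹ = _
      rw [ih, pow_succ']
      group
  have hσ : σ ^ l ^ 1 = 1 := Equiv.ext fun x => Subtype.ext (by rw [pow_one, hpow, hg]; simp)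
  have h1 := Equiv.Perm.card_compl_support_modEq hσ
  have h2 : σ.supportᶜ.card = Nat.card (D ⊓ Subgroup.centralizer {g} : Subgroup (GL (Fin n) F)) := by
    rw [← Nat.card_eq_finsetCard]
    refine Nat.card_congr ⟨fun x => ⟨(x.1 : GL (Fin n) F), x.1.2, ?_⟩, fun x => ⟨⟨x.1, x.2.1⟩, ?_⟩,
      fun x => rfl, fun x => rfl⟩
    · have h := x.2
      rw [Finset.mem_compl, Equiv.Perm.mem_support, not_not] at h
      have h' : g * (x.1 : GL (Fin n) F) * g⁻¹ = x.1 := congrArg Subtype.val h
      exact Subgroup.mem_centralizer_singleton_iff.mpr (mul_inv_eq_iff_eq_mul.mp h').symm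
    · rw [Finset.mem_compl, Equiv.Perm.mem_support, not_not]
      refine Subtype.ext ?_
      show g * x.1 * g⁻¹ = x.1
      rw [← Subgroup.mem_centralizer_singleton_iff.mp x.2.2, mul_inv_cancel_right]
  rw [h2, ← Nat.card_eq_fintype_card] at h1
  exact h1.symm

/-- Prime divisors of a few small numbers. -/
theorem small_dvd {l d : ℕ} (hl : l.Prime) (h5 : 5 ≤ l) (h : l ∣ d) (hd : d ∈ [60, 56, 48, 32, 24, 18]) :
    (l = 7 ∧ d = 56) ∨ (l = 5 ∧ d = 60) := by
  have key : ∀ d ∈ [60, 56, 48, 32, 24, 18], ∀ l < 61, 5 ≤ l → l ∣ d → l = 5 ∧ d = 60 ∨ l = 7 ∧ d = 56 ∨ ¬ l.Prime := by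
    decide +kernel
  have hlt : l < 61 := by
    have hpos : 0 < d ∧ d < 61 := (by decide : ∀ d ∈ [60, 56, 48, 32, 24, 18], 0 < d ∧ d < 61) d hd
    have := Nat.le_of_dvd hpos.1 h
    omega
  rcases key d hd l hlt h5 h with h1 | h1 | h1
  · exact Or.inr h1
  · exact Or.inl h1
  · exact absurd hl h1

variable {r : ℕ} {R : Subgroup (GL (Fin n) F)}

theorem twist_scalar (hn : 2 ≤ n) (hst : IsSymplecticTypeGroup r R) (habs : ActsAbsolutelyIrreducibly (matrixSet R))
    (hc : Nat.card (Subgroup.center R) = r * Nat.gcd 2 r) : ∀ a ∈ R, ∀ b ∈ R, ⁅a, b⁆ ∈ scalars (Fin n) F := by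
  haveI : Nonempty (Fin n) := ⟨⟨0, by omega⟩⟩
  exact fun a ha b hb => (AschRel.center_iff (full_of_absIrred hn habs) _).mp (center_twist hst hc
    (Subgroup.commutator_mem_commutator (Subgroup.mem_top (⟨a, ha⟩ : R)) (Subgroup.mem_top (⟨b, hb⟩ : R))))

theorem center_le_centralizer (hn : 2 ≤ n) (habs : ActsAbsolutelyIrreducibly (matrixSet R)) (g : GL (Fin n) F) :
    Nat.card (Subgroup.center R) ≤ Nat.card (R ⊓ Subgroup.centralizer {g} : Subgroup (GL (Fin n) F)) := by
  haveI : Nonempty (Fin n) := ⟨⟨0, by omega⟩⟩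
  refine Nat.card_le_card_of_injective (fun z => ⟨((z : R) : GL (Fin n) F), (z : R).2, ?_⟩) fun a b h => ?_
  · obtain ⟨c, hc⟩ := (mem_scalars_iff _).mp ((AschRel.center_iff (full_of_absIrred hn habs) _).mp z.2)
    refine Subgroup.mem_centralizer_singleton_iff.mpr (Units.ext ?_)
    rw [Units.val_mul, Units.val_mul, hc, Matrix.smul_mul, Matrix.mul_smul, one_mul, mul_one]
  · exact Subtype.ext (Subtype.ext (congrArg (fun x : (R ⊓ Subgroup.centralizer {g} : Subgroup (GL (Fin n) F)) => (x : GL (Fin n) F)) h))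

theorem scalar_of_full (hn : 2 ≤ n) (habs : ActsAbsolutelyIrreducibly (matrixSet R)) {g : GL (Fin n) F}
    (hle : R ≤ Subgroup.centralizer {g}) : ∃ c : F, (g : Mn) = c • 1 := by
  refine (full_of_absIrred hn habs).comm_scalar fun x hx => ?_
  rw [← Units.val_mul, ← Units.val_mul, Subgroup.mem_centralizer_singleton_iff.mp (hle hx)]

/-- A non-scalar element of prime order at least five cannot normalise an extraspecial group of order 27. -/
theorem three_comm (hn : 2 ≤ n) (hst : IsSymplecticTypeGroup 3 R) (habs : ActsAbsolutelyIrreducibly (matrixSet R))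
    (hR : Nat.card R = 27) (hc : Nat.card (Subgroup.center R) = 3) {l : ℕ} (hl : l.Prime) (h5 : 5 ≤ l)
    {g : GL (Fin n) F} (hg : g ^ l = 1) (hgR : g ∈ subgroupNormalizer R) : ∃ c : F, (g : Mn) = c • 1 := by
  refine scalar_of_full hn habs ?_
  have hm := fixed_modEq hl hg (D := R) fun x hx => (Subgroup.mem_normalizer_iff.mp hgR x).mp hx
  set C := (R ⊓ Subgroup.centralizer {g} : Subgroup (GL (Fin n) F)) with hC
  have hle := center_le_centralizer hn habs g
  rw [hc, ← hC] at hle
  rw [hR] at hm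
  obtain ⟨i, hi, hCi⟩ := (Nat.dvd_prime_pow Nat.prime_three).mp
    (show Nat.card C ∣ 3 ^ 3 by rw [show (3 : ℕ) ^ 3 = 27 from rfl, ← hR]; exact Subgroup.card_dvd_of_le inf_le_left)
  have key : Nat.card C = 27 := by
    interval_cases i
    · rw [hCi] at hle; omega
    · exfalso
      rw [hCi, Nat.ModEq.comm, Nat.modEq_iff_dvd' (by norm_num)] at hm
      rcases small_dvd hl (by omega) hm (by decide) with ⟨h1, h2⟩ | ⟨h1, h2⟩ <;> omega
    · exfalso
      rw [hCi, Nat.ModEq.comm, Nat.modEq_iff_dvd' (by norm_num)] at hm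
      rcases small_dvd hl (by omega) hm (by decide) with ⟨h1, h2⟩ | ⟨h1, h2⟩ <;> omega
    · exact hCi
  have e := Subgroup.eq_of_le_of_card_ge (show C ≤ R from inf_le_left) (by rw [key, hR])
  exact fun x hx => (e.ge hx).2

/-- A non-scalar element of order seven or a larger prime cannot normalise a symplectic-type group of order 64. -/
theorem four_comm (hn : 2 ≤ n) (hst : IsSymplecticTypeGroup 2 R) (habs : ActsAbsolutelyIrreducibly (matrixSet R))
    (hR : Nat.card R = 64) (hc : Nat.card (Subgroup.center R) = 4) {l : ℕ} (hl : l.Prime) (h7 : 7 ≤ l)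
    {g : GL (Fin n) F} (hg : g ^ l = 1) (hgR : g ∈ subgroupNormalizer R) : ∃ c : F, (g : Mn) = c • 1 := by
  classical
  haveI : Nonempty (Fin n) := ⟨⟨0, by omega⟩⟩
  refine scalar_of_full hn habs ?_
  have hnorm : ∀ x ∈ R, g * x * g⁻¹ ∈ R := fun x hx => (Subgroup.mem_normalizer_iff.mp hgR x).mp hx
  have hm := fixed_modEq hl hg (D := R) hnorm
  set C := (R ⊓ Subgroup.centralizer {g} : Subgroup (GL (Fin n) F)) with hC
  have hle := center_le_centralizer hn habs g
  rw [hc, ← hC] at hle
  rw [hR] at hm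
  obtain ⟨i, hi, hCi⟩ := (Nat.dvd_prime_pow Nat.prime_two).mp
    (show Nat.card C ∣ 2 ^ 6 by rw [show (2 : ℕ) ^ 6 = 64 from rfl, ← hR]; exact Subgroup.card_dvd_of_le inf_le_left)
  have key : Nat.card C = 64 ∨ (Nat.card C = 8 ∧ l = 7) := by
    interval_cases i
    · rw [hCi] at hle; omega
    · rw [hCi] at hle; omega
    · exfalso
      rw [hCi, Nat.ModEq.comm, Nat.modEq_iff_dvd' (by norm_num)] at hm
      rcases small_dvd hl (by omega) hm (by decide) with ⟨h1, h2⟩ | ⟨h1, h2⟩ <;> omega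
    · rw [hCi, Nat.ModEq.comm, Nat.modEq_iff_dvd' (by norm_num)] at hm
      rcases small_dvd hl (by omega) hm (by decide) with ⟨h1, h2⟩ | ⟨h1, h2⟩
      · exact Or.inr ⟨hCi, h1⟩
      · omega
    · exfalso
      rw [hCi, Nat.ModEq.comm, Nat.modEq_iff_dvd' (by norm_num)] at hm
      rcases small_dvd hl (by omega) hm (by decide) with ⟨h1, h2⟩ | ⟨h1, h2⟩ <;> omega
    · exfalso
      rw [hCi, Nat.ModEq.comm, Nat.modEq_iff_dvd' (by norm_num)] at hm
      rcases small_dvd hl (by omega) hm (by decide) with ⟨h1, h2⟩ | ⟨h1, h2⟩ <;> omega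
    · exact Or.inl hCi
  rcases key with key | ⟨key, rfl⟩
  · have e := Subgroup.eq_of_le_of_card_ge (show C ≤ R from inf_le_left) (by rw [key, hR])
    exact fun x hx => (e.ge hx).2
  exfalso
  -- eight fixed points
  set Z := R ⊓ scalars (Fin n) F with hZdef
  have hZ : Nat.card Z = 4 := by
    rw [← hc]
    refine Nat.card_congr ⟨fun z => ⟨⟨z.1, z.2.1⟩, (AschRel.center_iff (full_of_absIrred hn habs) _).mpr z.2.2⟩,
      fun z => ⟨((z : R) : GL (Fin n) F), (z : R).2, (AschRel.center_iff (full_of_absIrred hn habs) _).mp z.2⟩,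
      fun _ => rfl, fun _ => rfl⟩
  have hzc : ∀ z ∈ scalars (Fin n) F, ∀ y : GL (Fin n) F, z * y = y * z := by
    intro z hz y
    obtain ⟨c, hc'⟩ := (mem_scalars_iff z).mp hz
    refine Units.ext ?_
    rw [Units.val_mul, Units.val_mul, hc', Matrix.smul_mul, Matrix.mul_smul, one_mul, mul_one]
  have hZC : Z ≤ C := fun z hz => ⟨hz.1, Subgroup.mem_centralizer_singleton_iff.mpr (hzc z hz.2 g)⟩
  obtain ⟨x, hxC, hxZ⟩ := SetLike.not_le_iff_exists.mp (show ¬ C ≤ Z from fun h => by
    have := Subgroup.card_le_of_le h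
    omega)
  have hCab : ∀ y ∈ C, y * x = x * y := by
    have hidx : (Z.subgroupOf C).index = 2 := by
      have h1 := (Z.subgroupOf C).card_mul_index
      rw [Nat.card_congr (Subgroup.subgroupOfEquivOfLe hZC).toEquiv, hZ, key] at h1
      omega
    intro y hy
    by_cases hyZ : y ∈ Z
    · exact hzc y hyZ.2 x
    · have hmul := (Subgroup.mul_mem_iff_of_index_two hidx (a := (⟨y, hy⟩ : C)) (b := (⟨x, hxC⟩ : C)⁻¹)).mpr
        ⟨fun h => absurd (Subgroup.mem_subgroupOf.mp h) hyZ,
         fun h => absurd (Subgroup.mem_subgroupOf.mp ((Subgroup.inv_mem_iff _).mp h)) hxZ⟩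
      have hz : y * x⁻¹ ∈ Z := Subgroup.mem_subgroupOf.mp hmul
      have h2 := hzc _ hz.2 x
      calc y * x = (y * x⁻¹) * x * x := by group
        _ = x * (y * x⁻¹) * x := by rw [h2]
        _ = x * y := by group
  set D := R ⊓ Subgroup.centralizer {x} with hD
  have htw := twist_scalar hn hst habs (by rw [hc]; rfl)
  choose s hs using fun y : R => AschRel.exists_twist (htw y y.2 x hxC.1)
  have hinj : ∀ {a b : Fˣ}, (a : F) • ((x : GL (Fin n) F) : Mn) = (b : F) • (x : Mn) → a = b := fun h =>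
    Units.ext (smul_left_injective F (x.ne_zero) h)
  let φ : R →* Fˣ :=
    { toFun := s
      map_one' := by
        refine hinj ?_
        have h := hs 1
        simp only [OneMemClass.coe_one, Units.val_one, one_mul, mul_one] at h
        rw [Units.val_one, one_smul]
        exact h.symm
      map_mul' := fun a b => by
        have ha := hs a
        have hb := hs b
        have hab := hs (a * b)
        simp only [Subgroup.coe_mul, Units.val_mul] at hab ⊢
        have e : ((a : GL (Fin n) F) : Mn) * (b : GL (Fin n) F) * x =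
            ((s a : F) * (s b : F)) • ((x : Mn) * (((a : GL (Fin n) F) : Mn) * (b : GL (Fin n) F))) := by
          rw [mul_assoc, hb, Matrix.mul_smul, ← mul_assoc, ha, Matrix.smul_mul, smul_smul, mul_comm (s b : F), mul_assoc]
        rw [hab] at e
        have e2 := congrArg (fun M => M * (((a * b : R) : GL (Fin n) F)⁻¹ : GL (Fin n) F).val) e
        simp only [Matrix.smul_mul, mul_assoc, ← Units.val_mul, Subgroup.coe_mul, mul_inv_cancel, Units.val_one,
          mul_one] at e2
        exact hinj (by rw [e2, Units.val_mul]) }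
  have hker : Nat.card φ.ker = Nat.card D := by
    refine Nat.card_congr ⟨fun y => ⟨((y : R) : GL (Fin n) F), (y : R).2, ?_⟩, fun y => ⟨⟨y.1, y.2.1⟩, ?_⟩,
      fun _ => rfl, fun _ => rfl⟩
    · refine Subgroup.mem_centralizer_singleton_iff.mpr (Units.ext ?_)
      have h1 : s (y : R) = 1 := y.2
      have := hs (y : R)
      rwa [h1, Units.val_one, one_smul, ← Units.val_mul, ← Units.val_mul] at this
    · show s ⟨y.1, y.2.1⟩ = 1
      refine hinj ?_
      have h := hs ⟨y.1, y.2.1⟩
      rw [← Units.val_mul, Subgroup.mem_centralizer_singleton_iff.mp y.2.2, Units.val_mul] at h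
      have h2 := congrArg (fun M => M * ((y.1⁻¹ : GL (Fin n) F) : Mn)) h
      simp only [Matrix.smul_mul, mul_assoc, Units.mul_inv, mul_one] at h2
      rw [← h2, Units.val_one, one_smul]
  have hfour : ∀ y, φ y ^ 4 = 1 := fun y => by
    rw [← map_pow, show y ^ 4 = 1 from (by
      have h := Monoid.pow_exponent_eq_one y
      rwa [hst.exponent_eq] at h), map_one]
  have hrange : Nat.card φ.range ≤ 4 := by
    have hs4 : (φ.range : Set Fˣ) ⊆ {u : Fˣ | u ^ 4 = 1} := by rintro _ ⟨y, rfl⟩; exact hfour y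
    refine le_trans (Nat.card_mono (Set.toFinite _) hs4) ?_
    rw [show ({u : Fˣ | u ^ 4 = 1}) = ((rootsOfUnity 4 F : Subgroup Fˣ) : Set Fˣ) from Set.ext fun u => (mem_rootsOfUnity 4 u).symm]
    rw [show Nat.card ((rootsOfUnity 4 F : Subgroup Fˣ) : Set Fˣ) = Nat.card (rootsOfUnity 4 F) from rfl]
    exact card_rootsOfUnity F 4
  have hmul : Nat.card D * Nat.card φ.range = 64 := by
    rw [← hker, ← Subgroup.index_ker, Subgroup.card_mul_index, hR]
  have hD16 : 16 ≤ Nat.card D := by
    by_contra h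
    have := Nat.mul_le_mul (show Nat.card D ≤ 15 by omega) hrange
    omega
  have hDne : Nat.card D ≠ 64 := fun h => by
    have e := Subgroup.eq_of_le_of_card_ge (show D ≤ R from inf_le_left) (by rw [h, hR])
    obtain ⟨c, hc'⟩ := scalar_of_full hn habs (g := x) fun y hy => (e.ge hy).2
    exact hxZ ⟨hxC.1, (mem_scalars_iff x).mpr ⟨Units.mk0 c fun h0 => x.ne_zero (by rw [hc', h0, zero_smul]), hc'⟩⟩
  have hfix := fixed_modEq hl hg (D := D) fun y hy => ⟨hnorm y hy.1, Subgroup.mem_centralizer_singleton_iff.mpr (by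
    have hgx : g * x = x * g := (Subgroup.mem_centralizer_singleton_iff.mp hxC.2).symm
    have hyx := Subgroup.mem_centralizer_singleton_iff.mp hy.2
    calc g * y * g⁻¹ * x = g * y * (g⁻¹ * x * g) * g⁻¹ := by group
      _ = g * (y * x) * g⁻¹ := by rw [mul_assoc g⁻¹, ← hgx]; group
      _ = g * x * y * g⁻¹ := by rw [hyx]; group
      _ = x * (g * y * g⁻¹) := by rw [hgx]; group)⟩
  have hCD : D ⊓ Subgroup.centralizer {g} = C := le_antisymm (fun y hy => ⟨hy.1.1, hy.2⟩)
    fun y hy => ⟨⟨hy.1, Subgroup.mem_centralizer_singleton_iff.mpr (hCab y hy)⟩, hy.2⟩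
  rw [hCD, key] at hfix
  obtain ⟨j, hj, hDj⟩ := (Nat.dvd_prime_pow Nat.prime_two).mp
    (show Nat.card D ∣ 2 ^ 6 by rw [show (2 : ℕ) ^ 6 = 64 from rfl, ← hR]; exact Subgroup.card_dvd_of_le inf_le_left)
  rw [hDj] at hfix hD16 hDne
  interval_cases j <;> first | omega | exact absurd hfix (by decide)

end Cfsg.Agent.GeomClasses.MaxList.USympSmall

namespace Cfsg.Agent.GeomClasses.MaxList.USympSmall

open Matrix Cfsg.Geo Cfsg.Agent.Forms Cfsg.Agent.GeomClasses.Unitary

variable {F : Type*} [Field F] [Fintype F] {q n : ℕ}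

local notation "hh" => Cfsg.hermForm n F q
local notation "SUn" => (Cfsg.GU n F q ⊓ specialLinear (Fin n) F)
local notation "Mn" => Matrix (Fin n) (Fin n) F

/-- A unitary transvection: non-scalar, of order the characteristic. -/
theorem exists_transvection (hF : Fintype.card F = q ^ 2) (hn : 2 ≤ n) (p : ℕ) [CharP F p] :
    ∃ g : GL (Fin n) F, g ∈ SUn ∧ g ^ p = 1 ∧ ∀ c : F, (g : Mn) ≠ c • 1 := by
  obtain ⟨v, f, hv, -, hfv, -, hv0⟩ := exists_pair hF (n := n) hn
  obtain ⟨c, hc0, hc⟩ := exists_trace_zero hF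
  have hpow : ∀ (j : ℕ) (x : Fin n → F),
      ((uT v c hv ^ j : GL (Fin n) F) : Mn) *ᵥ x = x + ((j : F) * (c * hh x v)) • v := by
    intro j
    induction j with
    | zero => intro x; simp
    | succ j ih =>
      intro x
      rw [pow_succ', Units.val_mul, ← Matrix.mulVec_mulVec, ih, uT_mulVec, hh_add_left hF, hh_smul_left hF, hv,
        mul_zero, add_zero, add_assoc, ← add_smul]
      push_cast
      congr 2
      ring
  refine ⟨uT v c hv, uT_mem hF v c hv hc, Units.ext ?_, fun l hl => ?_⟩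
  · refine Matrix.ext_of_mulVec_single fun i => ?_
    rw [hpow, CharP.cast_eq_zero, zero_mul, zero_smul, add_zero, Units.val_one, Matrix.one_mulVec]
  · have h1 : (uT v c hv : Mn) *ᵥ v = v := by rw [uT_mulVec, hv, mul_zero, zero_smul, add_zero]
    have h2 : (uT v c hv : Mn) *ᵥ f = f + c • v := by rw [uT_mulVec, hfv, mul_one]
    rw [hl, Matrix.smul_mulVec, Matrix.one_mulVec] at h1 h2
    have hl1 : l = 1 := smul_left_injective F hv0 (by show l • v = (1 : F) • v; rw [one_smul, h1])
    rw [hl1, one_smul, left_eq_add] at h2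
    exact hv0 ((smul_eq_zero.mp h2).resolve_left hc0)

/-- The unitary group over nine elements in degree four has an element of order seven. -/
theorem exists_seven {F : Type*} [Field F] [Fintype F] (hF : Fintype.card F = 3 ^ 2) :
    ∃ g : GL (Fin 4) F, g ∈ Cfsg.GU 4 F 3 ⊓ specialLinear (Fin 4) F ∧ g ^ 7 = 1 ∧
      ∀ c : F, (g : Matrix (Fin 4) (Fin 4) F) ≠ c • 1 := by
  classical
  haveI : Fact (Nat.Prime 7) := ⟨by norm_num⟩
  obtain ⟨x, hx⟩ := exists_prime_orderOf_dvd_card' (G := Cfsg.GU 4 F 3) 7 (by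
    rw [Forms.card_GU hF]
    norm_num [Finset.prod_range_succ, Nat.even_iff])
  have hx7 : (x : GL (Fin 4) F) ^ 7 = 1 := by
    have h : x ^ 7 = 1 := hx ▸ pow_orderOf_eq_one x
    exact congrArg Subtype.val h
  have hone : ∀ d : F, d ^ 7 = 1 → d = 1 := fun d hd => by
    have hd0 : d ≠ 0 := fun h => by rw [h] at hd; simp at hd
    have h8 := FiniteField.pow_card_sub_one_eq_one d hd0
    rw [hF, show (3 ^ 2 - 1 : ℕ) = 7 + 1 from rfl, pow_succ, hd, one_mul] at h8
    exact h8
  have hd : ((x : GL (Fin 4) F) : Matrix (Fin 4) (Fin 4) F).det ^ 7 = 1 := by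
    rw [← Matrix.det_pow, ← Units.val_pow_eq_pow_val, hx7, Units.val_one, Matrix.det_one]
  refine ⟨x, ⟨x.2, mem_specialLinear_iff.mpr (hone _ hd)⟩, hx7, fun c hc => ?_⟩
  have h7 : (c ^ 7) • (1 : Matrix (Fin 4) (Fin 4) F) = 1 := by
    rw [← one_pow (M := Matrix (Fin 4) (Fin 4) F) 7, ← smul_pow, ← hc, ← Units.val_pow_eq_pow_val, hx7, Units.val_one,
      one_pow]
  have hc1 : c = 1 := hone c (by simpa using congrFun (congrFun h7 0) 0)
  have hx1 : x = 1 := Subtype.ext (Units.ext (by rw [hc, hc1, one_smul]; rfl))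
  rw [hx1, orderOf_one] at hx
  exact absurd hx (by norm_num)

/-- The normaliser of a symplectic-type group of order 64 is proper in degree four. -/
theorem four_proper {F : Type*} [Field F] [Fintype F] {q p : ℕ} (hF : Fintype.card F = q ^ 2) [CharP F p]
    (hp : p.Prime) (hqp : q = p) (hmod : p % 4 = 3) {R : Subgroup (GL (Fin 4) F)} (hst : IsSymplecticTypeGroup 2 R)
    (habs : ActsAbsolutelyIrreducibly (matrixSet R)) (hR : Nat.card R = 64)
    (hc : Nat.card (Subgroup.center R) = 4) :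
    ¬ (Cfsg.GU 4 F q ⊓ specialLinear (Fin 4) F) ≤ subgroupNormalizer R := by
  intro hle
  subst hqp
  by_cases h7 : 7 ≤ q
  · obtain ⟨g, hg, hgp, hgns⟩ := exists_transvection hF (n := 4) (by norm_num) q
    obtain ⟨c, hc'⟩ := four_comm (by norm_num) hst habs hR hc hp h7 hgp (hle hg)
    exact hgns c hc'
  · have h3 : q = 3 := by
      have := hp.two_le
      interval_cases q <;> omega
    subst h3
    obtain ⟨g, hg, hg7, hgns⟩ := exists_seven hF
    obtain ⟨c, hc'⟩ := four_comm (by norm_num) hst habs hR hc (by norm_num) le_rfl hg7 (hle hg)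
    exact hgns c hc'

/-- The normaliser of an extraspecial group of order 27 is proper in degree three. -/
theorem three_proper {F : Type*} [Field F] [Fintype F] {q p : ℕ} (hF : Fintype.card F = q ^ 2) [CharP F p]
    (hp : p.Prime) (h5 : 5 ≤ p) {R : Subgroup (GL (Fin 3) F)} (hst : IsSymplecticTypeGroup 3 R)
    (habs : ActsAbsolutelyIrreducibly (matrixSet R)) (hR : Nat.card R = 27)
    (hc : Nat.card (Subgroup.center R) = 3) :
    ¬ (Cfsg.GU 3 F q ⊓ specialLinear (Fin 3) F) ≤ subgroupNormalizer R := by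
  intro hle
  obtain ⟨g, hg, hgp, hgns⟩ := exists_transvection hF (n := 3) (by norm_num) p
  obtain ⟨c, hc'⟩ := three_comm (by norm_num) hst habs hR hc hp h5 hgp (hle hg)
  exact hgns c hc'

end Cfsg.Agent.GeomClasses.MaxList.USympSmall
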