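import Cfsg.Agent.GeomClasses.UnitaryEigenFrame
import Cfsg.Agent.GeomClasses.MaxList.U

/-! # Monomial groups in the four-dimensional unitary group over nine elements are not maximal -/

set_option autoImplicit false

namespace Cfsg.Agent.GeomClasses.MaxList.U4

open Matrix Cfsg.Geo Cfsg.Agent.GeomClasses.Unitary

variable {F : Type*} [Field F] [Fintype F]

local notation "hh" => Cfsg.hermForm 4 F 3
local notation "Mx" => Matrix (Fin 4) (Fin 4) F

/-- The regular translations of four indices. -/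
def tr4 (π i : Fin 4) : Fin 4 :=
  (![![0, 1, 2, 3], ![1, 0, 3, 2], ![2, 3, 0, 1], ![3, 2, 1, 0]] : Fin 4 → Fin 4 → Fin 4) π i

/-- A sign. -/
def sgnOf (b : Bool) : ℤ := if b then -1 else 1

/-- A signed translation. -/
def sgnMat (π : Fin 4) (e : Fin 4 → Bool) : Matrix (Fin 4) (Fin 4) ℤ :=
  Matrix.of fun i j => if j = tr4 π i then sgnOf (e i) else 0

/-- An element normalising the signed translations. -/
def gMat : Matrix (Fin 4) (Fin 4) ℤ := !![1, 1, 0, 0; 1, -1, 0, 0; 0, 0, 1, 1; 0, 0, -1, 1]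

theorem gMat_table : ∀ (π : Fin 4) (e : Fin 4 → Bool), (∏ i, sgnOf (e i)) = 1 →
    ∃ (π' : Fin 4) (e' : Fin 4 → Bool), (∏ i, sgnOf (e' i)) = 1 ∧ gMat * sgnMat π e = sgnMat π' e' * gMat := by
  decide +kernel

theorem perm_table : ∀ (σ : Equiv.Perm (Fin 4)) (π : Fin 4), ∃ π' : Fin 4, ∀ i, tr4 π' (σ i) = σ (tr4 π i) := by
  decide +kernel

/-- The scaled signed translations whose signs have product one. -/
def InT (A : Matrix (Fin 4) (Fin 4) F) : Prop :=
  ∃ (π : Fin 4) (c : Fin 4 → F), c 0 ≠ 0 ∧ (∀ i, c i * c i = c 0 * c 0) ∧ (∏ i, c i) = (c 0) ^ 4 ∧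
    ∀ i j, A i j = if j = tr4 π i then c i else 0

/-- The matrix carries scaled signed translations to scaled signed translations. -/
def Stab (M : Matrix (Fin 4) (Fin 4) F) : Prop := ∀ A, InT A → ∃ A', InT A' ∧ M * A = A' * M

omit [Fintype F] in
theorem stab_mul {M M' : Mx} (h : Stab M) (h' : Stab M') : Stab (M * M') := fun A hA => by
  obtain ⟨A', hA', e⟩ := h' A hA
  obtain ⟨A'', hA'', e'⟩ := h A' hA'
  exact ⟨A'', hA'', by rw [mul_assoc, e, ← mul_assoc, e', mul_assoc]⟩

variable (hF : Fintype.card F = 3 ^ 2)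
include hF

theorem nine_three : (3 : F) = 0 := by
  have h := FiniteField.cast_card_eq_zero F
  rw [hF] at h
  push_cast at h
  exact (pow_eq_zero_iff two_ne_zero).mp (show (3 : F) ^ 2 = 0 by linear_combination h)

theorem nine_two_ne : (2 : F) ≠ 0 := fun h => one_ne_zero (α := F) (by linear_combination (nine_three hF) - h)

theorem stab_mono {M : Mx} {σ : Equiv.Perm (Fin 4)} {a : Fin 4 → F} (hM : ∀ i j, M i j = if i = σ j then a j else 0)
    (ha : ∀ i, a i ^ 4 = 1) (hpr : (∏ i, a i) ^ 2 = 1) : Stab M := by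
  rintro A ⟨π, c, hc0, hsq, hprod, hA⟩
  obtain ⟨π', hπ'⟩ := perm_table σ π
  let c' : Fin 4 → F := fun k => a (σ.symm k) * c (σ.symm k) * a (tr4 π (σ.symm k)) ^ 3
  have h4 : ∀ i, c i ^ 4 = c 0 ^ 4 := fun i => by linear_combination (c i * c i + c 0 * c 0) * hsq i
  have hP : ∀ i, a i ^ 2 * a (tr4 π i) ^ 2 = a 0 ^ 2 * a (tr4 π 0) ^ 2 := by
    rw [Fin.prod_univ_four] at hpr
    have k0 := ha 0
    have k1 := ha 1
    have k2 := ha 2
    have k3 := ha 3
    intro i
    fin_cases π <;> fin_cases i <;> simp [tr4]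
    all_goals first
      | ring1
      | linear_combination k0 - k1 | linear_combination k1 - k0 | linear_combination k2 - k0 | linear_combination k3 - k0
      | linear_combination (a 0 ^ 2 * a 1 ^ 2) * hpr - (a 1 ^ 4 * a 2 ^ 2 * a 3 ^ 2) * k0 - (a 2 ^ 2 * a 3 ^ 2) * k1
      | linear_combination (a 0 ^ 2 * a 2 ^ 2) * hpr - (a 2 ^ 4 * a 1 ^ 2 * a 3 ^ 2) * k0 - (a 1 ^ 2 * a 3 ^ 2) * k2
      | linear_combination (a 0 ^ 2 * a 3 ^ 2) * hpr - (a 3 ^ 4 * a 1 ^ 2 * a 2 ^ 2) * k0 - (a 1 ^ 2 * a 2 ^ 2) * k3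
  refine ⟨Matrix.of fun k l => if l = tr4 π' k then c' k else 0, ⟨π', c', ?_, ?_, ?_, fun _ _ => rfl⟩, ?_⟩
  · intro h
    have := congrArg (fun x => x ^ 4) h
    simp only [c', mul_pow, ← pow_mul, ha, h4, one_mul, zero_pow (four_ne_zero : (4 : ℕ) ≠ 0)] at this
    rw [show 3 * 4 = 4 * 3 from rfl, pow_mul, ha, one_pow, mul_one] at this
    exact pow_ne_zero 4 hc0 this
  · have key : ∀ i, a i * c i * a (tr4 π i) ^ 3 * (a i * c i * a (tr4 π i) ^ 3) =
        c 0 * c 0 * (a 0 ^ 2 * a (tr4 π 0) ^ 2) := fun i => by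
      linear_combination (a i ^ 2 * a (tr4 π i) ^ 6) * hsq i + (c 0 * c 0 * a i ^ 2 * a (tr4 π i) ^ 2) * ha (tr4 π i) +
        (c 0 * c 0) * hP i
    intro k
    simp only [c']
    rw [key, key]
  · have h1 : (∏ k, c' k) = (∏ i, c i) * (∏ i, a i * a (tr4 π i) ^ 3) := by
      rw [← Finset.prod_mul_distrib, ← Equiv.prod_comp σ c']
      refine Finset.prod_congr rfl fun i _ => ?_
      simp only [c', Equiv.symm_apply_apply]
      ring
    have h2 : (∏ i, a i * a (tr4 π i) ^ 3) = 1 := by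
      have e : ∏ i, a (tr4 π i) ^ 3 = ∏ i, a i ^ 3 := by
        fin_cases π <;> simp [Fin.prod_univ_four, tr4] <;> ring
      rw [Finset.prod_mul_distrib, e, ← Finset.prod_mul_distrib]
      simp [← pow_succ', ha]
    rw [h1, h2, mul_one, hprod]
    simp only [c', mul_pow, ha, h4, one_mul, ← pow_mul]
    rw [show 3 * 4 = 4 * 3 from rfl, pow_mul, ha, one_pow, mul_one]
  · ext k j
    rw [Matrix.mul_apply, Matrix.mul_apply, Finset.sum_eq_single (σ.symm k), Finset.sum_eq_single (tr4 π' k)]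
    · obtain ⟨i, rfl⟩ := σ.surjective k
      rw [Equiv.symm_apply_apply, hM, if_pos rfl, hA, Matrix.of_apply, if_pos rfl, hM, hπ']
      simp only [c', Equiv.symm_apply_apply]
      by_cases hj : j = tr4 π i
      · subst hj
        rw [if_pos rfl, if_pos rfl]
        linear_combination (-(a i * c i)) * ha (tr4 π i)
      · rw [if_neg hj, if_neg (fun h => hj (σ.injective h).symm), mul_zero, mul_zero]
    · intro l _ hl
      rw [Matrix.of_apply, if_neg hl, zero_mul]
    · simp
    · intro l _ hl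
      rw [hM, if_neg (fun h => hl (by rw [h, Equiv.symm_apply_apply])), zero_mul]
    · simp

theorem stab_g {M : Mx} {z : F} (hM : M = z • gMat.map (Int.castRingHom F)) : Stab M := by
  rintro A ⟨π, c, hc0, hsq, hprod, hA⟩
  have hpm : ∀ i, c i = c 0 ∨ c i = -c 0 := fun i => mul_self_eq_mul_self_iff.mp (hsq i)
  classical
  let e : Fin 4 → Bool := fun i => decide (c i ≠ c 0)
  have hce : ∀ i, c i = c 0 * ((sgnOf (e i) : ℤ) : F) := fun i => by
    by_cases h : c i = c 0
    · simp [e, sgnOf, h]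
    · simp [e, sgnOf, h, (hpm i).resolve_left h]
  have hneg : ((-1 : ℤ) : F) ≠ 1 := by
    push_cast
    intro h
    exact nine_two_ne hF (by linear_combination -h)
  have he : (∏ i, sgnOf (e i)) = 1 := by
    have h1 : ((∏ i, sgnOf (e i) : ℤ) : F) = 1 := by
      rw [Fin.prod_univ_four] at hprod ⊢
      rw [hce 1, hce 2, hce 3] at hprod
      refine mul_left_cancel₀ (pow_ne_zero 4 hc0) ?_
      rw [mul_one]
      have h0 : ((sgnOf (e 0) : ℤ) : F) = 1 := by simp [e, sgnOf]
      push_cast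
      rw [h0]
      linear_combination hprod
    have h2 : ∀ b : Fin 4 → Bool, (∏ i, sgnOf (b i)) = 1 ∨ (∏ i, sgnOf (b i)) = -1 := by decide
    exact (h2 e).resolve_right fun h => hneg (by rw [← h, h1])
  obtain ⟨π', e', he', hg⟩ := gMat_table π e he
  have hAe : A = c 0 • (sgnMat π e).map (Int.castRingHom F) := by
    ext i j
    rw [hA, Matrix.smul_apply, Matrix.map_apply, sgnMat, Matrix.of_apply, smul_eq_mul]
    split_ifs
    · exact hce i
    · simp
  refine ⟨c 0 • (sgnMat π' e').map (Int.castRingHom F), ⟨π', fun i => c 0 * ((sgnOf (e' i) : ℤ) : F), ?_, ?_, ?_, ?_⟩, ?_⟩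
  · refine mul_ne_zero hc0 ?_
    cases e' 0 <;> simp [sgnOf]
  · intro i
    have h : ∀ b, ((sgnOf b : ℤ) : F) * ((sgnOf b : ℤ) : F) = 1 := fun b => by cases b <;> simp [sgnOf]
    linear_combination (c 0 * c 0) * h (e' i) - (c 0 * c 0) * h (e' 0)
  · have h4 : ((sgnOf (e' 0) : ℤ) : F) ^ 4 = 1 := by cases e' 0 <;> simp [sgnOf] <;> norm_num
    rw [Finset.prod_mul_distrib, Finset.prod_const, Finset.card_univ, Fintype.card_fin, mul_pow, h4, ← Int.cast_prod,
      he', Int.cast_one]
  · intro i j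
    rw [Matrix.smul_apply, Matrix.map_apply, sgnMat, Matrix.of_apply, smul_eq_mul]
    split_ifs <;> simp
  · rw [hM, hAe, Matrix.smul_mul, Matrix.mul_smul, Matrix.smul_mul, Matrix.mul_smul, ← Matrix.map_mul, hg,
      Matrix.map_mul]
    exact smul_comm _ _ _

/-- Over the field with nine elements the monomial group is not maximal. -/
theorem monomial_three {H : Subgroup (GL (Fin 4) F)}
    (hH : IsMaximalIn (Cfsg.GU 4 F 3 ⊓ specialLinear (Fin 4) F) H) {D : Fin 4 → Submodule F (Fin 4 → F)}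
    (hD : IsNondegenerateMDecomposition hh 1 D) (hle : H ≤ decompositionStabilizer D) : False := by
  classical
  have hgen : ∀ i, ∃ u ∈ D i, hh u u = 1 := fun i =>
    exists_unit hF (nonDeg_of_on hF (hD.nondegenerate i)) fun h => by
      have := hD.decomp.finrank_eq i
      rw [h, finrank_bot] at this
      omega
  choose u hu huu using hgen
  have huo : ∀ i j, hh (u i) (u j) = if i = j then 1 else 0 := fun i j => by
    split_ifs with h
    · subst h; exact huu i
    · exact hD.orthogonal i j h _ (hu i) _ (hu j)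
  have hline : ∀ i x, x ∈ D i → x = hh x (u i) • u i := fun i x hx => by
    have hu0 : (⟨u i, hu i⟩ : D i) ≠ 0 := fun h => by
      have := huu i
      rw [show u i = 0 from congrArg Subtype.val h, hh_zero_left hF] at this
      exact zero_ne_one this
    obtain ⟨c, hc⟩ := exists_smul_eq_of_finrank_eq_one (hD.decomp.finrank_eq i) hu0 ⟨x, hx⟩
    have e : c • u i = x := congrArg Subtype.val hc
    rw [← e, hh_smul_left hF, huu, mul_one]
  obtain ⟨U, hU, hUu⟩ := UnitaryEigenFrame.exists_mem_of_frame hF huo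
  have hUcol : ∀ j, (U : Mx) *ᵥ Pi.single j 1 = u j := fun j => funext fun i => by
    rw [Matrix.mulVec_single, MulOpposite.op_one, one_smul, Matrix.col_apply, hUu]
  let conjU : GL (Fin 4) F → Mx := fun g => ((U⁻¹ * g * U : GL (Fin 4) F) : Mx)
  have hcm : ∀ g h, conjU (g * h) = conjU g * conjU h := fun g h => by
    simp only [conjU, ← Units.val_mul]
    congr 1
    group
  have hone : Stab (1 : Mx) := fun A hA => ⟨A, hA, by rw [one_mul, mul_one]⟩
  -- elements of the monomial group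
  have hHstab : ∀ g ∈ H, Stab (conjU g) := by
    intro g hg
    obtain ⟨σ, hσ⟩ := hle hg
    have hgU := (hH.1.le hg).1
    have hgd : (g : Mx).det = 1 := mem_specialLinear_iff.mp (hH.1.le hg).2
    let a : Fin 4 → F := fun j => hh ((g : Mx) *ᵥ u j) (u (σ j))
    have hgu : ∀ j, (g : Mx) *ᵥ u j = a j • u (σ j) := fun j => hline _ _ (by
      rw [← hσ j]; exact ⟨u j, hu j, Matrix.toLin'_apply _ _⟩)
    have hM : ∀ i j, conjU g i j = if i = σ j then a j else 0 := fun i j => by
      have e : conjU g *ᵥ Pi.single j 1 = a j • Pi.single (σ j) 1 := by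
        show ((U⁻¹ * g * U : GL (Fin 4) F) : Mx) *ᵥ _ = _
        rw [Units.val_mul, Units.val_mul, ← Matrix.mulVec_mulVec, ← Matrix.mulVec_mulVec, hUcol, hgu, ← hUcol (σ j),
          Matrix.mulVec_smul, Matrix.mulVec_mulVec, Units.inv_mul, Matrix.one_mulVec]
      have := congrFun e i
      rw [Matrix.mulVec_single, MulOpposite.op_one, one_smul, Matrix.col_apply] at this
      rw [this, Pi.smul_apply, Pi.single_apply, smul_eq_mul]
      split_ifs <;> simp
    have ha4 : ∀ i, a i ^ 4 = 1 := fun i => by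
      have h := mem_GU_iff.1 hgU (u i) (u i)
      rw [hgu, hh_smul_left hF, hh_smul_right hF, huu, huu, mul_one] at h
      linear_combination h
    refine stab_mono hF hM ha4 ?_
    have hdet : (conjU g).det = 1 := by
      show ((U⁻¹ * g * U : GL (Fin 4) F) : Mx).det = 1
      rw [Units.val_mul, Units.val_mul, Matrix.det_units_conj', hgd]
    rw [Matrix.det_apply', Finset.sum_eq_single σ] at hdet
    · have hp : (∏ i, conjU g (σ i) i) = ∏ i, a i := Finset.prod_congr rfl fun i _ => by rw [hM, if_pos rfl]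
      rw [hp] at hdet
      rcases Int.units_eq_one_or (Equiv.Perm.sign σ) with h | h <;> rw [h] at hdet <;> push_cast at hdet
      · rw [one_mul] at hdet; rw [hdet, one_pow]
      · linear_combination (-1 * (∏ i, a i) + 1) * hdet
    · intro τ _ hτ
      obtain ⟨i, hi⟩ : ∃ i, τ i ≠ σ i := by
        by_contra hcon
        push_neg at hcon
        exact hτ (Equiv.ext hcon)
      rw [Finset.prod_eq_zero (Finset.mem_univ i) (by rw [hM, if_neg hi]), mul_zero]
    · simp
  obtain ⟨z, hz⟩ := exists_norm hF (-1 : F) (by rw [pow_neg_q hF, one_pow])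
  have hz4 : z ^ 4 = -1 := by linear_combination hz
  have hz0 : z ≠ 0 := fun h => by rw [h] at hz; simp at hz
  have h3 := nine_three hF
  -- lifting matrices into the special unitary group
  have hlift : ∀ M : Mx, (∀ x y, hh (M *ᵥ x) (M *ᵥ y) = hh x y) → M.det = 1 →
      ∃ g : GL (Fin 4) F, g ∈ Cfsg.GU 4 F 3 ⊓ specialLinear (Fin 4) F ∧ conjU g = M := by
    intro M hM hd
    let M' : GL (Fin 4) F := Matrix.GeneralLinearGroup.mkOfDetNeZero M (by rw [hd]; exact one_ne_zero)
    refine ⟨U * M' * U⁻¹, Subgroup.mem_inf.mpr ⟨(Cfsg.GU 4 F 3).mul_mem ((Cfsg.GU 4 F 3).mul_mem hU (mem_GU_iff.2 hM : M' ∈ Cfsg.GU 4 F 3)) ((Cfsg.GU 4 F 3).inv_mem hU), ?_⟩, ?_⟩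
    · exact conj_mem_specialLinear U (mem_specialLinear_iff.mpr hd)
    · show ((U⁻¹ * (U * M' * U⁻¹) * U : GL (Fin 4) F) : Mx) = M
      rw [show U⁻¹ * (U * M' * U⁻¹) * U = M' by group]
      rfl
  -- the element outside
  let G : Mx := z • gMat.map (Int.castRingHom F)
  have hGe : G = z • !![1, 1, 0, 0; 1, -1, 0, 0; 0, 0, 1, 1; 0, 0, -1, 1] := by
    show z • gMat.map _ = _
    congr 1
    ext i j
    fin_cases i <;> fin_cases j <;> simp [gMat]
  have hGU : ∀ x y, hh (G *ᵥ x) (G *ᵥ y) = hh x y := by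
    intro x y
    rw [hGe]
    simp only [Cfsg.hermForm, Fin.sum_univ_four, Matrix.mulVec, dotProduct, Matrix.smul_apply, smul_eq_mul,
      Matrix.of_apply, Matrix.cons_val', Matrix.cons_val_zero, Matrix.cons_val_one, Matrix.cons_val,
      Matrix.empty_val', Matrix.cons_val_fin_one, mul_zero, zero_mul, mul_one, add_zero, zero_add, mul_neg,
      neg_mul, pow_add_q hF, pow_neg_q hF, mul_pow]
    linear_combination (2 * (x 0 * y 0 ^ 3 + x 1 * y 1 ^ 3 + x 2 * y 2 ^ 3 + x 3 * y 3 ^ 3)) * hz -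
      (x 0 * y 0 ^ 3 + x 1 * y 1 ^ 3 + x 2 * y 2 ^ 3 + x 3 * y 3 ^ 3) * h3
  have hGd : G.det = 1 := by
    show (z • gMat.map (Int.castRingHom F)).det = 1
    rw [Matrix.det_smul, Fintype.card_fin, hz4]
    have e : (gMat.map (Int.castRingHom F)).det = ((gMat.det : ℤ) : F) := (RingHom.map_det (Int.castRingHom F) gMat).symm
    rw [e, show gMat.det = -4 by decide +kernel]
    push_cast
    linear_combination h3
  obtain ⟨g, hg, hgc⟩ := hlift G hGU hGd
  have hgstab : Stab (conjU g) := hgc ▸ stab_g hF rfl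
  let N : Subgroup (GL (Fin 4) F) := Subgroup.closure ((H : Set (GL (Fin 4) F)) ∪ {g})
  have hNle : N ≤ Cfsg.GU 4 F 3 ⊓ specialLinear (Fin 4) F := (Subgroup.closure_le _).mpr (by
    rintro x (hx | rfl)
    · exact hH.1.le hx
    · exact hg)
  have hNstab : ∀ x ∈ N, Stab (conjU x) := by
    intro x hx
    rw [← Subgroup.mem_toSubmonoid, Subgroup.closure_toSubmonoid_of_finite] at hx
    induction hx using Submonoid.closure_induction with
    | mem x hx =>
      rcases hx with hx | rfl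
      · exact hHstab x hx
      · exact hgstab
    | one =>
      rw [show conjU 1 = 1 by show ((U⁻¹ * 1 * U : GL (Fin 4) F) : Mx) = 1; rw [mul_one, inv_mul_cancel, Units.val_one]]
      exact hone
    | mul x y _ _ hx hy => rw [hcm]; exact stab_mul hx hy
  rcases hH.2 N (fun x hx => Subgroup.subset_closure (Or.inl hx)) hNle with hN | hN
  · -- the new element is monomial
    have hgH : g ∈ H := hN ▸ Subgroup.subset_closure (Or.inr rfl)
    obtain ⟨σ, hσ⟩ := hle hgH
    have hv : (g : Mx) *ᵥ u 0 ∈ D (σ 0) := by rw [← hσ 0]; exact ⟨u 0, hu 0, Matrix.toLin'_apply _ _⟩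
    have e : (g : Mx) *ᵥ u 0 = z • u 0 + z • u 1 := by
      rw [show g = U * (U⁻¹ * g * U) * U⁻¹ by group, Units.val_mul, Units.val_mul, ← Matrix.mulVec_mulVec,
        ← Matrix.mulVec_mulVec, ← hUcol 0, Matrix.mulVec_mulVec _ ((U⁻¹ : GL (Fin 4) F) : Mx), Units.inv_mul,
        Matrix.one_mulVec, show ((U⁻¹ * g * U : GL (Fin 4) F) : Mx) = G from hgc, hGe]
      have e2 : (z • !![(1 : F), 1, 0, 0; 1, -1, 0, 0; 0, 0, 1, 1; 0, 0, -1, 1]) *ᵥ Pi.single 0 1 =
          z • Pi.single 0 1 + z • Pi.single 1 1 := by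
        funext i
        fin_cases i <;> simp [Matrix.mulVec_single]
      rw [e2, Matrix.mulVec_add, Matrix.mulVec_smul, Matrix.mulVec_smul, hUcol, hUcol]
    rw [e] at hv
    have h1 : σ 0 = 0 := by
      by_contra h
      have := hD.orthogonal _ _ h _ hv _ (hu 0)
      rw [hh_add_left hF, hh_smul_left hF, hh_smul_left hF, huo, huo, if_pos rfl, if_neg (by decide), mul_one, mul_zero,
        add_zero] at this
      exact hz0 this
    have h2 : σ 0 = 1 := by
      by_contra h
      have := hD.orthogonal _ _ h _ hv _ (hu 1)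
      rw [hh_add_left hF, hh_smul_left hF, hh_smul_left hF, huo, huo, if_pos rfl, if_neg (by decide), mul_one, mul_zero,
        zero_add] at this
      exact hz0 this
    exact absurd (h1.symm.trans h2) (by decide)
  -- an element moving the translations
  let S : Mx := !![z, z, 0, 0; -(z ^ 3), z ^ 3, 0, 0; 0, 0, 1, 0; 0, 0, 0, 1]
  have hz9 : (z ^ 3) ^ 3 = z := by rw [← pow_mul]; linear_combination z * (z ^ 4 - 1) * hz4
  have hSU : ∀ x y, hh (S *ᵥ x) (S *ᵥ y) = hh x y := by
    intro x y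
    simp only [S, Cfsg.hermForm, Fin.sum_univ_four, Matrix.mulVec, dotProduct, Matrix.of_apply, Matrix.cons_val',
      Matrix.cons_val_zero, Matrix.cons_val_one, Matrix.cons_val, Matrix.empty_val', Matrix.cons_val_fin_one,
      mul_zero, zero_mul, mul_one, one_mul, add_zero, zero_add, neg_mul, pow_add_q hF, pow_neg_q hF, mul_pow, hz9]
    linear_combination (2 * (x 0 * y 0 ^ 3 + x 1 * y 1 ^ 3)) * hz - (x 0 * y 0 ^ 3 + x 1 * y 1 ^ 3) * h3
  have hSd : S.det = 1 := by
    simp [S, Matrix.det_succ_row_zero, Fin.sum_univ_succ, Fin.succAbove]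
    linear_combination 2 * hz4 - h3
  obtain ⟨x, hx, hxc⟩ := hlift S hSU hSd
  have hxN : x ∈ N := hN ▸ hx
  have hst : Stab S := hxc ▸ hNstab x hxN
  obtain ⟨A', ⟨π', c', hc0, -, -, hA'⟩, hAA⟩ := hst (Matrix.diagonal ![1, -1, 1, -1])
    ⟨0, ![1, -1, 1, -1], by simp, fun i => by fin_cases i <;> simp, by simp [Fin.prod_univ_four], fun i j => by
      fin_cases i <;> fin_cases j <;> simp [tr4]⟩
  have e22 := congrFun (congrFun hAA 2) 2
  have e00 := congrFun (congrFun hAA 0) 0
  have e01 := congrFun (congrFun hAA 0) 1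
  fin_cases π' <;> simp [S, Matrix.mul_apply, Fin.sum_univ_four, hA', tr4] at e22 e00 e01
  all_goals
    refine nine_two_ne hF ?_
    have h1 : c' 0 = 1 := mul_right_cancel₀ hz0 (by linear_combination -e00)
    exact (mul_eq_zero.1 (show (2 : F) * z = 0 by rw [h1] at e01; linear_combination -e01)).resolve_right hz0

end Cfsg.Agent.GeomClasses.MaxList.U4
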