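import Cfsg.Agent.GeomClasses.UnitaryBasic
import Cfsg.Agent.GeomClasses.UnitaryEigenFrame
import Cfsg.Agent.GeomClasses.TwoHalvesUnitary
import Cfsg.Agent.GeomClasses.SubfieldInUnitary
import Cfsg.Agent.GeomClasses.MaxList.NotContain

/-! # Small fields in the four-dimensional unitary groups -/

set_option autoImplicit false

namespace Cfsg.Agent.GeomClasses.MaxList.U4

open Matrix Cfsg.Geo Cfsg.Agent.GeomClasses.Unitary

variable {F : Type*} [Field F] [Fintype F] {q : ℕ}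

local notation "hh" => Cfsg.hermForm 4 F q
local notation "Mx" => Matrix (Fin 4) (Fin 4) F

section Halves

variable (hF : Fintype.card F = q ^ 2)
include hF

/-- A symplectic pair of totally isotropic planes carries a structure over the subfield of index two. -/
theorem halves_small (hq : q = 2 ∨ q = 3) {D : Fin 2 → Submodule F (Fin 4 → F)} (hD : IsMDecomposition 2 D)
    (hts : ∀ i, ∀ x ∈ D i, ∀ y ∈ D i, hh x y = 0) :
    ∃ (F₀ : Subfield F) (P : GL (Fin 4) F) (ζ : F), Fintype.card F = Nat.card F₀ ^ 2 ∧ ζ ≠ 0 ∧ ζ + ζ ^ q = 0 ∧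
      IsFormRationalStructure hh F₀ ζ P ∧
      (∀ u : Fin 4 → F, (∀ i, u i ∈ F₀) → hh ((P : Mx) *ᵥ u) ((P : Mx) *ᵥ u) = 0) ∧
      decompositionStabilizer D ⊓ (Cfsg.GU 4 F q ⊓ specialLinear (Fin 4) F) ≤ subfieldSubgroup F₀ P := by
  classical
  set F₀ := SubfieldSU.fixedField hF
  have hcard : Fintype.card F = Nat.card F₀ ^ 2 := by
    rw [hF]; congr 1
    exact (SubfieldSU.card_fixed hF).symm
  have hc := decomp_two_isCompl hD
  let b : Module.Basis (Fin 2) F (D 0) := Module.finBasisOfFinrankEq F (D 0) (hD.finrank_eq 0)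
  have hc' : ∀ i, ∃ d ∈ D 1, ∀ a : D 0, hh (a : Fin 4 → F) d = b.coord i a := fun i => exists_dual hF hc (hts 0) _
  choose c hcD hcv using hc'
  have hbc : ∀ i j, hh (b i : Fin 4 → F) (c j) = if i = j then 1 else 0 := fun i j => by
    rw [hcv, Module.Basis.coord_apply, Module.Basis.repr_self, Finsupp.single_apply]
  have hcb : ∀ i j, hh (c j) (b i : Fin 4 → F) = if i = j then 1 else 0 := fun i j => by
    rw [← hh_conj hF (b i : Fin 4 → F) (c j), hbc]
    split_ifs with h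
    · rw [one_pow]
    · exact zero_pow_q hF
  set b1 : Fin 4 → F := ((b 0 : D 0) : Fin 4 → F) with hb1
  set b2 : Fin 4 → F := ((b 1 : D 0) : Fin 4 → F) with hb2
  set f1 := c 0 with hf1
  set f2 := c 1 with hf2
  have h00 : ∀ x ∈ D 0, ∀ y ∈ D 0, hh x y = 0 := hts 0
  have h11 : ∀ x ∈ D 1, ∀ y ∈ D 1, hh x y = 0 := hts 1
  have t1 : hh b1 f1 = 1 := by rw [hb1, hf1, hbc]; simp
  have t2 : hh b1 f2 = 0 := by rw [hb1, hf2, hbc]; simp
  have t3 : hh b2 f1 = 0 := by rw [hb2, hf1, hbc]; simp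
  have t4 : hh b2 f2 = 1 := by rw [hb2, hf2, hbc]; simp
  have t5 : hh f1 b1 = 1 := by rw [hb1, hf1, hcb]; simp
  have t6 : hh f2 b1 = 0 := by rw [hb1, hf2, hcb]; simp
  have t7 : hh f1 b2 = 0 := by rw [hb2, hf1, hcb]; simp
  have t8 : hh f2 b2 = 1 := by rw [hb2, hf2, hcb]; simp
  have s1 : hh b1 b1 = 0 := h00 _ (b 0).2 _ (b 0).2
  have s2 : hh b1 b2 = 0 := h00 _ (b 0).2 _ (b 1).2
  have s3 : hh b2 b1 = 0 := h00 _ (b 1).2 _ (b 0).2
  have s4 : hh b2 b2 = 0 := h00 _ (b 1).2 _ (b 1).2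
  have s5 : hh f1 f1 = 0 := h11 _ (hcD 0) _ (hcD 0)
  have s6 : hh f1 f2 = 0 := h11 _ (hcD 0) _ (hcD 1)
  have s7 : hh f2 f1 = 0 := h11 _ (hcD 1) _ (hcD 0)
  have s8 : hh f2 f2 = 0 := h11 _ (hcD 1) _ (hcD 1)
  -- the expansion of a vector
  let v4 : Fin 2 ⊕ Fin 2 → (Fin 4 → F) := Sum.elim ![b1, b2] ![f1, f2]
  have hli : LinearIndependent F v4 := by
    rw [Fintype.linearIndependent_iff]
    intro a ha
    simp only [Fintype.sum_sum_type, Fin.sum_univ_two, v4, Sum.elim_inl, Sum.elim_inr, Matrix.cons_val_zero,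
      Matrix.cons_val_one] at ha
    have e1 := congrArg (fun x => hh x f1) ha
    have e2 := congrArg (fun x => hh x f2) ha
    have e3 := congrArg (fun x => hh x b1) ha
    have e4 := congrArg (fun x => hh x b2) ha
    simp only [hh_add_left hF, hh_smul_left hF, hh_zero_left hF, t1, t2, t3, t4, t5, t6, t7, t8, s1, s2, s3, s4,
      s5, s6, s7, s8, mul_one, mul_zero, add_zero, zero_add] at e1 e2 e3 e4
    rintro (i | i) <;> fin_cases i <;> assumption
  let B4 := basisOfLinearIndependentOfCardEqFinrank hli (by simp)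
  have hB4 : ∀ i, B4 i = v4 i := fun i => congrFun (coe_basisOfLinearIndependentOfCardEqFinrank hli _) i
  have hexp : ∀ w : Fin 4 → F, w = hh w f1 • b1 + hh w f2 • b2 + hh w b1 • f1 + hh w b2 • f2 := by
    intro w
    conv_lhs => rw [← B4.sum_repr w]
    have hw : w = ∑ i, B4.repr w i • v4 i := by
      conv_lhs => rw [← B4.sum_repr w]
      simp only [hB4]
    simp only [Fintype.sum_sum_type, Fin.sum_univ_two, hB4, v4, Sum.elim_inl, Sum.elim_inr, Matrix.cons_val_zero,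
      Matrix.cons_val_one] at hw ⊢
    generalize B4.repr w (Sum.inl 0) = a1, B4.repr w (Sum.inl 1) = a2, B4.repr w (Sum.inr 0) = a3,
      B4.repr w (Sum.inr 1) = a4 at hw ⊢
    subst hw
    simp only [hh_add_left hF, hh_smul_left hF, t1, t2, t3, t4, t5, t6, t7, t8, s1, s2, s3, s4,
      s5, s6, s7, s8, mul_one, mul_zero, add_zero, zero_add]
    abel
  -- the rational vectors
  let V : F → F → (Fin 4 → F) := fun x y => x • b1 + y • b2 + (y ^ q) • f1 + (-(x ^ q)) • f2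
  obtain ⟨ω, hω⟩ := exists_not_fixed hF
  let cols : Fin 4 → (Fin 4 → F) := ![V 1 0, V ω 0, V 0 1, V 0 ω]
  let PM : Mx := Matrix.of fun i j => cols j i
  have hmul : ∀ u : Fin 4 → F, PM *ᵥ u = u 0 • V 1 0 + u 1 • V ω 0 + u 2 • V 0 1 + u 3 • V 0 ω := fun u => by
    funext k
    simp [PM, cols, Matrix.mulVec, dotProduct, Fin.sum_univ_four]
    ring
  have h0q : (0 : F) ^ q = 0 := zero_pow_q hF
  have hdet : PM.det ≠ 0 := by
    intro h0
    obtain ⟨u, hu, hu'⟩ := Matrix.exists_mulVec_eq_zero_iff.2 h0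
    rw [hmul] at hu'
    have e1 := congrArg (fun x => hh x f1) hu'
    have e2 := congrArg (fun x => hh x f2) hu'
    have e3 := congrArg (fun x => hh x b1) hu'
    have e4 := congrArg (fun x => hh x b2) hu'
    simp only [V, hh_add_left hF, hh_smul_left hF, hh_zero_left hF, t1, t2, t3, t4, t5, t6, t7, t8, s1, s2, s3, s4,
      s5, s6, s7, s8, mul_one, mul_zero, add_zero, zero_add, one_pow, h0q, neg_zero] at e1 e2 e3 e4
    have hne : ω - ω ^ q ≠ 0 := sub_ne_zero.mpr (Ne.symm hω)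
    have a1 : u 1 = 0 := by
      refine (mul_eq_zero.1 (show u 1 * (ω - ω ^ q) = 0 from ?_)).resolve_right hne
      linear_combination e1 + e4
    have a3 : u 3 = 0 := by
      refine (mul_eq_zero.1 (show u 3 * (ω - ω ^ q) = 0 from ?_)).resolve_right hne
      linear_combination e2 - e3
    refine hu (funext fun i => ?_)
    fin_cases i
    · show u 0 = 0
      linear_combination e1 - ω * a1
    · exact a1
    · show u 2 = 0
      linear_combination e2 - ω * a3
    · exact a3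
  let P : GL (Fin 4) F := Matrix.GeneralLinearGroup.mkOfDetNeZero PM hdet
  have hPV : ∀ u : Fin 4 → F, (∀ i, u i ∈ F₀) → (P : Mx) *ᵥ u = V (u 0 + u 1 * ω) (u 2 + u 3 * ω) := by
    intro u hu
    have hfix : ∀ i, u i ^ q = u i := fun i => hu i
    show PM *ᵥ u = _
    rw [hmul]
    simp only [V, one_pow, h0q, neg_zero, zero_smul, add_zero, zero_add, pow_add_q hF, mul_pow, hfix]
    module
  have hgram : ∀ x y x' y', hh (V x y) (V x' y') = (x * y' - y * x') - (x * y' - y * x') ^ q := by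
    intro x y x' y'
    simp only [V, hh_add_left hF, hh_add_right hF, hh_smul_left hF, hh_smul_right hF, t1, t2, t3, t4, t5, t6, t7, t8,
      s1, s2, s3, s4, s5, s6, s7, s8, mul_one, mul_zero, add_zero, zero_add, pow_sub_q hF, mul_pow, pow_neg_q hF,
      pow_q_q hF]
    ring
  obtain ⟨τ, hτ0, hτ⟩ := exists_trace_zero hF
  have hτq : τ ^ q = -τ := by linear_combination hτ
  refine ⟨F₀, P, τ, hcard, hτ0, hτ, fun u v hu hv => ?_, fun u hu => ?_, ?_⟩
  · rw [hPV u hu, hPV v hv, hgram]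
    generalize (u 0 + u 1 * ω) * (v 2 + v 3 * ω) - (u 2 + u 3 * ω) * (v 0 + v 1 * ω) = t
    show (τ * (t - t ^ q)) ^ q = τ * (t - t ^ q)
    rw [mul_pow, pow_sub_q hF, pow_q_q hF, hτq]
    ring
  · rw [hPV u hu, hgram]
    have : (u 0 + u 1 * ω) * (u 2 + u 3 * ω) - (u 2 + u 3 * ω) * (u 0 + u 1 * ω) = 0 := by ring
    rw [this, h0q, sub_zero]
  -- membership
  have hmem : ∀ g : GL (Fin 4) F, (∃ l : F, l ≠ 0 ∧ ∀ x y, ∃ x' y', (g : Mx) *ᵥ V x y = l • V x' y') →
      g ∈ subfieldSubgroup F₀ P := by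
    rintro g ⟨l, hl, hg⟩
    rw [SubfieldScaled.mem_subfieldSubgroup_iff]
    refine SubfieldScaled.mem_sup_of_images F₀ _ fun v hv i j hj => ?_
    obtain ⟨x', y', hxy⟩ := hg (v 0 + v 1 * ω) (v 2 + v 3 * ω)
    have hdec : ∀ x : F, ∃ a a', a ∈ F₀ ∧ a' ∈ F₀ ∧ x = a + a' * ω := by
      intro x
      have hne : ω - ω ^ q ≠ 0 := sub_ne_zero.mpr (Ne.symm hω)
      have hA' : ((x - x ^ q) / (ω - ω ^ q)) ^ q = (x - x ^ q) / (ω - ω ^ q) := by
        rw [div_pow, pow_sub_q hF, pow_sub_q hF, pow_q_q hF, pow_q_q hF, ← neg_sub x, ← neg_sub ω, neg_div_neg_eq]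
      refine ⟨x - (x - x ^ q) / (ω - ω ^ q) * ω, (x - x ^ q) / (ω - ω ^ q), ?_, hA', by ring⟩
      show (x - (x - x ^ q) / (ω - ω ^ q) * ω) ^ q = x - (x - x ^ q) / (ω - ω ^ q) * ω
      rw [pow_sub_q hF, mul_pow, hA']
      linear_combination (-1 : F) * div_mul_cancel₀ (x - x ^ q) hne * 0 + div_mul_cancel₀ (x - x ^ q) hne
    obtain ⟨a, a', ha, ha', rfl⟩ := hdec x'
    obtain ⟨d, d', hd, hd', rfl⟩ := hdec y'
    have hw : ∀ k, ![a, a', d, d'] k ∈ F₀ := fun k => by fin_cases k <;> assumption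
    have e : ((P⁻¹ * g * P : GL (Fin 4) F) : Mx) *ᵥ v = l • ![a, a', d, d'] := by
      rw [Units.val_mul, Units.val_mul, ← Matrix.mulVec_mulVec, ← Matrix.mulVec_mulVec, hPV v hv, hxy]
      have h2 : (P : Mx) *ᵥ ![a, a', d, d'] = V (a + a' * ω) (d + d' * ω) := hPV _ hw
      rw [← h2, Matrix.mulVec_smul, Matrix.mulVec_mulVec, Units.inv_mul, Matrix.one_mulVec]
    rw [e] at hj ⊢
    simp only [Pi.smul_apply, smul_eq_mul] at hj ⊢
    rw [mul_div_mul_left _ _ hl]
    exact div_mem (hw i) (hw j)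
  have hpm : ∀ d : F, d ≠ 0 → d ^ q = d → d = 1 ∨ d = -1 := by
    intro d hd0 hd
    rcases hq with rfl | rfl
    · left
      exact (mul_eq_zero.1 (show d * (d - 1) = 0 by linear_combination hd)).resolve_left hd0 |> sub_eq_zero.1
    · have h := (mul_eq_zero.1 (show d * ((d - 1) * (d + 1)) = 0 by linear_combination hd)).resolve_left hd0
      rcases mul_eq_zero.1 h with h | h
      · exact Or.inl (sub_eq_zero.1 h)
      · exact Or.inr (eq_neg_of_add_eq_zero_left h)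
  -- block diagonal elements
  have hblock : ∀ g : GL (Fin 4) F, g ∈ Cfsg.GU 4 F q → (g : Mx).det = 1 → (∀ x ∈ D 0, (g : Mx) *ᵥ x ∈ D 0) →
      (∀ x ∈ D 1, (g : Mx) *ᵥ x ∈ D 1) → g ∈ subfieldSubgroup F₀ P := by
    intro g hgU hgd h0 h1
    have gi : ∀ u v, hh ((g : Mx) *ᵥ u) ((g : Mx) *ᵥ v) = hh u v := fun u v => mem_GU_iff.1 hgU u v
    have ex0 : ∀ x ∈ D 0, (g : Mx) *ᵥ x = hh ((g : Mx) *ᵥ x) f1 • b1 + hh ((g : Mx) *ᵥ x) f2 • b2 := fun x hx => by
      conv_lhs => rw [hexp ((g : Mx) *ᵥ x)]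
      rw [h00 _ (h0 x hx) b1 (b 0).2, h00 _ (h0 x hx) b2 (b 1).2, zero_smul, zero_smul, add_zero, add_zero]
    have ex1 : ∀ x ∈ D 1, (g : Mx) *ᵥ x = hh ((g : Mx) *ᵥ x) b1 • f1 + hh ((g : Mx) *ᵥ x) b2 • f2 := fun x hx => by
      conv_lhs => rw [hexp ((g : Mx) *ᵥ x)]
      rw [h11 _ (h1 x hx) f1 (hcD 0), h11 _ (h1 x hx) f2 (hcD 1), zero_smul, zero_smul, zero_add, zero_add]
    set a11 := hh ((g : Mx) *ᵥ b1) f1
    set a21 := hh ((g : Mx) *ᵥ b1) f2
    set a12 := hh ((g : Mx) *ᵥ b2) f1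
    set a22 := hh ((g : Mx) *ᵥ b2) f2
    set c11 := hh ((g : Mx) *ᵥ f1) b1
    set c21 := hh ((g : Mx) *ᵥ f1) b2
    set c12 := hh ((g : Mx) *ᵥ f2) b1
    set c22 := hh ((g : Mx) *ᵥ f2) b2
    have g1 : (g : Mx) *ᵥ b1 = a11 • b1 + a21 • b2 := ex0 _ (b 0).2
    have g2 : (g : Mx) *ᵥ b2 = a12 • b1 + a22 • b2 := ex0 _ (b 1).2
    have g3 : (g : Mx) *ᵥ f1 = c11 • f1 + c21 • f2 := ex1 _ (hcD 0)
    have g4 : (g : Mx) *ᵥ f2 = c12 • f1 + c22 • f2 := ex1 _ (hcD 1)
    have i11 := gi b1 f1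
    have i12 := gi b1 f2
    have i21 := gi b2 f1
    have i22 := gi b2 f2
    rw [g1, g3] at i11
    rw [g1, g4] at i12
    rw [g2, g3] at i21
    rw [g2, g4] at i22
    simp only [hh_add_left hF, hh_add_right hF, hh_smul_left hF, hh_smul_right hF, t1, t2, t3, t4, mul_one, mul_zero,
      add_zero, zero_add] at i11 i12 i21 i22
    have hdet4 : (g : Mx).det = (a11 * a22 - a12 * a21) * (c11 * c22 - c12 * c21) := by
      have r1 : B4.repr b1 = Finsupp.single (Sum.inl 0) 1 := by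
        rw [show b1 = B4 (Sum.inl 0) from (hB4 (Sum.inl 0)).symm, B4.repr_self]
      have r2 : B4.repr b2 = Finsupp.single (Sum.inl 1) 1 := by
        rw [show b2 = B4 (Sum.inl 1) from (hB4 (Sum.inl 1)).symm, B4.repr_self]
      have r3 : B4.repr f1 = Finsupp.single (Sum.inr 0) 1 := by
        rw [show f1 = B4 (Sum.inr 0) from (hB4 (Sum.inr 0)).symm, B4.repr_self]
      have r4 : B4.repr f2 = Finsupp.single (Sum.inr 1) 1 := by
        rw [show f2 = B4 (Sum.inr 1) from (hB4 (Sum.inr 1)).symm, B4.repr_self]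
      rw [← LinearMap.det_toLin', ← LinearMap.det_toMatrix B4]
      have hM : LinearMap.toMatrix B4 B4 (Matrix.toLin' (g : Mx)) =
          Matrix.fromBlocks !![a11, a12; a21, a22] 0 0 !![c11, c12; c21, c22] := by
        ext i j
        rw [LinearMap.toMatrix_apply, Matrix.toLin'_apply, hB4]
        rcases j with j | j <;> fin_cases j <;>
          simp only [v4, Sum.elim_inl, Sum.elim_inr, Fin.zero_eta, Fin.mk_one, Matrix.cons_val_zero,
            Matrix.cons_val_one, g1, g2, g3, g4, map_add, map_smul, r1, r2, r3, r4, Finsupp.add_apply,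
            Finsupp.smul_apply, smul_eq_mul, Finsupp.single_apply] <;>
          rcases i with i | i <;> fin_cases i <;> simp
      rw [hM, Matrix.det_fromBlocks_zero₂₁, Matrix.det_fin_two_of, Matrix.det_fin_two_of]
    set δ := a11 * a22 - a12 * a21 with hδ
    have hC : δ * (c11 * c22 - c12 * c21) = 1 := by rw [← hdet4, hgd]
    have hδ0 : δ ≠ 0 := fun h => by rw [h, zero_mul] at hC; exact zero_ne_one hC
    have hprod : δ * (c11 * c22 - c12 * c21) ^ q = 1 := by
      rw [hδ, pow_sub_q hF, mul_pow, mul_pow]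
      linear_combination (a12 * c12 ^ q + a22 * c22 ^ q) * i11 + i22 - (a12 * c11 ^ q + a22 * c21 ^ q) * i12
    have hδq : δ ^ q = δ := by
      have h1 : δ ^ q * (c11 * c22 - c12 * c21) ^ q = 1 := by rw [← mul_pow, hC, one_pow]
      exact mul_right_cancel₀ (fun h => by rw [h, mul_zero] at h1; exact zero_ne_one h1) (h1.trans hprod.symm)
    have k11 : δ * c11 ^ q = a22 := by linear_combination a22 * i11 - a21 * i21
    have k21 : δ * c21 ^ q = -a12 := by linear_combination (-a12) * i11 + a11 * i21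
    have k12 : δ * c12 ^ q = -a21 := by linear_combination a22 * i12 - a21 * i22
    have k22 : δ * c22 ^ q = a11 := by linear_combination (-a12) * i12 + a11 * i22
    have hδδ : δ * δ = 1 := by rcases hpm δ hδ0 hδq with h | h <;> rw [h] <;> ring
    have e11 : c11 = δ * a22 ^ q := by
      rw [← k11, mul_pow, pow_q_q hF, hδq, ← mul_assoc, hδδ, one_mul]
    have e21 : c21 = -(δ * a12 ^ q) := by
      rw [show a12 = -(δ * c21 ^ q) by rw [k21, neg_neg], pow_neg_q hF, mul_pow, pow_q_q hF, hδq, mul_neg, neg_neg,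
        ← mul_assoc, hδδ, one_mul]
    have e12 : c12 = -(δ * a21 ^ q) := by
      rw [show a21 = -(δ * c12 ^ q) by rw [k12, neg_neg], pow_neg_q hF, mul_pow, pow_q_q hF, hδq, mul_neg, neg_neg,
        ← mul_assoc, hδδ, one_mul]
    have e22 : c22 = δ * a11 ^ q := by
      rw [← k22, mul_pow, pow_q_q hF, hδq, ← mul_assoc, hδδ, one_mul]
    obtain ⟨l, hl, hlq⟩ : ∃ l : F, l ≠ 0 ∧ l = δ * l ^ q := by
      rcases hpm δ hδ0 hδq with h | h
      · exact ⟨1, one_ne_zero, by rw [h, one_pow, one_mul]⟩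
      · exact ⟨τ, hτ0, by rw [h, hτq]; ring⟩
    refine hmem g ⟨l, hl, fun x y => ⟨l⁻¹ * (a11 * x + a12 * y), l⁻¹ * (a21 * x + a22 * y), ?_⟩⟩
    have hlq0 : l ^ q ≠ 0 := pow_ne_zero _ hl
    have hli : l * (l⁻¹) ^ q = δ := by
      rw [inv_pow]
      field_simp
      linear_combination hlq
    simp only [V, Matrix.mulVec_add, Matrix.mulVec_smul, g1, g2, g3, g4, smul_add, smul_smul, mul_pow, pow_add_q hF,
      mul_neg, ← mul_assoc, hli, mul_inv_cancel₀ hl, one_mul]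
    rw [e11, e21, e12, e22]
    module
  -- the exchange
  let sL : (Fin 4 → F) →ₗ[F] (Fin 4 → F) := B4.constr F (v4 ∘ Sum.swap)
  let SM : Mx := LinearMap.toMatrix' sL
  have hSv : ∀ i, SM *ᵥ v4 i = v4 (Sum.swap i) := fun i => by
    show LinearMap.toMatrix' sL *ᵥ _ = _
    rw [LinearMap.toMatrix'_mulVec, ← hB4, Module.Basis.constr_basis]
    rfl
  have sb1 : SM *ᵥ b1 = f1 := hSv (Sum.inl 0)
  have sb2 : SM *ᵥ b2 = f2 := hSv (Sum.inl 1)
  have sf1 : SM *ᵥ f1 = b1 := hSv (Sum.inr 0)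
  have sf2 : SM *ᵥ f2 = b2 := hSv (Sum.inr 1)
  have hSdet : SM.det = 1 := by
    show (LinearMap.toMatrix' sL).det = 1
    rw [LinearMap.det_toMatrix', ← LinearMap.det_toMatrix B4]
    have hM : LinearMap.toMatrix B4 B4 sL = Equiv.Perm.permMatrix F (Equiv.sumComm (Fin 2) (Fin 2)) := by
      ext i j
      rw [LinearMap.toMatrix_apply, Module.Basis.constr_basis, Function.comp_apply, ← hB4, B4.repr_self,
        Finsupp.single_apply]
      rcases i with i | i <;> rcases j with j | j <;> fin_cases i <;> fin_cases j <;>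
        simp [Equiv.Perm.permMatrix, PEquiv.toMatrix_apply]
    rw [hM, Matrix.det_permutation,
      show Equiv.Perm.sign (Equiv.sumComm (Fin 2) (Fin 2) : Equiv.Perm (Fin 2 ⊕ Fin 2)) = 1 by decide]
    simp
  let S : GL (Fin 4) F := Matrix.GeneralLinearGroup.mkOfDetNeZero SM (by rw [hSdet]; exact one_ne_zero)
  have hSU : S ∈ Cfsg.GU 4 F q := mem_GU_iff.2 fun u v => by
    show hh (SM *ᵥ u) (SM *ᵥ v) = hh u v
    rw [hexp u, hexp v]
    simp only [Matrix.mulVec_add, Matrix.mulVec_smul, sb1, sb2, sf1, sf2, hh_add_left hF, hh_add_right hF,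
      hh_smul_left hF, hh_smul_right hF, t1, t2, t3, t4, t5, t6, t7, t8, s1, s2, s3, s4, s5, s6, s7, s8, mul_one,
      mul_zero, add_zero, zero_add]
    try ring
  have hSmem : S ∈ subfieldSubgroup F₀ P := hmem S ⟨τ, hτ0, fun x y => ⟨τ⁻¹ * y ^ q, τ⁻¹ * -(x ^ q), by
    show SM *ᵥ _ = _
    simp only [V, Matrix.mulVec_add, Matrix.mulVec_smul, sb1, sb2, sf1, sf2, mul_pow, inv_pow, hτq, pow_neg_q hF,
      pow_q_q hF, smul_add, smul_smul]
    field_simp
    module⟩⟩
  have hswap : ∀ {i : Fin 2} (_ : True), ∀ x ∈ D i, SM *ᵥ x ∈ D (Fin.rev i) := by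
    intro i _ x hx
    fin_cases i
    · rw [hexp x, h00 _ hx b1 (b 0).2, h00 _ hx b2 (b 1).2]
      simp only [zero_smul, add_zero, Matrix.mulVec_add, Matrix.mulVec_smul, sb1, sb2]
      exact add_mem (Submodule.smul_mem _ _ (hcD 0)) (Submodule.smul_mem _ _ (hcD 1))
    · rw [hexp x, h11 _ hx f1 (hcD 0), h11 _ hx f2 (hcD 1)]
      simp only [zero_smul, zero_add, Matrix.mulVec_add, Matrix.mulVec_smul, sf1, sf2]
      exact add_mem (Submodule.smul_mem _ _ (b 0).2) (Submodule.smul_mem _ _ (b 1).2)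
  rintro g ⟨⟨σ, hσ⟩, hgU, hgd⟩
  have hgd' : (g : Mx).det = 1 := mem_specialLinear_iff.mp hgd
  have hto : ∀ i, ∀ x ∈ D i, (g : Mx) *ᵥ x ∈ D (σ i) := fun i x hx => by
    rw [← hσ i]; exact ⟨x, hx, Matrix.toLin'_apply _ _⟩
  have hσc : σ = 1 ∨ σ = Equiv.swap 0 1 := (by decide : ∀ τ : Equiv.Perm (Fin 2), τ = 1 ∨ τ = Equiv.swap 0 1) σ
  rcases hσc with rfl | rfl
  · exact hblock g hgU hgd' (fun x hx => by simpa using hto 0 x hx) (fun x hx => by simpa using hto 1 x hx)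
  · have e : g = S⁻¹ * (S * g) := by group
    rw [e]
    refine mul_mem (inv_mem hSmem) (hblock _ (mul_mem hSU hgU) ?_ (fun x hx => ?_) fun x hx => ?_)
    · rw [Units.val_mul, Matrix.det_mul, hgd', mul_one]; exact hSdet
    · rw [Units.val_mul, ← Matrix.mulVec_mulVec]
      have := hto 0 x hx
      rw [Equiv.swap_apply_left] at this
      exact hswap (i := 1) trivial _ this
    · rw [Units.val_mul, ← Matrix.mulVec_mulVec]
      have := hto 1 x hx
      rw [Equiv.swap_apply_right] at this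
      exact hswap (i := 0) trivial _ this

end Halves

end Cfsg.Agent.GeomClasses.MaxList.U4
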