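import Cfsg.Agent.GeomClasses.MaxList.U6Mono

/-! # A subgroup of degree five over four elements containing a normaliser of order 55 -/

set_option autoImplicit false

namespace Cfsg.Agent.GeomClasses.MaxList

namespace Quad

open Matrix Cfsg.Geo Cfsg.Agent.Forms Cfsg.Agent.GeomClasses.Unitary
open scoped MatrixGroups

/-- Square matrices of size five with entries among four elements. -/
abbrev QMat := Fin 5 → Fin 5 → Fin 4

/-- The sum of five entries. -/
def qsum5 (a : Fin 5 → Fin 4) : Fin 4 := qadd (a 0) (qadd (a 1) (qadd (a 2) (qadd (a 3) (a 4))))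

/-- Product of a matrix and a vector. -/
def qmv (A : QMat) (x : Fin 5 → Fin 4) : Fin 5 → Fin 4 := fun i => qsum5 fun j => qmul (A i j) (x j)

/-- Product of matrices. -/
def qmm (A B : QMat) : QMat := fun i j => qsum5 fun k => qmul (A i k) (B k j)

/-- The identity matrix. -/
def qone : QMat := fun i j => if i = j then 1 else 0

/-- Conjugate transpose. -/
def qadj (A : QMat) : QMat := fun i j => qmul (A j i) (A j i)

/-- Powers of a matrix. -/
def qpow (A : QMat) : ℕ → QMat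
  | 0 => qone
  | k + 1 => qmm (qpow A k) A

def qx : QMat := ![![1, 3, 2, 1, 1], ![0, 0, 3, 3, 1], ![3, 0, 2, 2, 0], ![0, 3, 3, 3, 0], ![2, 1, 2, 3, 2]]

def qy : QMat := ![![3, 1, 0, 0, 3], ![0, 1, 0, 2, 3], ![0, 0, 1, 0, 0], ![1, 0, 0, 3, 1], ![3, 1, 0, 2, 0]]

def qw : QMat := ![![0, 0, 3, 2, 3], ![0, 0, 1, 1, 3], ![2, 1, 1, 2, 2], ![3, 1, 3, 1, 1], ![2, 2, 3, 1, 1]]

def qt : QMat := ![![1, 0, 0, 0, 0], ![0, 1, 0, 0, 0], ![0, 0, 1, 0, 0], ![0, 0, 0, 0, 1], ![0, 0, 0, 1, 0]]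

def qlines : List (Fin 5 → Fin 4) :=
  [![0, 0, 0, 1, 0],
   ![0, 0, 1, 1, 1],
   ![0, 0, 1, 2, 1],
   ![0, 0, 1, 2, 3],
   ![0, 0, 1, 3, 1],
   ![0, 0, 1, 3, 3],
   ![0, 1, 0, 2, 1],
   ![0, 1, 0, 2, 3],
   ![0, 1, 1, 0, 2],
   ![0, 1, 1, 1, 0],
   ![0, 1, 2, 1, 0],
   ![0, 1, 3, 0, 1],
   ![1, 0, 0, 0, 0],
   ![1, 0, 0, 2, 1],
   ![1, 0, 0, 3, 3],
   ![1, 0, 1, 0, 3],
   ![1, 0, 1, 1, 0],
   ![1, 0, 2, 0, 1],
   ![1, 0, 2, 0, 2],
   ![1, 0, 2, 3, 0],
   ![1, 0, 3, 0, 2],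
   ![1, 0, 3, 0, 3],
   ![1, 1, 1, 1, 3],
   ![1, 1, 1, 2, 3],
   ![1, 1, 2, 1, 1],
   ![1, 1, 2, 1, 3],
   ![1, 1, 2, 2, 1],
   ![1, 1, 2, 2, 3],
   ![1, 1, 2, 3, 3],
   ![1, 2, 0, 3, 0],
   ![1, 2, 1, 0, 0],
   ![1, 2, 1, 1, 1],
   ![1, 2, 1, 2, 3],
   ![1, 2, 2, 2, 2],
   ![1, 2, 2, 3, 1],
   ![1, 2, 2, 3, 3],
   ![1, 2, 3, 0, 0],
   ![1, 2, 3, 1, 1],
   ![1, 2, 3, 1, 3],
   ![1, 2, 3, 2, 2],
   ![1, 2, 3, 2, 3],
   ![1, 2, 3, 3, 3],
   ![1, 3, 0, 0, 1],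
   ![1, 3, 0, 0, 2],
   ![1, 3, 0, 3, 0],
   ![1, 3, 1, 2, 1],
   ![1, 3, 1, 2, 2],
   ![1, 3, 1, 3, 3],
   ![1, 3, 2, 1, 1],
   ![1, 3, 2, 1, 2],
   ![1, 3, 2, 2, 2],
   ![1, 3, 2, 3, 2],
   ![1, 3, 2, 3, 3],
   ![1, 3, 3, 1, 2],
   ![1, 3, 3, 1, 3]]

/-- The matrix permutes the chosen lines. -/
def qkeeps (A : QMat) : Bool :=
  qlines.all fun l => qlines.any fun l' => [1, 2, 3].any fun k : Fin 4 =>
    (List.finRange 5).all fun i => qmv A l i == qmul k (l' i)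

theorem qchecks : qpow qx 11 = qone ∧ qpow qy 5 = qone ∧ qmm qw qw = qone ∧ qmm qt qt = qone ∧
    qmm (qadj qx) qx = qone ∧ qmm (qadj qy) qy = qone ∧ qmm (qadj qw) qw = qone ∧ qmm (qadj qt) qt = qone ∧
    qmm qy qx = qmm (qpow qx 3) qy ∧ (∀ i : Fin 11, qmm qw qx ≠ qmm (qpow qx i.val) qw) ∧ qx ≠ qone ∧ qy ≠ qone := by
  decide +kernel

theorem qkept : qkeeps qx = true ∧ qkeeps qy = true ∧ qkeeps qw = true := by decide +kernel

theorem qmoved : ∀ k : Fin 4, ∀ l ∈ qlines, qmv qt ![0, 0, 0, 1, 0] ≠ fun i => qmul k (l i) := by decide +kernel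

theorem qfirst : (![0, 0, 0, 1, 0] : Fin 5 → Fin 4) ∈ qlines := by decide +kernel

variable {F : Type*} [Field F] [Fintype F]

/-- The preserved set of vectors. -/
def QSet (ω : F) (x : Fin 5 → F) : Prop := ∃ l ∈ qlines, ∃ k : Fin 4, k ≠ 0 ∧ x = fun i => emb ω (qmul k (l i))

/-- The stabiliser of the preserved set. -/
def qStab (ω : F) : Subgroup (GL (Fin 5) F) where
  carrier := {g | ∀ x, QSet ω x → QSet ω ((g : Matrix (Fin 5) (Fin 5) F) *ᵥ x)}
  mul_mem' := fun {g g'} h h' x hx => by rw [Units.val_mul, ← Matrix.mulVec_mulVec]; exact h _ (h' x hx)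
  one_mem' := fun x hx => by rwa [Units.val_one, Matrix.one_mulVec]
  inv_mem' := fun {g} h x hx => by
    have hpow : ∀ (k : ℕ) x, QSet ω x → QSet ω (((g ^ k : GL (Fin 5) F) : Matrix (Fin 5) (Fin 5) F) *ᵥ x) := by
      intro k
      induction k with
      | zero => intro x hx; rwa [pow_zero, Units.val_one, Matrix.one_mulVec]
      | succ k ih => intro x hx; rw [pow_succ, Units.val_mul, ← Matrix.mulVec_mulVec]; exact ih _ (h x hx)
    have hinv : g ^ (orderOf g - 1) = g⁻¹ := by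
      refine eq_inv_of_mul_eq_one_left ?_
      rw [← pow_succ, Nat.sub_add_cancel (orderOf_pos g), pow_orderOf_eq_one]
    exact hinv ▸ hpow _ x hx

/-- The matrix over the field. -/
def toMat (ω : F) (A : QMat) : Matrix (Fin 5) (Fin 5) F := Matrix.of fun i j => emb ω (A i j)

/-- A group with a normaliser of order 55 inside a proper overgroup. -/
theorem certificate (hF : Fintype.card F = 2 ^ 2) :
    let S := Cfsg.GU 5 F 2 ⊓ specialLinear (Fin 5) F
    ∃ (X : Subgroup (GL (Fin 5) F)) (x y w t : GL (Fin 5) F), x ∈ X ⊓ S ∧ y ∈ X ⊓ S ∧ w ∈ X ⊓ S ∧ t ∈ S ∧ t ∉ X ∧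
      orderOf x = 11 ∧ orderOf y = 5 ∧ y * x * y⁻¹ = x ^ 3 ∧ w * x * w⁻¹ ∉ Subgroup.zpowers x := by
  classical
  intro S
  obtain ⟨ω, -, hadd, hmul, hbij⟩ := exists_omega hF
  have hmm : ∀ A B, toMat ω (qmm A B) = toMat ω A * toMat ω B := fun A B => by
    ext i j
    simp only [toMat, Matrix.of_apply, qmm, qsum5, hadd, hmul, Matrix.mul_apply, Fin.sum_univ_five]
    ring
  have hone : toMat ω qone = 1 := by
    ext i j
    simp only [toMat, Matrix.of_apply, qone, Matrix.one_apply]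
    split_ifs <;> rfl
  have hmv : ∀ A (v : Fin 5 → Fin 4), toMat ω A *ᵥ (fun i => emb ω (v i)) = fun i => emb ω (qmv A v i) := fun A v => by
    funext i
    simp only [toMat, Matrix.mulVec, dotProduct, Matrix.of_apply, qmv, qsum5, hadd, hmul, Fin.sum_univ_five]
    ring
  have hpow : ∀ A k, toMat ω (qpow A k) = toMat ω A ^ k := fun A k => by
    induction k with
    | zero => rw [qpow, hone, pow_zero]
    | succ k ih => rw [qpow, hmm, ih, pow_succ]
  have hinj : ∀ A B, toMat ω A = toMat ω B → A = B := fun A B h =>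
    funext fun i => funext fun j => hbij.1 (congrFun (congrFun h i) j)
  have hmem : ∀ (A : QMat) (g : GL (Fin 5) F) (m : ℕ), (g : Matrix (Fin 5) (Fin 5) F) = toMat ω A →
      qmm (qadj A) A = qone → g ^ m = 1 → Nat.Coprime m 3 → g ∈ S := by
    intro A g m hg hadj hgm hco
    refine ⟨mem_GU_iff.mpr fun u v => ?_, mem_specialLinear_iff.mpr ?_⟩
    · have h1 : (toMat ω A)ᵀ.map (· ^ 2) * toMat ω A = 1 := by
        rw [← hone, ← hadj, hmm]
        congr 1
        ext i j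
        simp only [toMat, Matrix.of_apply, Matrix.map_apply, Matrix.transpose_apply, qadj, hmul]
        ring
      rw [hg]
      have h2 : ∀ w : Fin 5 → F, (fun i => (toMat ω A *ᵥ w) i ^ 2) = (toMat ω A).map (· ^ 2) *ᵥ fun i => w i ^ 2 := fun w => by
        funext i
        simp only [Matrix.mulVec, dotProduct, Matrix.map_apply]
        rw [show ∀ z : F, z ^ 2 = frobQ hF z from fun z => rfl, map_sum]
        exact Finset.sum_congr rfl fun j _ => map_mul (frobQ hF) _ _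
      rw [← dot_conj (toMat ω A *ᵥ u), ← dot_conj u v, h2]
      have h4 : ((toMat ω A).map (· ^ 2))ᵀ * toMat ω A = 1 := by rw [← Matrix.transpose_map]; exact h1
      rw [← Matrix.vecMul_transpose, ← Matrix.dotProduct_mulVec, Matrix.mulVec_mulVec, h4, Matrix.one_mulVec]
    · set d := (g : Matrix (Fin 5) (Fin 5) F).det
      have hd0 : d ≠ 0 := fun h => by
        have := congrArg Matrix.det (Units.mul_inv g)
        rw [Matrix.det_mul, show (g : Matrix (Fin 5) (Fin 5) F).det = 0 from h, zero_mul, Matrix.det_one] at this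
        exact zero_ne_one this
      have h3 : d ^ 3 = 1 := by
        have := FiniteField.pow_card_sub_one_eq_one d hd0
        rwa [hF] at this
      have hm : d ^ m = 1 := by rw [← Matrix.det_pow, ← Units.val_pow_eq_pow_val, hgm, Units.val_one, Matrix.det_one]
      rw [← pow_one d, ← hco.gcd_eq_one]
      exact pow_gcd_eq_one.mpr ⟨hm, h3⟩
  have hkeep : ∀ (A : QMat) (g : GL (Fin 5) F), (g : Matrix (Fin 5) (Fin 5) F) = toMat ω A → qkeeps A = true →
      g ∈ qStab ω := by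
    intro A g hg hA x ⟨l, hl, k, hk, hx⟩
    rw [qkeeps, List.all_eq_true] at hA
    have h1 := hA l hl
    simp only [List.any_eq_true, List.all_eq_true, beq_iff_eq] at h1
    obtain ⟨l', hl', k', hk', h2⟩ := h1
    refine ⟨l', hl', qmul k k', ?_, ?_⟩
    · have hk0 : k' ≠ 0 := by intro h; subst h; simp at hk'
      exact (by decide : ∀ a b : Fin 4, a ≠ 0 → b ≠ 0 → qmul a b ≠ 0) k k' hk hk0
    · subst hx
      rw [hg]
      have h3 : (fun i => emb ω (qmul k (l i))) = emb ω k • fun i => emb ω (l i) :=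
        funext fun i => by rw [hmul]; rfl
      rw [h3, Matrix.mulVec_smul, hmv]
      funext i
      rw [Pi.smul_apply, smul_eq_mul, h2 i (List.mem_finRange i), hmul, hmul, hmul, mul_assoc]
  obtain ⟨hx, hy, hw, ht, hxa, hya, hwa, hta, hyx, hwx, hx1, hy1⟩ := qchecks
  have mk : ∀ A m, 0 < m → qpow A m = qone → ∃ g : GL (Fin 5) F, (g : Matrix (Fin 5) (Fin 5) F) = toMat ω A ∧ g ^ m = 1 := by
    intro A m hm h
    have h' : toMat ω A ^ m = 1 := by rw [← hpow, h, hone]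
    exact ⟨Units.ofPowEqOne _ m h' hm.ne', rfl, Units.pow_ofPowEqOne h' hm.ne'⟩
  obtain ⟨x, hxv, hxm⟩ := mk qx 11 (by norm_num) hx
  obtain ⟨y, hyv, hym⟩ := mk qy 5 (by norm_num) hy
  have hsq : ∀ A, qmm A A = qone → qpow A 2 = qone := fun A h => hinj _ _ (by
    rw [hpow, pow_two, ← hmm, h])
  obtain ⟨w, hwv, hwm⟩ := mk qw 2 two_pos (hsq _ hw)
  obtain ⟨t, htv, htm⟩ := mk qt 2 two_pos (hsq _ ht)
  have hord : ∀ (p : ℕ) (A : QMat) (g : GL (Fin 5) F), p.Prime → (g : Matrix (Fin 5) (Fin 5) F) = toMat ω A →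
      A ≠ qone → g ^ p = 1 → orderOf g = p := fun p A g hp hg hA h =>
    haveI := Fact.mk hp
    orderOf_eq_prime h fun h1 => hA (hinj _ _ (by rw [← hg, h1, hone]; rfl))
  refine ⟨qStab ω, x, y, w, t, ⟨hkeep _ _ hxv qkept.1, hmem _ _ _ hxv hxa hxm (by norm_num)⟩,
    ⟨hkeep _ _ hyv qkept.2.1, hmem _ _ _ hyv hya hym (by norm_num)⟩,
    ⟨hkeep _ _ hwv qkept.2.2, hmem _ _ _ hwv hwa hwm (by norm_num)⟩, hmem _ _ _ htv hta htm (by norm_num),
    fun h => ?_, hord 11 _ x (by norm_num) hxv hx1 hxm, hord 5 _ y (by norm_num) hyv hy1 hym, ?_, fun h => ?_⟩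
  · obtain ⟨l, hl, k, -, he⟩ := h _ ⟨_, qfirst, 1, by decide, rfl⟩
    rw [htv, hmv] at he
    refine qmoved k l hl (funext fun i => hbij.1 (?_ : emb ω _ = emb ω _))
    rw [← congrFun he i]
    exact congrArg _ (congrArg (fun v => qmv qt v i) (funext fun j => (by decide : ∀ a : Fin 4, a = qmul 1 a) _))
  · rw [mul_inv_eq_iff_eq_mul]
    refine Units.ext ?_
    rw [Units.val_mul, Units.val_mul, Units.val_pow_eq_pow_val, hxv, hyv, ← hmm, ← hpow, ← hmm, hyx]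
  · rw [← mem_powers_iff_mem_zpowers] at h
    obtain ⟨k, hk⟩ := h
    simp only at hk
    rw [← pow_mod_orderOf, hord 11 _ x (by norm_num) hxv hx1 hxm, eq_mul_inv_iff_mul_eq] at hk
    refine hwx ⟨k % 11, Nat.mod_lt _ (by norm_num)⟩ (hinj _ _ ?_)
    have h1 := congrArg Units.val hk
    rw [Units.val_mul, Units.val_mul, Units.val_pow_eq_pow_val, hxv, hwv, ← hmm, ← hpow, ← hmm] at h1
    exact h1.symm

end Quad

end Cfsg.Agent.GeomClasses.MaxList
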