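import Cfsg.Agent.GeomClasses.MaxList.U5Field
import Cfsg.Agent.GeomClasses.MaxList.U5Small

/-! # Field normalisers of degree five over four elements are not maximal -/

set_option autoImplicit false

namespace Cfsg.Agent.GeomClasses.MaxList

open Matrix Cfsg.Geo Cfsg.Agent.Forms Cfsg.Agent.GeomClasses.Unitary
open scoped MatrixGroups Pointwise

/-- Two subgroups of order 11 in a group whose order is not a multiple of 121 are conjugate. -/
theorem exists_conj_eleven {G : Type*} [Group G] [Finite G] (h : ¬ 11 ^ 2 ∣ Nat.card G) {x z : G}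
    (hx : orderOf x = 11) (hz : orderOf z = 11) : ∃ g : G, g * x * g⁻¹ ∈ Subgroup.zpowers z := by
  haveI : Fact (Nat.Prime 11) := ⟨by norm_num⟩
  have hp : ∀ y : G, orderOf y = 11 → IsPGroup 11 (Subgroup.zpowers y) := fun y hy =>
    IsPGroup.of_card (n := 1) (by rw [Nat.card_zpowers, hy, pow_one])
  have heq : ∀ y : G, orderOf y = 11 → ∃ P : Sylow 11 G, (P : Subgroup G) = Subgroup.zpowers y := fun y hy => by
    obtain ⟨P, hP⟩ := (hp y hy).exists_le_sylow
    refine ⟨P, (Subgroup.eq_of_le_of_card_ge hP ?_).symm⟩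
    obtain ⟨k, hk⟩ := IsPGroup.iff_card.mp P.isPGroup'
    have hd : 11 ^ k ∣ Nat.card G := hk ▸ Subgroup.card_subgroup_dvd_card _
    rw [Nat.card_zpowers, hy]
    show Nat.card (P : Subgroup G) ≤ 11
    rw [hk]
    rcases Nat.lt_or_ge k 2 with hk2 | hk2
    · exact le_trans (Nat.pow_le_pow_right (by norm_num) (by omega : k ≤ 1)) (by norm_num)
    · exact absurd ((pow_dvd_pow 11 hk2).trans hd) h
  obtain ⟨P, hP⟩ := heq x hx
  obtain ⟨Q, hQ⟩ := heq z hz
  obtain ⟨g, hg⟩ := MulAction.exists_smul_eq G P Q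
  refine ⟨g, ?_⟩
  rw [← hQ, ← hg, Sylow.coe_subgroup_smul, hP, Subgroup.mem_pointwise_smul_iff_inv_smul_mem]
  show (MulAut.conj g)⁻¹ (g * x * g⁻¹) ∈ _
  simp [mul_assoc]

variable {F : Type*} [Field F] [Fintype F]

local notation "hh" => Cfsg.hermForm 5 F 2
local notation "SU5" => (Cfsg.GU 5 F 2 ⊓ specialLinear (Fin 5) F)

theorem u5_field_excl (hF : Fintype.card F = 2 ^ 2) {H : Subgroup (GL (Fin 5) F)} (hH : IsMaximalIn SU5 H)
    {K : Subalgebra F (Matrix (Fin 5) (Fin 5) F)} (hK : IsFieldSubalgebra 5 K) (hadj : IsAdjointClosedFor hh K)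
    (hle : H ≤ subalgebraNormalizer K) : False := by
  classical
  obtain ⟨z, hzS, hzo, hzK, hnorm, hcard⟩ := u5_field_two hF hK hadj
  obtain ⟨X, x, y, w, t, hx, hy, hw, ht, htX, hxo, hyo, hyx, hwx⟩ := Quad.certificate hF
  have hHeq : H = subalgebraNormalizer K ⊓ SU5 := eq_of_le hH hle (u_field_proper hF (by norm_num) (by norm_num) hK)
  have hdvd : ¬ 11 ^ 2 ∣ Nat.card ↥SU5 := fun h => by
    have h1 := h.trans (Subgroup.card_dvd_of_le (inf_le_left : SU5 ≤ Cfsg.GU 5 F 2))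
    rw [card_GU hF] at h1
    norm_num [Finset.prod_range_succ, Nat.even_iff] at h1
  have hxo' : orderOf (⟨x, hx.2⟩ : ↥SU5) = 11 := by rw [Subgroup.orderOf_mk]; exact hxo
  have hzo' : orderOf (⟨z, hzS⟩ : ↥SU5) = 11 := by rw [Subgroup.orderOf_mk]; exact hzo
  obtain ⟨⟨g, hg⟩, hgx⟩ := exists_conj_eleven hdvd hxo' hzo'
  have hgx' : MulAut.conj g x ∈ Subgroup.zpowers z := by
    obtain ⟨k, hk⟩ := hgx
    exact ⟨k, congrArg Subtype.val hk⟩
  set x' := MulAut.conj g x with hx'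
  have hx'o : orderOf x' = 11 := by
    rw [hx']; exact (orderOf_injective (MulAut.conj g).toMonoidHom (MulAut.conj g).injective x).trans hxo
  have hzx : Subgroup.zpowers x' = Subgroup.zpowers z :=
    Subgroup.eq_of_le_of_card_ge (Subgroup.zpowers_le.mpr hgx') (by rw [Nat.card_zpowers, Nat.card_zpowers, hx'o, hzo])
  set N := Subgroup.normalizer ((Subgroup.zpowers z : Subgroup (GL (Fin 5) F)) : Set (GL (Fin 5) F)) ⊓ SU5
  have hmemN : ∀ a ∈ SU5, a * z * a⁻¹ ∈ Subgroup.zpowers z → a ∈ N := by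
    intro a ha haz
    refine ⟨?_, ha⟩
    have hle' : (Subgroup.zpowers z).map (MulAut.conj a).toMonoidHom ≤ Subgroup.zpowers z := by
      rw [MonoidHom.map_zpowers, Subgroup.zpowers_le]; exact haz
    have heq' : (Subgroup.zpowers z).map (MulAut.conj a).toMonoidHom = Subgroup.zpowers z :=
      Subgroup.eq_of_le_of_card_ge hle' (by rw [Subgroup.card_map_of_injective (MulAut.conj a).injective])
    refine Subgroup.mem_normalizer_iff.mpr fun b => ?_
    constructor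
    · intro hb; exact heq' ▸ Subgroup.mem_map_of_mem _ hb
    · intro hb
      obtain ⟨c, hc, hcb⟩ : a * b * a⁻¹ ∈ (Subgroup.zpowers z).map (MulAut.conj a).toMonoidHom := by rwa [heq']
      rwa [← (MulAut.conj a).injective hcb]
  have hHN : H ≤ N := fun a ha => by
    rw [hHeq] at ha
    exact hmemN a ha.2 (hnorm a ha)
  have hgmem : ∀ a ∈ SU5, MulAut.conj g a ∈ SU5 := fun a ha =>
    mul_mem (mul_mem hg ha) (inv_mem hg)
  have hw' : MulAut.conj g w ∉ N := fun h => by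
    have h1 := (Subgroup.mem_normalizer_iff.mp h.1 x').mp (hzx ▸ Subgroup.mem_zpowers x')
    rw [← hzx, hx'] at h1
    rw [← map_mul, ← map_inv, ← map_mul, show MulAut.conj g x = (MulAut.conj g).toMonoidHom x from rfl,
      ← MonoidHom.map_zpowers] at h1
    obtain ⟨c, hc, hcw⟩ := h1
    exact hwx ((MulAut.conj g).injective hcw ▸ hc)
  rcases hH.2 N hHN inf_le_right with hN | hN
  swap
  · exact hw' (hN ▸ hgmem w hw.2)
  have hy' : MulAut.conj g y ∈ H := hN ▸ hmemN _ (hgmem y hy.2) (by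
    obtain ⟨k, hk⟩ := (hzx ▸ Subgroup.mem_zpowers z : z ∈ Subgroup.zpowers x')
    simp only at hk
    rw [← hzx, ← hk, ← conj_zpow, hx', ← map_inv, ← map_mul, ← map_mul, hyx, map_pow]
    exact zpow_mem (pow_mem (Subgroup.mem_zpowers _) 3) k)
  have hx'H : x' ∈ H := hN ▸ hmemN _ (hgmem x hx.2) (by
    obtain ⟨k, hk⟩ := hgx'
    simp only at hk
    rw [← hk]
    exact mul_mem (mul_mem ⟨k, rfl⟩ (Subgroup.mem_zpowers z)) (inv_mem ⟨k, rfl⟩))
  set M := X.map (MulAut.conj g).toMonoidHom ⊓ SU5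
  have hxM : x' ∈ H ⊓ M := ⟨hx'H, ⟨x, hx.1, rfl⟩, hgmem x hx.2⟩
  have hyM : MulAut.conj g y ∈ H ⊓ M := ⟨hy', ⟨y, hy.1, rfl⟩, hgmem y hy.2⟩
  have hHM : H ≤ M := by
    have h11 : 11 ∣ Nat.card ↥(H ⊓ M) := hx'o ▸ Subgroup.orderOf_dvd_natCard _ hxM
    have h5 : 5 ∣ Nat.card ↥(H ⊓ M) := by
      have := Subgroup.orderOf_dvd_natCard _ hyM
      rwa [show orderOf (MulAut.conj g y) = 5 from
        (orderOf_injective (MulAut.conj g).toMonoidHom (MulAut.conj g).injective y).trans hyo] at this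
    have h55 : 55 ≤ Nat.card ↥(H ⊓ M) :=
      Nat.le_of_dvd Nat.card_pos (Nat.Coprime.mul_dvd_of_dvd_of_dvd (by norm_num : Nat.Coprime 5 11) h5 h11)
    have h := Subgroup.eq_of_le_of_card_ge (inf_le_left : H ⊓ M ≤ H) (le_trans (by rw [hHeq]; exact hcard) h55)
    exact h ▸ inf_le_right
  rcases hH.2 M hHM inf_le_right with hM | hM
  · exact hw' (hHN (hM ▸ ⟨⟨w, hw.1, rfl⟩, hgmem w hw.2⟩))
  · obtain ⟨⟨c, hc, hct⟩, -⟩ := (hM ▸ hgmem t ht : MulAut.conj g t ∈ M)
    exact htX ((MulAut.conj g).injective hct ▸ hc)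

end Cfsg.Agent.GeomClasses.MaxList
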