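import Cfsg.Agent.GeomClasses.MaxList.U
import Mathlib.FieldTheory.Finite.GaloisField
import Mathlib.GroupTheory.Perm.Cycle.Type

/-! # Field structures of degree five on the five-dimensional unitary space over the field with four elements -/

set_option autoImplicit false

namespace Cfsg.Agent.GeomClasses.MaxList

open Matrix Cfsg.Geo Cfsg.Agent.Forms Cfsg.Agent.GeomClasses.Unitary
open scoped MatrixGroups

variable {F : Type*} [Field F] [Fintype F]

local notation "hh" => Cfsg.hermForm 5 F 2
local notation "Mx" => Matrix (Fin 5) (Fin 5) F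
local notation "SU5" => (Cfsg.GU 5 F 2 ⊓ specialLinear (Fin 5) F)

theorem u5_adjoint_unique (hF : Fintype.card F = 2 ^ 2) {k k₁ k₂ : Mx}
    (h₁ : ∀ u v, hh (k *ᵥ u) v = hh u (k₁ *ᵥ v)) (h₂ : ∀ u v, hh (k *ᵥ u) v = hh u (k₂ *ᵥ v)) : k₁ = k₂ := by
  refine Matrix.ext_of_mulVec_single fun i => ?_
  rw [← sub_eq_zero]
  refine nonDeg_top hF _ trivial fun y _ => hh_comm_zero hF ?_
  rw [hh_sub_right hF, ← h₁, ← h₂, sub_self]

theorem u5_adjoint_symm (hF : Fintype.card F = 2 ^ 2) {k k' : Mx}
    (h : ∀ u v, hh (k *ᵥ u) v = hh u (k' *ᵥ v)) : ∀ u v, hh (k' *ᵥ u) v = hh u (k *ᵥ v) := fun u v => by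
  rw [← hh_conj hF, ← h, hh_conj hF]

theorem u5_field_two (hF : Fintype.card F = 2 ^ 2) {K : Subalgebra F (Matrix (Fin 5) (Fin 5) F)}
    (hK : IsFieldSubalgebra 5 K) (hadj : IsAdjointClosedFor (hermForm 5 F 2) K) :
    let S := Cfsg.GU 5 F 2 ⊓ specialLinear (Fin 5) F
    ∃ z ∈ S, orderOf z = 11 ∧ z ∈ subalgebraNormalizer K ∧
      (∀ g ∈ subalgebraNormalizer K ⊓ S, g * z * g⁻¹ ∈ Subgroup.zpowers z) ∧
      Nat.card ↥(subalgebraNormalizer K ⊓ S) ≤ 55 := by
  classical
  intro S
  haveI : Nontrivial K := Module.nontrivial_of_finrank_pos (R := F) (by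
    show 0 < Module.finrank F K
    rw [hK.finrank_eq]; omega)
  have hfield : IsField K :=
    { exists_pair_ne := exists_pair_ne _
      mul_comm := fun x y => Subtype.ext (hK.comm x x.2 y y.2)
      mul_inv_cancel := fun {x} hx => by
        obtain ⟨y, hy, hxy⟩ := hK.inv x x.2 (fun h => hx (Subtype.ext h))
        exact ⟨⟨y, hy⟩, Subtype.ext hxy⟩ }
  letI : Field K := hfield.toField
  haveI : Fintype K := Fintype.ofFinite K
  haveI : Module.Finite F K := Module.Finite.of_finite
  have hKd : Module.finrank F K = 5 := hK.finrank_eq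
  have hcard : Nat.card K = 1024 := by
    rw [Module.natCard_eq_pow_finrank (K := F), hKd, Nat.card_eq_fintype_card, hF]; norm_num
  have hcardu : Nat.card Kˣ = 1023 := by rw [Nat.card_units, hcard]
  haveI : Fact (Nat.Prime 2) := ⟨Nat.prime_two⟩
  haveI : CharP F 2 := charP_of_card_eq_prime_pow (f := 2) (by rw [hF])
  haveI : CharP K 2 := charP_of_injective_algebraMap (algebraMap F K).injective 2
  -- the adjoint automorphism
  choose a ha using fun k : K => hadj (k : Mx) k.2
  have had : ∀ k : K, ∀ u v, hh ((k : Mx) *ᵥ u) v = hh u ((a k) *ᵥ v) := fun k => (ha k).2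
  let A : K → K := fun k => ⟨a k, (ha k).1⟩
  have huniq : ∀ (k l : K), (∀ u v, hh ((k : Mx) *ᵥ u) v = hh u ((l : Mx) *ᵥ v)) → A k = l := fun k l h =>
    Subtype.ext (u5_adjoint_unique hF (had k) h)
  have hAA : ∀ k, A (A k) = k := fun k => huniq _ _ (u5_adjoint_symm hF (had k))
  have hA1 : A 1 = 1 := huniq _ _ fun u v => by simp
  have hAm : ∀ k l, A (k * l) = A k * A l := fun k l => huniq _ _ fun u v => by
    rw [mul_comm (A k)]
    show hh (((k : Mx) * (l : Mx)) *ᵥ u) v = hh u (((A l : Mx) * (A k : Mx)) *ᵥ v)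
    rw [← Matrix.mulVec_mulVec, ← Matrix.mulVec_mulVec, had k, had l]
  have hAa : ∀ k l, A (k + l) = A k + A l := fun k l => huniq _ _ fun u v => by
    show hh (((k : Mx) + (l : Mx)) *ᵥ u) v = hh u (((A k : Mx) + (A l : Mx)) *ᵥ v)
    rw [Matrix.add_mulVec, Matrix.add_mulVec, hh_add_left hF, hh_add_right hF, had k, had l]
  let AR : K ≃+* K :=
    { toFun := A, invFun := A, left_inv := hAA, right_inv := hAA, map_mul' := hAm, map_add' := hAa }
  letI : Algebra (ZMod 2) K := ZMod.algebra K 2
  let AE : K ≃ₐ[ZMod 2] K := AlgEquiv.ofRingEquiv (f := AR) fun c =>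
    RingHom.congr_fun (Subsingleton.elim (AR.toRingHom.comp (algebraMap (ZMod 2) K)) (algebraMap (ZMod 2) K)) c
  obtain ⟨⟨j, hj⟩, hje⟩ := (FiniteField.bijective_frobeniusAlgEquivOfAlgebraic_pow (ZMod 2) K).2 AE
  have hfr : ∀ x : K, A x = x ^ 2 ^ j := fun x => by
    have h := DFunLike.congr_fun hje x
    rw [AlgEquiv.coe_pow, FiniteField.coe_frobeniusAlgEquivOfAlgebraic, pow_iterate] at h
    show AE x = _
    simpa [ZMod.card] using h.symm
  have hj10 : j < 10 := by
    have h1 := Module.natCard_eq_pow_finrank (K := ZMod 2) (V := K)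
    rw [hcard, Nat.card_zmod, show (1024 : ℕ) = 2 ^ 10 by norm_num] at h1
    exact (Nat.pow_right_injective le_rfl h1) ▸ hj
  obtain ⟨g, hg⟩ : ∃ g : Kˣ, orderOf g = 1023 := by
    obtain ⟨g, hg⟩ := IsCyclic.exists_generator (α := Kˣ)
    exact ⟨g, by rw [orderOf_eq_card_of_forall_mem_zpowers hg, hcardu]⟩
  have hj5 : j = 5 := by
    have h1 : g ^ (2 ^ j * 2 ^ j) = g ^ 1 := Units.ext (by
      rw [Units.val_pow_eq_pow_val, pow_mul, ← hfr, ← hfr, hAA, pow_one])
    rw [pow_inj_mod, hg] at h1
    have h2 : j ≠ 0 := by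
      rintro rfl
      obtain ⟨c, hc⟩ := exists_not_fixed hF
      have h3 : A (algebraMap F K c) = algebraMap F K (c ^ 2) := huniq _ _ fun u v => by
        show hh ((algebraMap F Mx c) *ᵥ u) v = hh u ((algebraMap F Mx (c ^ 2)) *ᵥ v)
        rw [Algebra.algebraMap_eq_smul_one, Algebra.algebraMap_eq_smul_one, Matrix.smul_mulVec,
          Matrix.smul_mulVec, Matrix.one_mulVec, Matrix.one_mulVec, hh_smul_left hF, hh_smul_right hF,
          pow_q_q hF]
      rw [hfr, pow_zero, pow_one] at h3
      exact hc ((algebraMap F K).injective h3).symm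
    interval_cases j <;> simp_all
  have hA32 : ∀ x : K, A x = x ^ 32 := fun x => by rw [hfr, hj5]; norm_num
  -- units of `K` as matrices
  let ι : Kˣ →* GL (Fin 5) F := Units.map K.val.toRingHom.toMonoidHom
  have hιinj : Function.Injective ι := fun x y h => Units.ext (Subtype.ext (congrArg Units.val h))
  have hGU : ∀ x : Kˣ, (ι x ∈ Cfsg.GU 5 F 2 ↔ x ^ 33 = 1) := fun x => by
    rw [mem_GU_iff]
    constructor
    · intro h
      refine Units.ext ?_
      have h1 : A x * x = 1 := by
        refine Subtype.ext (u5_adjoint_unique hF (k := 1) (fun u v => ?_) fun u v => by simp)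
        show hh ((1 : Mx) *ᵥ u) v = hh u (((A x : Mx) * ((x : K) : Mx)) *ᵥ v)
        rw [Matrix.one_mulVec, ← Matrix.mulVec_mulVec, ← had (x : K)]
        exact (h u v).symm
      rw [hA32, ← pow_succ] at h1
      exact h1
    · intro h u v
      show hh (((x : K) : Mx) *ᵥ u) (((x : K) : Mx) *ᵥ v) = hh u v
      rw [had, Matrix.mulVec_mulVec]
      have h1 : A (x : K) * (x : K) = 1 := by
        rw [hA32, ← pow_succ, ← Units.val_pow_eq_pow_val, h, Units.val_one]
      have h2 : (A (x : K) : Mx) * ((x : K) : Mx) = 1 := congrArg Subtype.val h1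
      rw [show a (x : K) = (A (x : K) : Mx) from rfl, h2, Matrix.one_mulVec]
  have hFu : ∀ c : Fˣ, c ^ 3 = 1 := fun c => by
    have : Nat.card Fˣ = 3 := by rw [Nat.card_units, Nat.card_eq_fintype_card, hF]; norm_num
    rw [← this]; exact pow_card_eq_one'
  -- the torus element
  haveI : Fact (Nat.Prime 11) := ⟨by norm_num⟩
  obtain ⟨y, hy⟩ := exists_prime_orderOf_dvd_card' (G := Kˣ) 11 (by rw [hcardu]; norm_num)
  have hy11 : y ^ 11 = 1 := hy ▸ pow_orderOf_eq_one y
  set z := ι y with hz
  have hzord : orderOf z = 11 := by rw [hz, orderOf_injective ι hιinj, hy]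
  have hzdet : Matrix.GeneralLinearGroup.det z = 1 := by
    set d := Matrix.GeneralLinearGroup.det z with hd
    have h1 : d ^ 11 = 1 := by rw [hd, ← map_pow, hz, ← map_pow, hy11, map_one, map_one]
    have h2 := hFu d
    calc d = (d ^ 3) ^ 4 * (d ^ 11)⁻¹ := by group
      _ = 1 := by rw [h1, h2]; simp
  have hzS : z ∈ S := ⟨(hGU y).mpr (by rw [show 33 = 11 * 3 from rfl, pow_mul, hy11, one_pow]), hzdet⟩
  have hιN : ∀ x : Kˣ, ι x ∈ subalgebraNormalizer K := fun x k => by
    have hc : ∀ k ∈ K, ((ι x : GL (Fin 5) F) : Mx) * k * (((ι x)⁻¹ : GL (Fin 5) F) : Mx) = k := fun k hk => by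
      rw [show ((ι x : GL (Fin 5) F) : Mx) * k = k * ((ι x : GL (Fin 5) F) : Mx) from hK.comm _ (x : K).2 _ hk,
        mul_assoc, Units.mul_inv, mul_one]
    refine ⟨fun hk => by rw [hc k hk]; exact hk, fun hk => ?_⟩
    have hx : (((ι x)⁻¹ : GL (Fin 5) F) : Mx) ∈ K := by
      rw [← map_inv]; exact ((x⁻¹ : Kˣ) : K).2
    have := K.mul_mem (K.mul_mem hx hk) ((x : K).2 : ((ι x : GL (Fin 5) F) : Mx) ∈ K)
    rw [← mul_assoc, ← mul_assoc, Units.inv_mul, one_mul, mul_assoc] at this
    have hinv : (((ι x)⁻¹ : GL (Fin 5) F) : Mx) * ((x : K) : Mx) = 1 := Units.inv_mul (ι x)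
    rw [hinv, mul_one] at this
    exact this
  refine ⟨z, hzS, hzord, hιN y, fun g hg => ?_, ?_⟩
  · have hmem : ((g : GL (Fin 5) F) : Mx) * (z : Mx) * ((g⁻¹ : GL (Fin 5) F) : Mx) ∈ K :=
      (hg.1 _).mp (y : K).2
    set w : K := ⟨_, hmem⟩ with hw
    have hw11 : w ^ 11 = 1 := Subtype.ext (by
      show (((g * z * g⁻¹ : GL (Fin 5) F)) : Mx) ^ 11 = 1
      rw [← Units.val_pow_eq_pow_val, conj_pow, ← hzord, pow_orderOf_eq_one, mul_one, mul_inv_cancel,
        Units.val_one])
    have hprim : IsPrimitiveRoot (y : K) 11 := by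
      rw [IsPrimitiveRoot.coe_units_iff, ← hy]; exact IsPrimitiveRoot.orderOf y
    obtain ⟨i, -, hi⟩ := hprim.eq_pow_of_pow_eq_one hw11
    refine ⟨(i : ℤ), ?_⟩
    simp only [zpow_natCast]
    refine Units.ext ?_
    rw [Units.val_pow_eq_pow_val]
    exact (congrArg Subtype.val hi : _)
  · -- the action on `K`
    set N := subalgebraNormalizer K ⊓ S with hN
    haveI : Finite ↥N := inferInstance
    let cm : ↥N → K → K := fun g k => ⟨((g : GL (Fin 5) F) : Mx) * (k : Mx) *
      (((g : GL (Fin 5) F)⁻¹ : GL (Fin 5) F) : Mx), (g.2.1 _).mp k.2⟩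
    have cmm : ∀ g h k, cm (g * h) k = cm g (cm h k) := fun g h k => Subtype.ext (by
      simp [cm, mul_assoc])
    have cm1 : ∀ k, cm 1 k = k := fun k => Subtype.ext (by simp [cm])
    let φ : ↥N →* (K ≃ₐ[F] K) :=
      { toFun := fun g =>
          { toFun := cm g
            invFun := cm g⁻¹
            left_inv := fun k => by rw [← cmm, inv_mul_cancel, cm1]
            right_inv := fun k => by rw [← cmm, mul_inv_cancel, cm1]
            map_mul' := fun k l => Subtype.ext (by simp [cm, mul_assoc])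
            map_add' := fun k l => Subtype.ext (by simp [cm, mul_add, add_mul])
            commutes' := fun c => Subtype.ext (by
              simp [cm, Algebra.algebraMap_eq_smul_one]) }
        map_one' := AlgEquiv.ext cm1
        map_mul' := fun g h => AlgEquiv.ext (cmm g h) }
    have hrange : Nat.card φ.range ≤ 5 := by
      have h1 : Fintype.card (K ≃ₐ[F] K) ≤ Module.finrank F K := AlgEquiv.card_le
      rw [hKd, ← Nat.card_eq_fintype_card] at h1
      exact (Subgroup.card_le_card_group _).trans h1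
    have hker : ∀ g : φ.ker, ∃ x : Kˣ, ι x = ((g : ↥N) : GL (Fin 5) F) ∧ x ^ 11 = 1 := by
      rintro ⟨g, hg⟩
      set M : Mx := ((g : GL (Fin 5) F) : Mx) with hM
      have hcomm : ∀ k : K, M * (k : Mx) = (k : Mx) * M := fun k => by
        have h := congrArg Subtype.val (DFunLike.congr_fun (MonoidHom.mem_ker.mp hg) k)
        have h' : M * (k : Mx) * (((g : GL (Fin 5) F)⁻¹ : GL (Fin 5) F) : Mx) = (k : Mx) := h
        calc M * (k : Mx) = M * (k : Mx) * (((g : GL (Fin 5) F)⁻¹ : GL (Fin 5) F) : Mx) * M := by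
              rw [mul_assoc (M * (k : Mx)), hM, Units.inv_mul, mul_one]
          _ = (k : Mx) * M := by rw [h']
      let v₀ : Fin 5 → F := Pi.single 0 1
      let ev : K →ₗ[F] (Fin 5 → F) :=
        { toFun := fun k => (k : Mx) *ᵥ v₀
          map_add' := fun k l => by simp [Matrix.add_mulVec]
          map_smul' := fun c k => by simp [Matrix.smul_mulVec] }
      have hinj : Function.Injective ev := (injective_iff_map_eq_zero ev).mpr fun k hk => by
        by_contra h0
        have h1 : (k⁻¹ * k : K) = 1 := inv_mul_cancel₀ h0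
        have h2 : ((k⁻¹ : K) : Mx) * (k : Mx) = 1 := congrArg Subtype.val h1
        have h3 : v₀ = 0 := by
          rw [← Matrix.one_mulVec v₀, ← h2, ← Matrix.mulVec_mulVec]
          show ((k⁻¹ : K) : Mx) *ᵥ ev k = 0
          rw [hk, Matrix.mulVec_zero]
        exact one_ne_zero (α := F) (by simpa [v₀] using congrFun h3 0)
      have hsurj : Function.Surjective ev := (LinearMap.injective_iff_surjective_of_finrank_eq_finrank
        (by rw [hKd, Module.finrank_fin_fun])).mp hinj
      obtain ⟨k₀, hk₀⟩ := hsurj (M *ᵥ v₀)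
      have hMk : M = (k₀ : Mx) := by
        refine Matrix.ext_of_mulVec_single fun i => ?_
        obtain ⟨k, hk⟩ := hsurj (Pi.single i 1)
        rw [← hk]
        show M *ᵥ ((k : Mx) *ᵥ v₀) = (k₀ : Mx) *ᵥ ((k : Mx) *ᵥ v₀)
        rw [Matrix.mulVec_mulVec, hcomm, ← Matrix.mulVec_mulVec, ← hk₀]
        show (k : Mx) *ᵥ ((k₀ : Mx) *ᵥ v₀) = _
        rw [Matrix.mulVec_mulVec, Matrix.mulVec_mulVec, hK.comm _ k.2 _ k₀.2]
      have hk0 : k₀ ≠ 0 := fun h => (g : GL (Fin 5) F).ne_zero (by
        show M = 0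
        rw [hMk, h]; rfl)
      refine ⟨Units.mk0 k₀ hk0, Units.ext hMk.symm, ?_⟩
      set x := Units.mk0 k₀ hk0
      have hx : ι x = (g : GL (Fin 5) F) := Units.ext hMk.symm
      have h33 : x ^ 33 = 1 := (hGU x).mp (hx ▸ g.2.2.1)
      -- its eleventh power is a scalar of determinant one
      have hroot : IsPrimitiveRoot (((Units.map (algebraMap F K).toMonoidHom)
          (IsCyclic.exists_generator (α := Fˣ)).choose : Kˣ) : K) 3 := by
        rw [IsPrimitiveRoot.coe_units_iff,
          IsPrimitiveRoot.map_iff_of_injective (Units.map_injective (algebraMap F K).injective)]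
        have h := IsPrimitiveRoot.orderOf (IsCyclic.exists_generator (α := Fˣ)).choose
        rwa [orderOf_eq_card_of_forall_mem_zpowers (IsCyclic.exists_generator (α := Fˣ)).choose_spec,
          Nat.card_units, Nat.card_eq_fintype_card, hF] at h
      have h3 : ((x : K) ^ 11) ^ 3 = 1 := by
        rw [← pow_mul, ← Units.val_pow_eq_pow_val, h33, Units.val_one]
      obtain ⟨i, -, hi⟩ := hroot.eq_pow_of_pow_eq_one h3
      set c : Fˣ := (IsCyclic.exists_generator (α := Fˣ)).choose ^ i with hc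
      have hxc : x ^ 11 = Units.map (algebraMap F K).toMonoidHom c := Units.ext (by
        rw [hc, map_pow, Units.val_pow_eq_pow_val, Units.val_pow_eq_pow_val]
        exact hi.symm)
      have hdet1 : Matrix.GeneralLinearGroup.det (ι x) = 1 := hx ▸ g.2.2.2
      have hdet : c ^ 5 = 1 := by
        have h := congrArg (fun t => Matrix.GeneralLinearGroup.det (ι t)) hxc
        simp only [map_pow, hdet1, one_pow] at h
        refine Units.ext ?_
        have h' := congrArg Units.val h
        rw [Units.val_one, Matrix.GeneralLinearGroup.val_det_apply] at h'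
        rw [Units.val_pow_eq_pow_val, Units.val_one]
        refine Eq.trans ?_ h'.symm
        show (c : F) ^ 5 = Matrix.det (algebraMap F Mx (c : F))
        rw [Algebra.algebraMap_eq_smul_one, Matrix.det_smul, Matrix.det_one, mul_one, Fintype.card_fin]
      have hc1 : c = 1 := by
        calc c = (c ^ 3) ^ 2 * (c ^ 5)⁻¹ := by group
          _ = 1 := by rw [hFu c, hdet]; simp
      rw [hxc, hc1, map_one]
    choose xf hxf hxf' using hker
    have hkcard : Nat.card φ.ker ≤ 11 := by
      have hinj : Function.Injective fun g : φ.ker => (⟨xf g, by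
          rw [mem_rootsOfUnity, hxf' g]⟩ : rootsOfUnity 11 K) := fun g h e => by
        have := congrArg (fun t : rootsOfUnity 11 K => ι (t : Kˣ)) e
        simp only [hxf] at this
        exact Subtype.ext (Subtype.ext this)
      refine (Nat.card_le_card_of_injective _ hinj).trans ?_
      exact card_rootsOfUnity K 11
    have := Subgroup.card_eq_card_quotient_mul_card_subgroup φ.ker
    rw [Nat.card_congr (QuotientGroup.quotientKerEquivRange φ).toEquiv] at this
    rw [this]
    exact (Nat.mul_le_mul hrange hkcard).trans (by norm_num)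

end Cfsg.Agent.GeomClasses.MaxList
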