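import Cfsg.Agent.GeomClasses.MaxList.UExcl
import Cfsg.Agent.GeomClasses.MaxList.SLFour

/-! # The cubic field normaliser in six dimensions over the field of four elements -/

set_option autoImplicit false

namespace Cfsg.Agent.GeomClasses.MaxList

open Matrix Cfsg.Geo Cfsg.Agent.Forms Cfsg.Agent.GeomClasses.Unitary
open scoped MatrixGroups

variable {F : Type*} [Field F] [Fintype F]

local notation "hh" => Cfsg.hermForm 6 F 2
local notation "SU6" => (Cfsg.GU 6 F 2 ⊓ specialLinear (Fin 6) F)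
local notation "M6" => Matrix (Fin 6) (Fin 6) F
local notation "V6" => (Fin 6 → F)

/-- The cubic field normaliser lies in a subfield group of symplectic type. -/
theorem u6_field_two (hF : Fintype.card F = 2 ^ 2) {H : Subgroup (GL (Fin 6) F)} (hH : IsMaximalIn SU6 H)
    {K : Subalgebra F M6} (hK : IsFieldSubalgebra 3 K) (hadj : IsAdjointClosedFor hh K)
    (hle : H ≤ subalgebraNormalizer K) :
    ∃ (F₀ : Subfield F) (P : GL (Fin 6) F) (ζ : F), Fintype.card F = Nat.card F₀ ^ 2 ∧ ζ ≠ 0 ∧ ζ + ζ ^ 2 = 0 ∧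
      IsFormRationalStructure hh F₀ ζ P ∧
      (∀ u : V6, (∀ i, u i ∈ F₀) → hh ((P : M6) *ᵥ u) ((P : M6) *ᵥ u) = 0) ∧
      H = subfieldSubgroup F₀ P ⊓ SU6 := by
  classical
  have hq : Fintype.card F = 4 := by rw [hF]; norm_num
  haveI : Fact (Nat.Prime 2) := ⟨Nat.prime_two⟩
  haveI hchar : CharP F 2 := by
    obtain ⟨p, hp⟩ := CharP.exists F
    obtain ⟨k, hpp, hk⟩ := FiniteField.card F p
    have hd : p ∣ 2 ^ 2 := by
      have h' : 2 ^ 2 = p ^ (k : ℕ) := by rw [← hk, hq]; norm_num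
      rw [h']
      exact dvd_pow_self p k.ne_zero
    obtain rfl := (Nat.prime_dvd_prime_iff_eq hpp Nat.prime_two).mp (hpp.dvd_of_dvd_pow hd)
    exact hp
  let F₀ : Subfield F := ⊥
  have hF₀ : ∀ x : F, x ∈ F₀ ↔ x = 0 ∨ x = 1 := fun x => by
    rw [show F₀ = ⊥ from rfl, Subfield.mem_bot_iff_pow_eq_self (F := F) (p := 2)]
    constructor
    · intro h
      rcases eq_or_ne x 0 with h0 | h0
      · exact Or.inl h0
      · exact Or.inr (mul_left_cancel₀ h0 (by rw [← pow_two, h, mul_one]))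
    · rintro (rfl | rfl) <;> simp
  have hcard₀ : Nat.card F₀ = 2 := by
    have hset : (F₀ : Set F) = {0, 1} := Set.ext fun x => by simpa using hF₀ x
    show Nat.card (F₀ : Set F) = 2
    rw [hset, Nat.card_coe_set_eq, Set.ncard_pair zero_ne_one]
  have hF4 : ∀ x : F, x ^ 4 = x := fun x => by rw [← hq]; exact FiniteField.pow_card x
  have hFpow : ∀ x : F, x ≠ 0 → x ^ 3 = 1 := fun x hx => by
    have := FiniteField.pow_card_sub_one_eq_one x hx
    rwa [hq] at this
  haveI : Nontrivial K := Module.nontrivial_of_finrank_pos (R := F) (by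
    show 0 < Module.finrank F K
    rw [hK.finrank_eq]; omega)
  have hfield : IsField K :=
    { exists_pair_ne := exists_pair_ne _
      mul_comm := fun x y => Subtype.ext (hK.comm x x.2 y y.2)
      mul_inv_cancel := fun {x} hx => by
        obtain ⟨y, hy, hxy⟩ := hK.inv x x.2 (fun h => hx (Subtype.ext h))
        exact ⟨⟨y, hy⟩, Subtype.ext hxy⟩ }
  letI : Field K := hfield.toField
  haveI : Finite K := Finite.of_injective _ (Subtype.val_injective)
  haveI : Fintype K := Fintype.ofFinite K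
  haveI : CharP K 2 := charP_of_injective_algebraMap (algebraMap F K).injective 2
  have hfr : Module.finrank F K = 3 := hK.finrank_eq
  have hKcard : Fintype.card K = 64 := by
    rw [Module.card_eq_pow_finrank (K := F) (V := K), hfr, hq]; norm_num
  have hK63 : ∀ x : K, x ≠ 0 → x ^ 63 = 1 := fun x hx => by
    have := FiniteField.pow_card_sub_one_eq_one x hx
    rwa [hKcard] at this
  -- a basis of the field of eight elements
  obtain ⟨z, hz7, hz1⟩ : ∃ z : K, z ^ 7 = 1 ∧ z ≠ 1 := by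
    have h7 : 7 ∣ Fintype.card Kˣ := by rw [Fintype.card_units, hKcard]; norm_num
    haveI : Fact (Nat.Prime 7) := ⟨by norm_num⟩
    obtain ⟨u, hu⟩ := exists_prime_orderOf_dvd_card 7 h7
    refine ⟨u, by rw [← Units.val_pow_eq_pow_val, ← hu, pow_orderOf_eq_one, Units.val_one], fun h => ?_⟩
    rw [Units.val_eq_one.mp h, orderOf_one] at hu
    omega
  have hzdeg : (minpoly F z).natDegree = 3 := by
    have hd : (minpoly F z).natDegree ∣ 3 := (minpoly.degree_dvd (IsIntegral.of_finite F z)).trans (dvd_of_eq hfr)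
    rcases (Nat.dvd_prime (by norm_num)).mp hd with h | h
    · obtain ⟨a, ha⟩ := minpoly.natDegree_eq_one_iff.mp h
      exfalso
      have ha0 : a ≠ 0 := by
        rintro rfl
        rw [map_zero] at ha
        rw [← ha, zero_pow (by norm_num)] at hz7
        exact zero_ne_one hz7
      have h7 : a ^ 7 = 1 := (algebraMap F K).injective (by rw [map_pow, ha, hz7, map_one])
      have : a = 1 := by
        calc a = a ^ 7 := by rw [show (7 : ℕ) = 3 * 2 + 1 from rfl, pow_succ, pow_mul, hFpow a ha0, one_pow, one_mul]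
          _ = 1 := h7
      exact hz1 (by rw [← ha, this, map_one])
    · exact h
  have hli : LinearIndependent F (fun i : Fin 3 => z ^ (i : ℕ)) :=
    (linearIndependent_pow (K := F) z).comp (Fin.cast hzdeg.symm) (Fin.cast_injective _)
  let bK : Module.Basis (Fin 3) F K := basisOfLinearIndependentOfCardEqFinrank hli (by rw [hfr]; rfl)
  have hbK : ∀ i, bK i = z ^ (i : ℕ) := fun i => congrFun (coe_basisOfLinearIndependentOfCardEqFinrank _ _) i
  have hz8 : ∀ i : ℕ, (z ^ i) ^ 8 = z ^ i := fun i => by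
    rw [← pow_mul, mul_comm, pow_mul, show z ^ 8 = z by rw [pow_succ, hz7, one_mul]]
  have hexp : ∀ w : K, w = ∑ i, bK.repr w i • z ^ (i : ℕ) := fun w => by
    conv_lhs => rw [← bK.sum_repr w]
    exact Finset.sum_congr rfl fun i _ => by rw [hbK]
  have hpow8 : ∀ w : K, w ^ 8 = ∑ i, bK.repr w i ^ 2 • z ^ (i : ℕ) := fun w => by
    conv_lhs => rw [hexp w]
    rw [show (8 : ℕ) = 2 ^ 3 from rfl, sum_pow_char_pow 2 3]
    refine Finset.sum_congr rfl fun i _ => ?_
    rw [smul_pow, show (2 : ℕ) ^ 3 = 8 from rfl, hz8, show (8 : ℕ) = 4 * 2 from rfl, pow_mul, hF4]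
  have hrat : ∀ w : K, w ^ 8 = w → ∀ j, bK.repr w j ∈ F₀ := by
    intro w hw j
    rw [hF₀]
    have h := congrArg (fun w => bK.repr w j) ((hexp w).symm.trans (hw.symm.trans (hpow8 w)))
    simp only [← hbK, Module.Basis.repr_sum_self] at h
    rcases eq_or_ne (bK.repr w j) 0 with h0 | h0
    · exact Or.inl h0
    · exact Or.inr (mul_left_cancel₀ h0 (by rw [← pow_two, ← h, mul_one]))
  let T : K →ₗ[F] F := Algebra.trace F K
  have hT0 : ∀ w : K, w ^ 8 = w → T w ∈ F₀ := fun w hw => by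
    show Algebra.trace F K w ∈ F₀
    rw [Algebra.trace_eq_matrix_trace bK, Matrix.trace]
    refine Subfield.sum_mem _ fun i _ => ?_
    rw [Matrix.diag_apply, Algebra.leftMulMatrix_eq_repr_mul, hbK]
    exact hrat _ (by rw [mul_pow, hw, hz8]) _
  have hT8 : ∀ w : K, T (w ^ 8) = T w ^ 2 := fun w => by
    have hz : ∀ i : Fin 3, T (z ^ (i : ℕ)) ^ 2 = T (z ^ (i : ℕ)) := fun i => by
      rcases (hF₀ _).mp (hT0 _ (hz8 i)) with h | h <;> rw [h] <;> simp
    conv_rhs => rw [hexp w]
    rw [hpow8, map_sum, map_sum, sum_pow_char]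
    exact Finset.sum_congr rfl fun i _ => by rw [map_smul, map_smul, smul_eq_mul, smul_eq_mul, mul_pow, hz]
  have hTnd : (Algebra.traceForm F K).Nondegenerate := traceForm_nondegenerate F K
  have hText : ∀ x y : K, (∀ k, T (k * x) = T (k * y)) → x = y := fun x y h => by
    refine sub_eq_zero.mp (hTnd.2 _ fun k => ?_)
    rw [Algebra.traceForm_apply, mul_sub, map_sub]
    exact sub_eq_zero.mpr (h k)
  -- the adjoint is the involution
  choose ad hadK hadh using fun k : K => hadj k k.2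
  let st : K → K := fun k => ⟨ad k, hadK k⟩
  have hst : ∀ (k : K) (u v : V6), hh ((k : M6) *ᵥ u) v = hh u ((st k : M6) *ᵥ v) := fun k u v => hadh k u v
  have hsep : ∀ x y : K, (∀ u v : V6, hh u ((x : M6) *ᵥ v) = hh u ((y : M6) *ᵥ v)) → x = y := fun x y h => by
    refine Subtype.ext (Matrix.ext_of_mulVec_single fun i => sub_eq_zero.mp (nonDeg_top hF _ trivial fun u _ => ?_))
    rw [hh_sub_left hF, ← hh_conj hF u, ← hh_conj hF u, h, sub_self]
  have hstmul : ∀ a b, st (a * b) = st a * st b := fun a b => hsep _ _ fun u v => by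
    rw [← hst, mul_comm (st a), MulMemClass.coe_mul, MulMemClass.coe_mul, ← Matrix.mulVec_mulVec, hst, hst,
      Matrix.mulVec_mulVec]
  have hst1 : st 1 = 1 := hsep _ _ fun u v => by rw [← hst]; simp
  have hstadd : ∀ a b, st (a + b) = st a + st b := fun a b => hsep _ _ fun u v => by
    rw [← hst, AddMemClass.coe_add, AddMemClass.coe_add, Matrix.add_mulVec, Matrix.add_mulVec, hh_add_left hF,
      hh_add_right hF, hst, hst]
  have hstF : ∀ c : F, st (algebraMap F K c) = algebraMap F K (c ^ 2) := fun c => hsep _ _ fun u v => by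
    rw [← hst, Subalgebra.coe_algebraMap, Subalgebra.coe_algebraMap, Algebra.algebraMap_eq_smul_one,
      Algebra.algebraMap_eq_smul_one, Matrix.smul_mulVec, Matrix.smul_mulVec, Matrix.one_mulVec, Matrix.one_mulVec,
      hh_smul_left hF, hh_smul_right hF, ← pow_mul, show 2 * 2 = 4 from rfl, hF4]
  have hstst : ∀ a, st (st a) = a := fun a => hsep _ _ fun u v => by
    rw [← hst, ← hh_conj hF v, ← hh_conj hF ((a : M6) *ᵥ v), hst]
  have hst8 : ∀ a, st a = a ^ 8 := by
    have hpadd : ∀ a b : K, (a + b) ^ 8 = a ^ 8 + b ^ 8 := fun a b => by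
      rw [show (8 : ℕ) = 2 ^ 3 from rfl, add_pow_char_pow]
    let ψ : K →ₐ[F] K :=
      { toFun := fun a => (st a) ^ 8
        map_one' := by rw [hst1, one_pow]
        map_mul' := fun a b => by rw [hstmul, mul_pow]
        map_zero' := by
          have h0 : st 0 = 0 := by
            have := hstadd 0 0
            rwa [add_zero, left_eq_add] at this
          rw [h0, zero_pow (by norm_num)]
        map_add' := fun a b => by rw [hstadd, hpadd]
        commutes' := fun c => by rw [hstF, ← map_pow, ← pow_mul, show 2 * 8 = 4 * 4 from rfl, pow_mul, hF4, hF4] }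
    have hst8' : ∀ a, st (a ^ 8) = st a ^ 8 := by
      intro a
      let σ : K →* K := { toFun := st, map_one' := hst1, map_mul' := hstmul }
      exact map_pow σ a 8
    have hK64 : ∀ a : K, a ^ 64 = a := fun a => by rw [← hKcard]; exact FiniteField.pow_card a
    let ψe : K ≃ₐ[F] K := AlgEquiv.ofBijective ψ (Finite.injective_iff_bijective.mp ψ.toRingHom.injective)
    have h2 : ψe ^ 2 = 1 := AlgEquiv.ext fun a => by
      show (st ((st a) ^ 8)) ^ 8 = a
      rw [hst8', hstst, ← pow_mul]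
      exact hK64 a
    have h3 : ψe ^ 3 = 1 := by
      have hc : Nat.card (K ≃ₐ[F] K) = 3 := by rw [IsGalois.card_aut_eq_finrank, hfr]
      rw [← hc]; exact pow_card_eq_one'
    have h1 : ψe = 1 := by rwa [pow_succ, h2, one_mul] at h3
    intro a
    have h := AlgEquiv.congr_fun h1 a
    change (st a) ^ 8 = a at h
    conv_rhs => rw [← h, ← pow_mul, hK64]
  -- the form over the extension
  let fun₁ : V6 → V6 → Module.Dual F K := fun u v =>
    { toFun := fun k => hh ((k : M6) *ᵥ u) v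
      map_add' := fun a b => by rw [AddMemClass.coe_add, Matrix.add_mulVec, hh_add_left hF]
      map_smul' := fun c a => by
        rw [Subalgebra.coe_smul, Matrix.smul_mulVec, hh_smul_left hF, RingHom.id_apply, smul_eq_mul] }
  let L : V6 → V6 → K := fun u v => (LinearMap.BilinForm.toDual (Algebra.traceForm F K) hTnd).symm (fun₁ u v)
  have hL : ∀ (u v : V6) (k : K), T (k * L u v) = hh ((k : M6) *ᵥ u) v := fun u v k => by
    rw [mul_comm]
    exact LinearMap.BilinForm.apply_toDual_symm_apply (hB := hTnd) (fun₁ u v) k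
  have Ladd : ∀ u u' v, L (u + u') v = L u v + L u' v := fun u u' v => hText _ _ fun k => by
    rw [mul_add, map_add, hL, hL, hL, Matrix.mulVec_add, hh_add_left hF]
  have Lsmul : ∀ (l : K) u v, L ((l : M6) *ᵥ u) v = l * L u v := fun l u v => hText _ _ fun k => by
    rw [hL, Matrix.mulVec_mulVec, ← MulMemClass.coe_mul, ← hL, mul_assoc]
  have Lherm : ∀ u v, L v u = L u v ^ 8 := fun u v => hText _ _ fun k => by
    rw [hL, hst, hst8, ← hh_conj hF (((k ^ 8 : K) : M6) *ᵥ u), ← hL, ← hT8, mul_pow, ← pow_mul,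
      show 8 * 8 = Fintype.card K by rw [hKcard], FiniteField.pow_card]
  have Lsub : ∀ u u' v, L (u - u') v = L u v - L u' v := fun u u' v =>
    eq_sub_of_add_eq (by rw [← Ladd, sub_add_cancel])
  have Laddr : ∀ u v v', L u (v + v') = L u v + L u v' := fun u v v' => by
    rw [Lherm (v + v') u, Ladd, show (8 : ℕ) = 2 ^ 3 from rfl, add_pow_char_pow, show (2 : ℕ) ^ 3 = 8 from rfl,
      ← Lherm, ← Lherm]
  have Lsmulr : ∀ (l : K) u v, L u ((l : M6) *ᵥ v) = l ^ 8 * L u v := fun l u v => by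
    rw [Lherm _ u, Lsmul, mul_pow, ← Lherm]
  have Lzero : ∀ v, L 0 v = 0 := fun v => by
    have h := Lsmul 0 0 v
    rwa [Matrix.mulVec_zero, zero_mul] at h
  have Lnd : ∀ u, (∀ v, L u v = 0) → u = 0 := fun u h => nonDeg_top hF u trivial fun v _ => by
    have h1 := hL u v 1
    rw [h, mul_zero, map_zero, OneMemClass.coe_one, Matrix.one_mulVec] at h1
    exact h1.symm
  have hcharK : ∀ x : K, x + x = 0 := CharTwo.add_self_eq_zero
  have hcancel : ∀ (l : K) (u : V6), u ≠ 0 → (l : M6) *ᵥ u = 0 → l = 0 := fun l u hu h => by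
    by_contra h0
    refine hu ?_
    have h' := congrArg (fun v => ((l⁻¹ : K) : M6) *ᵥ v) h
    simpa [Matrix.mulVec_mulVec, ← MulMemClass.coe_mul, inv_mul_cancel₀ h0] using h'
  -- a hyperbolic pair
  have hspan1 : ∀ u : V6, ∃ w, ∀ l : K, (l : M6) *ᵥ u ≠ w := by
    intro u
    by_contra h
    push_neg at h
    choose f hf using h
    have h1 := Fintype.card_le_of_injective f fun a b hab => by rw [← hf a, ← hf b, hab]
    rw [hKcard, Fintype.card_fun, hq, Fintype.card_fin] at h1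
    norm_num at h1
  obtain ⟨e, he0, hee⟩ : ∃ e : V6, e ≠ 0 ∧ L e e = 0 := by
    let u : V6 := Pi.single 0 1
    have hu : u ≠ 0 := fun h => by simpa [u] using congrFun h 0
    by_cases ha : L u u = 0
    · exact ⟨u, hu, ha⟩
    set a := L u u with had
    obtain ⟨v, hv⟩ := hspan1 u
    set w := v - ((L v u / a : K) : M6) *ᵥ u with hwd
    have hw : w ≠ 0 := fun h => hv _ (sub_eq_zero.mp h).symm
    have hwu : L w u = 0 := by rw [hwd, Lsub, Lsmul, ← had, div_mul_cancel₀ _ ha, sub_self]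
    by_cases hb : L w w = 0
    · exact ⟨w, hw, hb⟩
    set r := a / L w w
    have hr : r ≠ 0 := div_ne_zero ha hb
    have hr8 : r ^ 8 = r := by rw [div_pow, ← Lherm, ← Lherm]
    have hr7 : r ^ 7 = 1 := mul_right_cancel₀ hr (by rw [← pow_succ, hr8, one_mul])
    have huw : L u w = 0 := by rw [Lherm w u, hwu, zero_pow (by norm_num)]
    refine ⟨u + ((r ^ 4 : K) : M6) *ᵥ w, fun h => hv (L v u / a - (r ^ 4)⁻¹) ?_, ?_⟩
    · have h' := congrArg (fun x => (((r ^ 4)⁻¹ : K) : M6) *ᵥ x) h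
      simp only [Matrix.mulVec_add, Matrix.mulVec_mulVec, ← MulMemClass.coe_mul, inv_mul_cancel₀ (pow_ne_zero 4 hr),
        OneMemClass.coe_one, Matrix.one_mulVec, Matrix.mulVec_zero, hwd] at h'
      rw [AddSubgroupClass.coe_sub, Matrix.sub_mulVec, ← sub_eq_zero, ← neg_eq_zero, ← h']
      abel
    · rw [Ladd, Laddr, Laddr, Lsmul, Lsmul, Lsmulr, Lsmulr, huw, hwu, ← had, mul_zero, mul_zero, add_zero, zero_add,
        ← mul_assoc, ← pow_mul, ← pow_add, show 4 + 4 * 8 = 7 * 5 + 1 from rfl, pow_succ, pow_mul, hr7, one_pow, one_mul,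
        div_mul_cancel₀ _ hb]
      exact hcharK a
  obtain ⟨v, hv⟩ : ∃ v, L v e ≠ 0 := by
    by_contra h
    push_neg at h
    exact he0 (Lnd e fun v => by rw [Lherm v e, h, zero_pow (by norm_num)])
  obtain ⟨ω, hω⟩ : ∃ ω : F, ω + ω ^ 2 = 1 := by
    obtain ⟨w, hw0, hw1⟩ : ∃ w : F, w ≠ 0 ∧ w ≠ 1 := by
      by_contra h
      push_neg at h
      have hsub : (Finset.univ : Finset F) ⊆ {0, 1} := fun x _ => by
        by_cases hx : x = 0
        · simp [hx]
        · simp [h x hx]
      have := (Finset.card_le_card hsub).trans Finset.card_le_two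
      rw [Finset.card_univ, hq] at this
      omega
    have h2 : (2 : F) = 0 := CharP.cast_eq_zero F 2
    refine ⟨w, ?_⟩
    have h3 : (w - 1) * (w ^ 2 + w + 1) = 0 := by linear_combination hFpow w hw0
    have h4 := (mul_eq_zero.mp h3).resolve_left (sub_ne_zero.mpr hw1)
    linear_combination h4 - h2
  obtain ⟨v', hv'd⟩ : ∃ v' : V6, v' = (((L v e)⁻¹ : K) : M6) *ᵥ v := ⟨_, rfl⟩
  have hv'e : L v' e = 1 := by rw [hv'd, Lsmul, inv_mul_cancel₀ hv]
  have hev' : L e v' = 1 := by rw [Lherm v' e, hv'e, one_pow]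
  set c₀ := L v' v' * algebraMap F K ω
  obtain ⟨f, hfd⟩ : ∃ f : V6, f = v' + (c₀ : M6) *ᵥ e := ⟨_, rfl⟩
  have hfe : L f e = 1 := by rw [hfd, Ladd, Lsmul, hee, mul_zero, add_zero, hv'e]
  have hef : L e f = 1 := by rw [Lherm f e, hfe, one_pow]
  have hff : L f f = 0 := by
    have hl : L v' v' ^ 8 = L v' v' := (Lherm _ _).symm
    have hω8 : algebraMap F K ω + algebraMap F K ω ^ 8 = 1 := by
      rw [← map_pow, ← map_add, show ω ^ 8 = (ω ^ 4) ^ 2 by rw [← pow_mul], hF4, hω, map_one]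
    rw [hfd, Ladd, Laddr, Laddr, Lsmul, Lsmul, Lsmulr, Lsmulr, hee, hv'e, hev', mul_zero, mul_zero, add_zero, mul_one,
      mul_one, show c₀ ^ 8 = L v' v' * algebraMap F K ω ^ 8 by rw [mul_pow, hl],
      add_assoc, ← mul_add, add_comm (algebraMap F K ω ^ 8), hω8, mul_one]
    exact hcharK _
  -- coordinates
  let E₀ : K × K →ₗ[F] V6 :=
    { toFun := fun x => (x.1 : M6) *ᵥ e + (x.2 : M6) *ᵥ f
      map_add' := fun a b => by
        simp only [Prod.fst_add, Prod.snd_add, AddMemClass.coe_add, Matrix.add_mulVec]; abel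
      map_smul' := fun c a => by
        simp only [Prod.smul_fst, Prod.smul_snd, Subalgebra.coe_smul, Matrix.smul_mulVec, RingHom.id_apply, smul_add] }
  have hEL : ∀ a b c d : K, L (E₀ (a, b)) (E₀ (c, d)) = a * d ^ 8 + b * c ^ 8 := fun a b c d => by
    show L ((a : M6) *ᵥ e + (b : M6) *ᵥ f) ((c : M6) *ᵥ e + (d : M6) *ᵥ f) = _
    simp only [Ladd, Laddr, Lsmul, Lsmulr, hee, hff, hef, hfe, mul_zero, mul_one, add_zero, zero_add]
  have hE₀ : Function.Injective E₀ := by
    rw [← LinearMap.ker_eq_bot, Submodule.eq_bot_iff]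
    rintro ⟨a, b⟩ hab
    have h1 := hEL a b 0 1
    have h2 := hEL a b 1 0
    rw [LinearMap.mem_ker.mp hab, Lzero] at h1 h2
    simp at h1 h2
    simp [← h1, ← h2]
  let E : (K × K) ≃ₗ[F] V6 := LinearEquiv.ofBijective E₀ ⟨hE₀,
    (LinearMap.injective_iff_surjective_of_finrank_eq_finrank (by
      rw [Module.finrank_prod, hfr, Module.finrank_fin_fun])).mp hE₀⟩
  let eq6 : Fin 3 ⊕ Fin 3 ≃ Fin 6 := finSumFinEquiv
  let bV : Module.Basis (Fin 6) F V6 := ((bK.prod bK).map E).reindex eq6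
  let P : GL (Fin 6) F := Matrix.GeneralLinearGroup.mkOfDetNeZero ((Pi.basisFun F (Fin 6)).toMatrix bV)
    (Matrix.isUnit_iff_isUnit_det _ |>.mp (@isUnit_of_invertible _ _ _ ((Pi.basisFun F (Fin 6)).invertibleToMatrix bV))).ne_zero
  have hP : ∀ u : V6, (P : M6) *ᵥ u = E (∑ i : Fin 3, u (Fin.castAdd 3 i) • z ^ (i : ℕ), ∑ i : Fin 3, u (Fin.natAdd 3 i) • z ^ (i : ℕ)) := by
    intro u
    have h0 : ∀ k, (P : M6) *ᵥ Pi.single k 1 = bV k := fun k => by
      funext j
      rw [Matrix.mulVec_single_one]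
      simp [P, Module.Basis.toMatrix_apply, Matrix.col]
    conv_lhs => rw [pi_eq_sum_univ' u]
    rw [Matrix.mulVec_sum, ← eq6.sum_comp, Fintype.sum_sum_type]
    have hl : ∀ i, eq6 (Sum.inl i) = Fin.castAdd 3 i := fun i => finSumFinEquiv_apply_left i
    have hr : ∀ i, eq6 (Sum.inr i) = Fin.natAdd 3 i := fun i => finSumFinEquiv_apply_right i
    simp only [Matrix.mulVec_smul, h0]
    simp only [bV, Module.Basis.reindex_apply, Equiv.symm_apply_apply, Module.Basis.map_apply, ← map_smul, ← map_sum, ← map_add,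
      Module.Basis.prod_apply]
    simp only [hl, hr]
    congr 1
    simp [Prod.ext_iff, Prod.fst_sum, Prod.snd_sum, hbK]
  have hsum8 : ∀ a : Fin 3 → F, (∀ i, a i ∈ F₀) → (∑ i, a i • z ^ (i : ℕ)) ^ 8 = ∑ i, a i • z ^ (i : ℕ) := by
    intro a ha
    rw [show (8 : ℕ) = 2 ^ 3 from rfl, sum_pow_char_pow 2 3]
    refine Finset.sum_congr rfl fun i _ => ?_
    rw [smul_pow, show (2 : ℕ) ^ 3 = 8 from rfl, hz8]
    rcases (hF₀ _).mp (ha i) with h | h <;> simp [h]
  have hform : ∀ u v : V6, hh u v = T (L u v) := fun u v => by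
    rw [← one_mul (L u v), hL]; simp
  refine ⟨F₀, P, 1, by rw [hcard₀, hF], one_ne_zero, by rw [one_pow]; exact CharTwo.add_self_eq_zero 1, fun u v hu hv => ?_,
    fun u hu => ?_, eq_of_le hH (fun g hg => ?_) (u_subfield_proper hF (by norm_num) Nat.prime_two (by rw [hcard₀, hF]) P)⟩
  · rw [one_mul, hP, hP, hform]
    show T (L (E₀ _) (E₀ _)) ∈ F₀
    rw [hEL, hsum8 _ (fun i => hv _), hsum8 _ (fun i => hv _)]
    refine hT0 _ ?_
    rw [show (8 : ℕ) = 2 ^ 3 from rfl, add_pow_char_pow, show (2 : ℕ) ^ 3 = 8 from rfl, mul_pow, mul_pow,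
      hsum8 _ (fun i => hu _), hsum8 _ (fun i => hv _), hsum8 _ (fun i => hu _), hsum8 _ (fun i => hv _)]
  · rw [hP, hform]
    show T (L (E₀ _) (E₀ _)) = 0
    rw [hEL, hsum8 _ (fun i => hu _), hsum8 _ (fun i => hu _), mul_comm, hcharK, map_zero]
  -- the action of an element of the normaliser
  have hgK := hle hg
  have hgS := hH.1.le hg
  have hgU := mem_GU_iff.mp hgS.1
  have hdetg : (g : M6).det = 1 := det_of_mem_sl hgS.2
  let φ : K →ₐ[F] K :=
    { toFun := fun k => ⟨(g : M6) * k * ((g⁻¹ : GL (Fin 6) F) : M6), (hgK k).mp k.2⟩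
      map_one' := Subtype.ext (by simp)
      map_mul' := fun a b => Subtype.ext (by simp [mul_assoc])
      map_zero' := Subtype.ext (by simp)
      map_add' := fun a b => Subtype.ext (by simp [mul_add, add_mul])
      commutes' := fun c => Subtype.ext (by simp [Algebra.algebraMap_eq_smul_one]) }
  let φe : K ≃ₐ[F] K := AlgEquiv.ofBijective φ (Finite.injective_iff_bijective.mp φ.toRingHom.injective)
  have hgk : ∀ (k : K) (u : V6), (g : M6) *ᵥ ((k : M6) *ᵥ u) = (φ k : M6) *ᵥ ((g : M6) *ᵥ u) := fun k u => by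
    simp [φ, Matrix.mulVec_mulVec, mul_assoc]
  have hgL : ∀ u v, L ((g : M6) *ᵥ u) ((g : M6) *ᵥ v) = φ (L u v) := fun u v => hText _ _ fun k => by
    obtain ⟨k, rfl⟩ := φe.surjective k
    show T (φ k * _) = T (φ k * _)
    rw [hL, ← hgk, hgU, ← hL, ← map_mul]
    exact (Algebra.trace_eq_of_algEquiv φe _).symm
  obtain ⟨⟨a, c⟩, hge⟩ := E.surjective ((g : M6) *ᵥ e)
  obtain ⟨⟨b, d⟩, hgf⟩ := E.surjective ((g : M6) *ᵥ f)
  have e1 : a * c ^ 8 + c * a ^ 8 = 0 := by
    rw [← hEL]; show L (E _) (E _) = 0; rw [hge, hgL, hee, map_zero]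
  have e2 : b * d ^ 8 + d * b ^ 8 = 0 := by
    rw [← hEL]; show L (E _) (E _) = 0; rw [hgf, hgL, hff, map_zero]
  have e3 : a * d ^ 8 + c * b ^ 8 = 1 := by
    rw [← hEL]; show L (E _) (E _) = 1; rw [hge, hgf, hgL, hef, map_one]
  have h2K : (2 : K) = 0 := CharP.cast_eq_zero K 2
  obtain ⟨μ, hμ0, hμ⟩ : ∃ μ : K, μ ≠ 0 ∧ ∀ x ∈ ({a, b, c, d} : Set K), (x / μ) ^ 8 = x / μ := by
    have hor : a ≠ 0 ∨ c ≠ 0 := by
      by_contra h
      push_neg at h
      rw [h.1, h.2, zero_mul, zero_mul, add_zero] at e3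
      exact zero_ne_one e3
    have key : ∀ a b c d : K, a ≠ 0 → a * c ^ 8 + c * a ^ 8 = 0 → b * d ^ 8 + d * b ^ 8 = 0 → a * d ^ 8 + c * b ^ 8 = 1 →
        ∀ x ∈ ({a, b, c, d} : Set K), (x / a) ^ 8 = x / a := by
      intro a b c d ha e1 e2 e3
      have hx : ∀ x, x * a ^ 8 = a * x ^ 8 → (x / a) ^ 8 = x / a := fun x h => by
        rw [div_pow, div_eq_div_iff (pow_ne_zero _ ha) ha, h]; ring
      have hac : c * a ^ 8 = a * c ^ 8 := by linear_combination e1 - (a * c ^ 8) * h2K
      have ha64 : a ^ 64 = a := by rw [← hKcard]; exact FiniteField.pow_card a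
      have hb : b * a ^ 8 = a * b ^ 8 := by
        have e3' : (a * d ^ 8 + c * b ^ 8) ^ 8 = 1 := by rw [e3, one_pow]
        rw [show (8 : ℕ) = 2 ^ 3 from rfl, add_pow_char_pow, show (2 : ℕ) ^ 3 = 8 from rfl, mul_pow, mul_pow, ← pow_mul,
          ← pow_mul b, show 8 * 8 = Fintype.card K by rw [hKcard], FiniteField.pow_card, FiniteField.pow_card] at e3'
        have h1 : b * a ^ 8 * (a * d ^ 8 + c * b ^ 8) = a * b ^ 8 * (a ^ 8 * d + c ^ 8 * b) := by
          linear_combination (b * b ^ 8) * hac + (a * a ^ 8) * e2 - (a * a ^ 8 * b ^ 8 * d) * h2K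
        rwa [e3, e3', mul_one, mul_one] at h1
      have hd : d * a ^ 8 = a * d ^ 8 := by
        have e3' : (a * d ^ 8 + c * b ^ 8) ^ 8 = 1 := by rw [e3, one_pow]
        rw [show (8 : ℕ) = 2 ^ 3 from rfl, add_pow_char_pow, show (2 : ℕ) ^ 3 = 8 from rfl, mul_pow, mul_pow, ← pow_mul,
          ← pow_mul b, show 8 * 8 = Fintype.card K by rw [hKcard], FiniteField.pow_card, FiniteField.pow_card] at e3'
        refine mul_left_cancel₀ ha ?_
        linear_combination a * e3' - a * e3 - c * hb + b * hac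
      rintro x (rfl | rfl | rfl | rfl)
      · rw [div_self ha, one_pow]
      · exact hx _ hb
      · exact hx _ hac
      · exact hx _ hd
    rcases hor with ha | hc
    · exact ⟨a, ha, key a b c d ha e1 e2 e3⟩
    · refine ⟨c, hc, fun x hx => key c d a b hc (by linear_combination e1) (by linear_combination e2)
        (by linear_combination e3) x ?_⟩
      rcases hx with rfl | rfl | rfl | rfl <;> simp
  -- the matrix in the rational basis
  let A : Fin 6 → K × K := fun k => Sum.elim (fun i : Fin 3 => (φ (z ^ (i : ℕ)) * (a / μ), φ (z ^ (i : ℕ)) * (c / μ)))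
    (fun i : Fin 3 => (φ (z ^ (i : ℕ)) * (b / μ), φ (z ^ (i : ℕ)) * (d / μ))) (eq6.symm k)
  have hA8 : ∀ k, (A k).1 ^ 8 = (A k).1 ∧ (A k).2 ^ 8 = (A k).2 := by
    intro k
    have hφ : ∀ i : Fin 3, φ (z ^ (i : ℕ)) ^ 8 = φ (z ^ (i : ℕ)) := fun i => by rw [← map_pow, hz8]
    simp only [A]
    rcases eq6.symm k with i | i <;>
      exact ⟨by rw [Sum.elim, mul_pow, hφ, hμ _ (by simp)], by rw [Sum.elim, mul_pow, hφ, hμ _ (by simp)]⟩
  have hgA : ∀ k, (g : M6) *ᵥ ((P : M6) *ᵥ Pi.single k 1) = E (μ * (A k).1, μ * (A k).2) := by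
    intro k
    have hmulE : ∀ (l : K) x, (l : M6) *ᵥ E x = E (l * x.1, l * x.2) := fun l x => by
      show (l : M6) *ᵥ ((x.1 : M6) *ᵥ e + (x.2 : M6) *ᵥ f) = ((l * x.1 : K) : M6) *ᵥ e + ((l * x.2 : K) : M6) *ᵥ f
      simp [Matrix.mulVec_add, Matrix.mulVec_mulVec]
    obtain ⟨s, rfl⟩ := eq6.surjective k
    have hPk : (P : M6) *ᵥ Pi.single (eq6 s) 1 = bV (eq6 s) := by
      funext j
      rw [Matrix.mulVec_single_one]
      simp [P, Module.Basis.toMatrix_apply, Matrix.col]
    rw [hPk]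
    simp only [A, bV, Module.Basis.reindex_apply, Equiv.symm_apply_apply, Module.Basis.map_apply, Module.Basis.prod_apply]
    rcases s with i | i
    · show (g : M6) *ᵥ E₀ (LinearMap.inl F K K (bK i)) = _
      simp only [E₀, LinearMap.coe_mk, AddHom.coe_mk, LinearMap.inl_apply, ZeroMemClass.coe_zero, Matrix.zero_mulVec, add_zero,
        hgk, ← hge, hmulE, hbK, Sum.elim_inl]
      congr 1; ext <;> field_simp <;> ring
    · show (g : M6) *ᵥ E₀ (LinearMap.inr F K K (bK i)) = _
      simp only [E₀, LinearMap.coe_mk, AddHom.coe_mk, LinearMap.inr_apply, ZeroMemClass.coe_zero, Matrix.zero_mulVec, zero_add,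
        hgk, ← hgf, hmulE, hbK, Sum.elim_inr]
      congr 1; ext <;> field_simp <;> ring
  let W : Matrix (Fin 6) (Fin 6) F₀ := fun l k =>
    ⟨Sum.elim (fun i => bK.repr (A k).1 i) (fun i => bK.repr (A k).2 i) (eq6.symm l), by
      rcases eq6.symm l with i | i
      · exact hrat _ (hA8 k).1 i
      · exact hrat _ (hA8 k).2 i⟩
  set M := Algebra.leftMulMatrix bK μ with hMd
  let B : M6 := (Matrix.fromBlocks M 0 0 M).submatrix eq6.symm eq6.symm
  have hgP : (g : M6) * (P : M6) = (P : M6) * (B * W.map F₀.subtype) := by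
    refine Matrix.ext_of_mulVec_single fun k => ?_
    rw [← Matrix.mulVec_mulVec, hgA, ← Matrix.mulVec_mulVec, hP]
    congr 1
    have hcol : ∀ l, ((B * W.map F₀.subtype) *ᵥ Pi.single k 1) l =
        Sum.elim (fun i => bK.repr (μ * (A k).1) i) (fun i => bK.repr (μ * (A k).2) i) (eq6.symm l) := by
      intro l
      rw [Matrix.mulVec_single_one]
      show (B * W.map F₀.subtype) l k = _
      rw [Matrix.mul_apply, ← eq6.sum_comp, Fintype.sum_sum_type]
      simp only [B, W, Matrix.submatrix_apply, Equiv.symm_apply_apply, Matrix.map_apply, Sum.elim_inl, Sum.elim_inr]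
      rcases eq6.symm l with i | i <;>
        simp only [Matrix.fromBlocks_apply₁₁, Matrix.fromBlocks_apply₁₂, Matrix.fromBlocks_apply₂₁, Matrix.fromBlocks_apply₂₂,
          Matrix.zero_apply, zero_mul, Finset.sum_const_zero, add_zero, zero_add, Sum.elim_inl, Sum.elim_inr] <;>
        rw [← Algebra.leftMulMatrix_mulVec_repr] <;> rfl
    have hsl : ∀ i, eq6.symm (Fin.castAdd 3 i) = Sum.inl i := fun i => finSumFinEquiv_symm_apply_castAdd i
    have hsr : ∀ i, eq6.symm (Fin.natAdd 3 i) = Sum.inr i := fun i => finSumFinEquiv_symm_apply_natAdd i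
    simp only [hcol, hsl, hsr, Sum.elim_inl, Sum.elim_inr, ← hexp]
  have hdet : Algebra.norm F μ * Algebra.norm F μ * ((W.det : F₀) : F) = 1 := by
    have h := congrArg Matrix.det hgP
    rw [Matrix.det_mul, Matrix.det_mul, hdetg, one_mul] at h
    have hP0 : (P : M6).det ≠ 0 := ((Matrix.isUnit_iff_isUnit_det _).mp P.isUnit).ne_zero
    have h' := mul_left_cancel₀ hP0 ((mul_one _).trans h)
    rw [Matrix.det_mul, Matrix.det_submatrix_equiv_self, Matrix.det_fromBlocks_zero₁₂, ← RingHom.mapMatrix_apply,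
      ← RingHom.map_det, hMd, ← Algebra.norm_eq_matrix_det] at h'
    exact h'.symm
  have hW1 : (W.det : F₀) = 1 := by
    refine Subtype.ext (((hF₀ _).mp (W.det).2).resolve_left fun h => ?_)
    rw [h, mul_zero] at hdet
    exact zero_ne_one hdet
  have hc21 : μ ^ 21 = 1 := by
    rw [hW1, OneMemClass.coe_one, mul_one] at hdet
    have h := FiniteField.algebraMap_norm_eq_pow (K := F) (x := μ)
    rw [Nat.card_eq_fintype_card, Nat.card_eq_fintype_card, hKcard, hq] at h
    have h2 : μ ^ 21 * μ ^ 21 = 1 := by rw [← h, ← map_mul, hdet, map_one]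
    have := hK63 μ hμ0
    calc μ ^ 21 = μ ^ 21 * (μ ^ 21 * μ ^ 21) := by rw [h2, mul_one]
      _ = μ ^ 63 := by rw [← pow_add, ← pow_add]
      _ = 1 := this
  obtain ⟨s, hs⟩ : ∃ s : F, algebraMap F K s = μ ^ 7 := by
    have h3 : (μ ^ 7) ^ 3 = 1 := by rw [← pow_mul]; exact hc21
    by_contra hcon
    push_neg at hcon
    have hsub : insert (μ ^ 7) ((Finset.univ.erase (0 : F)).image (algebraMap F K)) ⊆ (Polynomial.nthRoots 3 (1 : K)).toFinset := by
      intro x hx
      rw [Multiset.mem_toFinset, Polynomial.mem_nthRoots (by norm_num)]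
      rcases Finset.mem_insert.mp hx with rfl | hx
      · exact h3
      · obtain ⟨a, ha, rfl⟩ := Finset.mem_image.mp hx
        rw [← map_pow, hFpow a (Finset.ne_of_mem_erase ha), map_one]
    have h := (Finset.card_le_card hsub).trans ((Multiset.toFinset_card_le _).trans (Polynomial.card_nthRoots 3 1))
    rw [Finset.card_insert_of_notMem (fun hx => by
        obtain ⟨a, -, ha⟩ := Finset.mem_image.mp hx
        exact hcon a ha),
      Finset.card_image_of_injective _ (algebraMap F K).injective, Finset.card_erase_of_mem (Finset.mem_univ _), Finset.card_univ, hq] at h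
    omega
  have hs0 : s ≠ 0 := fun h => by
    rw [h, map_zero] at hs
    exact pow_ne_zero 7 hμ0 hs.symm
  set δ := μ ^ 15 with hδd
  have hδ8 : δ ^ 8 = δ := by
    rw [hδd, ← pow_mul, show 15 * 8 = 21 * 5 + 15 from rfl, pow_add, pow_mul, hc21, one_pow, one_mul]
  have hμs : μ = s • δ := by
    rw [Algebra.smul_def, hs, hδd, ← pow_add, show 7 + 15 = 21 + 1 from rfl, pow_succ, hc21, one_mul]
  let M₀ : Matrix (Fin 3) (Fin 3) F₀ := fun i j =>
    ⟨Algebra.leftMulMatrix bK δ i j, by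
      rw [Algebra.leftMulMatrix_eq_repr_mul, hbK]; exact hrat _ (by rw [mul_pow, hδ8, hz8]) i⟩
  let W' : Matrix (Fin 6) (Fin 6) F₀ :=
    (Matrix.fromBlocks M₀ 0 0 M₀).submatrix eq6.symm eq6.symm * W
  have hW' : B * W.map F₀.subtype = s • W'.map F₀.subtype := by
    have hB : B = s • ((Matrix.fromBlocks M₀ 0 0 M₀).submatrix eq6.symm eq6.symm).map F₀.subtype := by
      ext l k
      simp only [B, Matrix.submatrix_apply, Matrix.smul_apply, Matrix.map_apply]
      rcases eq6.symm l with i | i <;> rcases eq6.symm k with j | j <;>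
        simp only [Matrix.fromBlocks_apply₁₁, Matrix.fromBlocks_apply₁₂, Matrix.fromBlocks_apply₂₁, Matrix.fromBlocks_apply₂₂] <;>
        simp [M₀, hMd, hμs]
    rw [hB, Matrix.smul_mul]
    simp only [W', Matrix.map_mul]
  have hdW' : IsUnit W'.det := by
    rw [isUnit_iff_ne_zero]
    intro h
    have h1 := congrArg Matrix.det (hgP.trans (congrArg _ hW'))
    rw [Matrix.det_mul, hdetg, one_mul, Matrix.det_mul, Matrix.det_smul, ← RingHom.mapMatrix_apply,
      ← RingHom.map_det, h, map_zero, mul_zero, mul_zero] at h1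
    exact ((Matrix.isUnit_iff_isUnit_det _).mp P.isUnit).ne_zero h1
  refine ⟨Matrix.GeneralLinearGroup.map F₀.subtype (Matrix.GeneralLinearGroup.mk'' W' hdW') *
      Units.map (Matrix.scalar (Fin 6) : F →+* M6).toMonoidHom (Units.mk0 s hs0),
    mul_mem (Subgroup.mem_sup_left ⟨_, rfl⟩) (Subgroup.mem_sup_right ⟨_, rfl⟩), ?_⟩
  show P * _ * P⁻¹ = g
  refine mul_inv_eq_iff_eq_mul.mpr (Units.ext ?_)
  rw [Units.val_mul, Units.val_mul, Units.val_mul, hgP, hW']
  congr 1
  show W'.map F₀.subtype * Matrix.scalar (Fin 6) s = _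
  rw [Matrix.smul_eq_mul_diagonal]
  rfl

end Cfsg.Agent.GeomClasses.MaxList
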