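import Cfsg.Agent.GeomClasses.MaxList.UExcl

/-! # Monomial subgroups of the unitary group of degree six over four elements -/

set_option autoImplicit false

namespace Cfsg.Agent.GeomClasses.MaxList

namespace Quad

open Matrix Cfsg.Geo Cfsg.Agent.Forms Cfsg.Agent.GeomClasses.Unitary
open scoped MatrixGroups

/-- Addition of four elements. -/
def qadd (a b : Fin 4) : Fin 4 := ![![0, 1, 2, 3], ![1, 0, 3, 2], ![2, 3, 0, 1], ![3, 2, 1, 0]] a b

/-- Multiplication of four elements. -/
def qmul (a b : Fin 4) : Fin 4 := ![![0, 0, 0, 0], ![0, 1, 2, 3], ![0, 2, 3, 1], ![0, 3, 1, 2]] a b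

variable {F : Type*} [Field F] [Fintype F]

/-- The elements `0, 1, ω, ω + 1`. -/
def emb (ω : F) : Fin 4 → F := ![0, 1, ω, ω + 1]

theorem exists_omega (hF : Fintype.card F = 2 ^ 2) : ∃ ω : F, ω ^ 2 = ω + 1 ∧
    (∀ a b, emb ω (qadd a b) = emb ω a + emb ω b) ∧ (∀ a b, emb ω (qmul a b) = emb ω a * emb ω b) ∧
    Function.Bijective (emb ω) := by
  classical
  obtain ⟨ω, hω⟩ : ∃ ω : F, ω ∉ ({0, 1} : Finset F) := by
    by_contra hcon
    push_neg at hcon
    have h1 : Fintype.card F ≤ ({0, 1} : Finset F).card := Finset.card_le_card (fun x _ => hcon x)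
    have h2 : ({0, 1} : Finset F).card ≤ 2 := Finset.card_le_two
    omega
  simp only [Finset.mem_insert, Finset.mem_singleton, not_or] at hω
  have h2 := two_zero_four hF
  have h3 := norm_two hF hω.1
  have hw : ω ^ 2 = ω + 1 := by
    have : (ω - 1) * (ω ^ 2 + ω + 1) = 0 := by linear_combination h3
    linear_combination (mul_eq_zero.mp this).resolve_left (sub_ne_zero.mpr hω.2) - (ω + 1) * h2
  refine ⟨ω, hw, ?_, ?_, ?_⟩
  · intro a b
    fin_cases a <;> fin_cases b <;> simp [emb, qadd] <;>
      first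
      | linear_combination | linear_combination h2 | linear_combination (-1 : F) * h2 | linear_combination ω * h2
      | linear_combination (-ω) * h2 | linear_combination (ω + 1) * h2 | linear_combination (-(ω + 1)) * h2
  · intro a b
    fin_cases a <;> fin_cases b <;> simp [emb, qmul] <;>
      first
      | linear_combination hw | linear_combination -hw | linear_combination -hw - ω * h2
      | linear_combination -hw - (ω + 1) * h2 | linear_combination -hw - (2 * ω + 1) * h2
      | linear_combination -hw - (ω * h2) - h2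
  · refine (Fintype.bijective_iff_injective_and_card _).mpr ⟨?_, by rw [Fintype.card_fin, hF]; norm_num⟩
    intro a b h
    have h1 : ω + 1 ≠ 0 := fun h => hω.2 (by linear_combination h - h2)
    have h4 : ω + 1 ≠ 1 := fun h => hω.1 (by linear_combination h)
    have h5 : ω + 1 ≠ ω := fun h => one_ne_zero (α := F) (by linear_combination h)
    fin_cases a <;> fin_cases b <;> simp [emb, hω.1, hω.2, Ne.symm hω.1, Ne.symm hω.2, h1, h4, h5, h1.symm, h4.symm, h5.symm] at h ⊢

/-- Number of nonzero entries. -/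
def supp (a : Fin 6 → Fin 4) : ℕ := (Finset.univ.filter fun i => (a i != 0) = true).card

/-- Product of the entries. -/
def qprod (a : Fin 6 → Fin 4) : Fin 4 := qmul (a 0) (qmul (a 1) (qmul (a 2) (qmul (a 3) (qmul (a 4) (a 5)))))

/-- The sum of the entries. -/
def qsum (a : Fin 6 → Fin 4) : Fin 4 := qadd (a 0) (qadd (a 1) (qadd (a 2) (qadd (a 3) (qadd (a 4) (a 5)))))

theorem table : ∀ a b c d e f : Fin 4,
    let x : Fin 6 → Fin 4 := ![a, b, c, d, e, f]
    (supp x = 2 ∨ qprod x = 1) →
      (supp (fun i => qadd (x i) (qsum x)) = 2 ∨ qprod (fun i => qadd (x i) (qsum x)) = 1) := by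
  decide +kernel

/-- A set of coordinate vectors. -/
def Special (a : Fin 6 → F) : Prop := Nat.card {i // a i ≠ 0} = 2 ∨ ∏ i, a i = 1

theorem special_shift (hF : Fintype.card F = 2 ^ 2) (a : Fin 6 → F) (h : Special a) :
    Special fun i => a i + ∑ j, a j := by
  classical
  obtain ⟨ω, -, hadd, hmul, hbij⟩ := exists_omega hF
  have hconv : ∀ x : Fin 6 → Fin 4, (Special (emb ω ∘ x) ↔ (supp x = 2 ∨ qprod x = 1)) := by
    intro x
    have h1 : Nat.card {i // (emb ω ∘ x) i ≠ 0} = supp x := by
      have hz : ∀ i, (emb ω ∘ x) i ≠ 0 ↔ (x i != 0) = true := fun i => by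
        rw [bne_iff_ne, not_iff_not]
        exact ⟨fun h => hbij.1 h, fun h => by show emb ω (x i) = 0; rw [h]; rfl⟩
      rw [Nat.card_eq_fintype_card, Fintype.card_subtype]
      simp only [hz]
      rfl
    have h2 : ∏ i, (emb ω ∘ x) i = emb ω (qprod x) := by
      simp only [Fin.prod_univ_six, qprod, hmul, Function.comp_apply]
      ring
    rw [Special, h1, h2]
    exact or_congr Iff.rfl ⟨fun h => hbij.1 (h.trans rfl), fun h => by rw [h]; rfl⟩
  choose x hx using fun i => hbij.2 (a i)
  have hax : a = emb ω ∘ x := funext fun i => (hx i).symm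
  have hxx : x = ![x 0, x 1, x 2, x 3, x 4, x 5] := funext fun i => by fin_cases i <;> rfl
  subst hax
  have hnew : (fun i => (emb ω ∘ x) i + ∑ j, (emb ω ∘ x) j) = emb ω ∘ fun i => qadd (x i) (qsum x) := by
    funext i
    simp only [Fin.sum_univ_six, qsum, hadd, Function.comp_apply]
    ring
  rw [hnew, hconv, hxx]
  rw [hconv, hxx] at h
  exact table _ _ _ _ _ _ h

theorem special_mono (hF : Fintype.card F = 2 ^ 2) {a : Fin 6 → F} (σ : Equiv.Perm (Fin 6)) {c : Fin 6 → F}
    (hc : ∀ i, c i ≠ 0) (hprod : ∏ i, c i = 1) (b : Fin 6 → F) (hb : ∀ i, b (σ i) = c i * a i) (h : Special a) :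
    Special b := by
  rcases h with h | h
  · refine Or.inl ?_
    rw [← h]
    exact (Nat.card_congr (Equiv.subtypeEquiv σ fun i => by rw [hb, mul_ne_zero_iff]; exact ⟨fun h => ⟨hc i, h⟩, fun h => h.2⟩)).symm
  · refine Or.inr ?_
    rw [← Equiv.prod_comp σ b, Finset.prod_congr rfl fun i _ => hb i, Finset.prod_mul_distrib, hprod, h, one_mul]

end Quad

open Matrix Cfsg.Geo Cfsg.Agent.Forms Cfsg.Agent.GeomClasses.Unitary
open scoped MatrixGroups

variable {F : Type*} [Field F] [Fintype F]

local notation "hh" => Cfsg.hermForm 6 F 2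
local notation "SU6" => (Cfsg.GU 6 F 2 ⊓ specialLinear (Fin 6) F)

/-- The monomial group of degree six over four elements is not maximal. -/
theorem u6_monomial_two (hF : Fintype.card F = 2 ^ 2) {H : Subgroup (GL (Fin 6) F)} (hH : IsMaximalIn SU6 H)
    {D : Fin 6 → Submodule F (Fin 6 → F)} (hD : IsNondegenerateMDecomposition hh 1 D)
    (hle : H ≤ decompositionStabilizer D) : False := by
  classical
  have h2 := two_zero_four hF
  have hne : ∀ a, ∃ x ∈ D a, hh x x = 1 := fun a => exists_unit hF (nonDeg_of_on hF (hD.nondegenerate a)) fun h => by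
    have h1 := hD.decomp.finrank_eq a
    rw [h, finrank_bot] at h1
    exact zero_ne_one h1
  choose w hwD hww using hne
  have horth : ∀ a b, hh (w a) (w b) = if a = b then 1 else 0 := fun a b => by
    split_ifs with h
    · rw [h, hww]
    · exact hD.orthogonal a b h _ (hwD a) _ (hwD b)
  have hsum : ∀ (k : Fin 6 → F) (j : Fin 6), hh (∑ i, k i • w i) (w j) = k j := fun k j => by
    show hermB 6 hF (w j) (∑ i, k i • w i) = k j
    rw [map_sum, Finset.sum_eq_single j]
    · rw [map_smul, smul_eq_mul]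
      show k j * hh (w j) (w j) = k j
      rw [hww, mul_one]
    · intro i _ hij
      rw [map_smul, smul_eq_mul]
      show k i * hh (w i) (w j) = 0
      rw [horth, if_neg hij, mul_zero]
    · simp
  have hli : LinearIndependent F w := Fintype.linearIndependent_iff.mpr fun k hk i => by
    rw [← hsum k i, hk, hh_zero_left hF]
  let B := basisOfLinearIndependentOfCardEqFinrank hli (by rw [Fintype.card_fin, Module.finrank_fin_fun])
  have hB : ⇑B = w := coe_basisOfLinearIndependentOfCardEqFinrank _ _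
  have hexp : ∀ x : Fin 6 → F, ∑ i, hh x (w i) • w i = x := fun x => by
    obtain ⟨k, rfl⟩ : ∃ k : Fin 6 → F, ∑ i, k i • w i = x := ⟨fun i => B.repr x i, by rw [← hB]; exact B.sum_repr x⟩
    simp only [hsum]
  let X : Subgroup (GL (Fin 6) F) :=
    { carrier := {g | ∀ x, Quad.Special (fun i => hh x (w i)) ↔
          Quad.Special (fun i => hh ((g : Matrix (Fin 6) (Fin 6) F) *ᵥ x) (w i))}
      mul_mem' := fun {g g'} h h' x => by rw [Units.val_mul, ← Matrix.mulVec_mulVec]; exact (h' x).trans (h _)
      one_mem' := fun x => by rw [Units.val_one, Matrix.one_mulVec]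
      inv_mem' := fun {g} h x => by
        rw [h (((g⁻¹ : GL (Fin 6) F) : Matrix (Fin 6) (Fin 6) F) *ᵥ x), Matrix.mulVec_mulVec, Units.mul_inv, Matrix.one_mulVec] }
  -- monomial elements of determinant one
  have hmono : ∀ g ∈ H, ∀ x, Quad.Special (fun i => hh x (w i)) →
      Quad.Special (fun i => hh ((g : Matrix (Fin 6) (Fin 6) F) *ᵥ x) (w i)) := by
    intro g hg x hx
    obtain ⟨σ, hσ⟩ := hle hg
    have hc : ∀ i, ∃ c : F, (g : Matrix (Fin 6) (Fin 6) F) *ᵥ w i = c • w (σ i) := fun i => by
      have hm : (g : Matrix (Fin 6) (Fin 6) F) *ᵥ w i ∈ D (σ i) := by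
        rw [← hσ i]; exact ⟨_, hwD i, Matrix.toLin'_apply _ _⟩
      obtain ⟨c, hc⟩ := (finrank_eq_one_iff_of_nonzero' (⟨w (σ i), hwD (σ i)⟩ : D (σ i)) (fun h => hli.ne_zero (σ i) (congrArg Subtype.val h))).mp
        (hD.decomp.finrank_eq (σ i)) ⟨_, hm⟩
      exact ⟨c, (congrArg Subtype.val hc).symm⟩
    choose c hc using hc
    have hc0 : ∀ i, c i ≠ 0 := fun i h => by
      have h1 := mem_GU_iff.mp (hH.1.le hg).1 (w i) (w i)
      rw [hc, h, zero_smul, hh_zero_left hF, hww] at h1
      exact zero_ne_one h1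
    have hmat : LinearMap.toMatrix B B (Matrix.toLin' (g : Matrix (Fin 6) (Fin 6) F)) =
        (Matrix.diagonal fun j => c (σ.symm j)).submatrix id σ := by
      ext i j
      rw [LinearMap.toMatrix_apply, Matrix.toLin'_apply, hB, hc, map_smul, ← hB, B.repr_self, Finsupp.smul_apply,
        smul_eq_mul, Finsupp.single_apply, Matrix.submatrix_apply, Matrix.diagonal_apply, id]
      by_cases h : i = σ j
      · subst h; simp
      · rw [if_neg (Ne.symm h), if_neg h, mul_zero]
    have hprod : ∏ i, c i = 1 := by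
      have hdet : (g : Matrix (Fin 6) (Fin 6) F).det = 1 := mem_specialLinear_iff.mp (hH.1.le hg).2
      rw [← LinearMap.det_toLin', ← LinearMap.det_toMatrix B, hmat, Matrix.det_permute', Matrix.det_diagonal,
        Equiv.prod_comp σ.symm] at hdet
      rcases Int.units_eq_one_or (Equiv.Perm.sign σ) with h | h <;> rw [h] at hdet
      · simpa using hdet
      · simp only [Units.val_neg, Units.val_one, Int.cast_neg, Int.cast_one] at hdet
        linear_combination hdet + (∏ i, c i) * h2
    refine Quad.special_mono hF σ hc0 hprod _ (fun i => ?_) hx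
    conv_lhs => rw [← hexp x]
    rw [Matrix.mulVec_sum]
    simp only [Matrix.mulVec_smul, hc, smul_smul]
    show hermB 6 hF (w (σ i)) _ = _
    rw [map_sum, Finset.sum_eq_single i]
    · rw [map_smul, smul_eq_mul]
      show _ * hh (w (σ i)) (w (σ i)) = _
      rw [hww, mul_one, mul_comm]
    · intro j _ hji
      rw [map_smul, smul_eq_mul]
      show _ * hh (w (σ j)) (w (σ i)) = 0
      rw [horth, if_neg fun h => hji (σ.injective h), mul_zero]
    · simp
  have hHX : H ≤ X := fun g hg x => ⟨hmono g hg x, fun h => by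
    have h1 := hmono g⁻¹ (inv_mem hg) _ h
    rwa [Matrix.mulVec_mulVec, Units.inv_mul, Matrix.one_mulVec] at h1⟩
  -- the transvection with centre the sum of the frame
  set v := ∑ i, w i with hv
  have hwv : ∀ x, hh x v = ∑ i, hh x (w i) := fun x => by
    show hermB 6 hF v x = _
    rw [hv, map_sum, LinearMap.sum_apply]
    rfl
  have hvw : ∀ j, hh v (w j) = 1 := fun j => by
    rw [hv]; simpa using hsum (fun _ => 1) j
  have hvv : hh v v = 0 := by
    rw [hwv, Finset.sum_congr rfl fun i _ => hvw i]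
    simp only [Finset.sum_const, Finset.card_univ, Fintype.card_fin, nsmul_eq_mul, mul_one]
    push_cast
    linear_combination (3 : F) * h2
  have hc1 : (1 : F) + 1 ^ 2 = 0 := by rw [one_pow]; exact h2
  set t := uT (q := 2) v 1 hvv with ht
  have htS : t ∈ SU6 := uT_mem hF v 1 hvv hc1
  have htc : ∀ x i, hh ((t : Matrix (Fin 6) (Fin 6) F) *ᵥ x) (w i) = hh x (w i) + ∑ j, hh x (w j) := fun x i => by
    rw [ht, uT_mulVec, hh_add_left hF, hh_smul_left hF, hvw, one_mul, mul_one, hwv]
  have htt : ∀ x, (t : Matrix (Fin 6) (Fin 6) F) *ᵥ ((t : Matrix (Fin 6) (Fin 6) F) *ᵥ x) = x := fun x => by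
    rw [ht, uT_mulVec, uT_mulVec, hh_add_left hF, hh_smul_left hF, hvv, mul_zero, add_zero, add_assoc, ← add_smul,
      show (1 : F) * hh x v + 1 * hh x v = 0 by linear_combination hh x v * h2, zero_smul, add_zero]
  have htX : t ∈ X := fun x => by
    have key : ∀ x, Quad.Special (fun i => hh x (w i)) →
        Quad.Special (fun i => hh ((t : Matrix (Fin 6) (Fin 6) F) *ᵥ x) (w i)) := fun x hx => by
      simp only [htc]; exact Quad.special_shift hF _ hx
    exact ⟨key x, fun h => by have := key _ h; rwa [htt] at this⟩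
  have htH : t ∉ H := fun h => by
    obtain ⟨σ, hσ⟩ := hle h
    have hm : (t : Matrix (Fin 6) (Fin 6) F) *ᵥ w 0 ∈ D (σ 0) := by
      rw [← hσ 0]; exact ⟨_, hwD 0, Matrix.toLin'_apply _ _⟩
    obtain ⟨j, hj0, hj⟩ : ∃ j : Fin 6, j ≠ 0 ∧ j ≠ σ 0 := by
      by_cases h : σ 0 = 1
      · exact ⟨2, by decide, by rw [h]; decide⟩
      · exact ⟨1, by decide, Ne.symm h⟩
    have h1 := hD.orthogonal (σ 0) j hj.symm _ hm _ (hwD j)
    rw [htc, horth, if_neg (Ne.symm hj0), zero_add] at h1
    simp only [horth, Finset.sum_ite_eq, Finset.mem_univ, if_true] at h1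
    exact one_ne_zero h1
  rcases hH.2 (X ⊓ SU6) (le_inf hHX hH.1.le) inf_le_right with h | h
  · exact htH (h ▸ ⟨htX, htS⟩)
  -- a transvection moving the set
  set u := w 0 + w 1 + w 2 + w 3 with hu
  have huw : ∀ j, hh u (w j) = if j.val < 4 then 1 else 0 := fun j => by
    simp only [hu, hh_add_left hF, horth]
    fin_cases j <;> simp
  have huu : hh u u = 0 := by
    simp only [hu, hh_add_left hF, hh_add_right hF, horth, Fin.reduceEq, if_false, if_true]
    linear_combination (2 : F) * h2
  have hX := (h.ge (uT_mem hF u 1 huu hc1)).1 (w 0 + w 4)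
  have hxw : ∀ j, hh (w 0 + w 4) (w j) = if j = 0 ∨ j = 4 then 1 else 0 := fun j => by
    simp only [hh_add_left hF, horth]
    fin_cases j <;> simp
  have hxu : hh (w 0 + w 4) u = 1 := by
    simp only [hu, hh_add_left hF, hh_add_right hF, horth, Fin.reduceEq, if_false, if_true]
    ring
  have hsp : Quad.Special (fun i => hh (w 0 + w 4) (w i)) := Or.inl (by
    simp only [hxw, Nat.card_eq_fintype_card, Fintype.card_subtype]
    rw [show (Finset.univ.filter fun i : Fin 6 => (if i = 0 ∨ i = 4 then (1 : F) else 0) ≠ 0) = {0, 4} by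
      ext i; fin_cases i <;> simp]
    rfl)
  have hnew : ∀ i, hh ((uT (q := 2) u 1 huu : Matrix (Fin 6) (Fin 6) F) *ᵥ (w 0 + w 4)) (w i) =
      if i = 0 ∨ i = 5 then 0 else 1 := fun i => by
    rw [uT_mulVec, hh_add_left hF, hh_smul_left hF, hxu, hxw, huw, one_mul, one_mul]
    fin_cases i <;> simp
    linear_combination h2
  rcases hX.mp hsp with h' | h'
  · simp only [hnew, Nat.card_eq_fintype_card, Fintype.card_subtype] at h'
    rw [show (Finset.univ.filter fun i : Fin 6 => (if i = 0 ∨ i = 5 then (0 : F) else 1) ≠ 0) = {1, 2, 3, 4} by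
      ext i; fin_cases i <;> simp] at h'
    exact absurd h' (by decide)
  · simp only [hnew, Fin.prod_univ_six] at h'
    norm_num at h'

end Cfsg.Agent.GeomClasses.MaxList
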